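import Mathlib
import Cfsg.Agent.Lib.Helper82.Sect
import Cfsg.Agent.Lib.Helper82.Major
import Cfsg.Agent.Lib.Helper82.PReg
import Cfsg.Agent.Lib.Helper83.Central

/-!
# The principal block inside a `p`-section (helper82)

For a `p`-element `u` the characters of `C_G(u)` seen by the principal block of `G` in
`sect_block_orth` are exactly those of the principal block of `C_G(u)` (third main theorem).
Consequence: `∑ χ ∈ B₀(G), |χ u|² = ∑ ψ ∈ B₀(C_G(u)), ψ(1)²`.
-/

set_option autoImplicit false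

namespace Cfsg.Agent.Lib.Helper82

open Cfsg Cfsg.Agent.Lib.Helper4 Cfsg.Agent.Lib.Helper21 Cfsg.Agent.Lib.Helper22
open Cfsg.Agent.Lib.Helper79
open scoped ComplexConjugate

theorem exists_mul_mod {p : ℕ} (hp : p.Prime) (k c : ℕ) (hc : ¬ p ∣ c) :
    ∃ j : ℕ, c * j % p ^ k = 1 % p ^ k := by
  rcases Nat.eq_zero_or_pos k with rfl | hk
  · exact ⟨0, by simp⟩
  · have h1 : 1 < p ^ k := Nat.one_lt_pow hk.ne' hp.one_lt
    have h2 : Nat.Coprime c (p ^ k) :=
      Nat.Coprime.pow_right k ((Nat.Prime.coprime_iff_not_dvd hp).mpr hc).symm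
    obtain ⟨j, -, hj⟩ := Nat.exists_mul_mod_eq_one_of_coprime h2 h1
    exact ⟨j, by rw [hj, Nat.mod_eq_of_lt h1]⟩

theorem pow_mul_eq_self {X : Type*} [Group X] {z : X} {q c j : ℕ} (hz : z ^ q = 1)
    (h : c * j % q = 1 % q) : z ^ (c * j) = z := by
  rw [pow_eq_pow_mod (c * j) hz, h, ← pow_eq_pow_mod 1 hz, pow_one]

variable {G : Type*} [Group G] [Fintype G] {p : ℕ} [Fact p.Prime] {M : Ideal AlgInt}

/-- Third main theorem in the form needed for `sect_block_orth`. -/
theorem sectSet_principal (hM : IsPModular p M) (u : G) (hu : ∃ k : ℕ, orderOf u = p ^ k)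
    [Fintype (Subgroup.centralizer ({u} : Set G))] :
    sectSet M (principalBlock M G) (Subgroup.centralizer ({u} : Set G)) =
      principalBlock M (Subgroup.centralizer ({u} : Set G)) := by
  classical
  ext ψ
  have ha := isLocClass_blockCoeff hM (principalBlock M G) (Cfsg.Agent.S4691.principal_isPBlock M)
  have hb : IsPBlock M (blockOf M (ψ : Subgroup.centralizer ({u} : Set G) → ℂ)) := ⟨ψ, rfl⟩
  have hψb : ψ ∈ blockOf M (ψ : Subgroup.centralizer ({u} : Set G) → ℂ) := sameBlock_rfl hM _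
  obtain ⟨B', hind⟩ := exists_induced_centralizer hM u hu _ hb
  obtain ⟨χ₀, hχ₀⟩ := hind.2.1
  have hχ₀B : χ₀ ∈ B' := by
    rw [hχ₀]; exact sameBlock_rfl hM _
  have h1 := omega_indFun_sub_locIdeal hM _ _ B' hind ψ hψb χ₀ hχ₀B _ ha.1 ha.2
  rw [omega_indFun_res _ _ _ ha.1, omega_blockCoeff] at h1
  constructor
  · intro hψ
    by_cases hχ : χ₀ ∈ principalBlock M G
    · have hBeq : B' = principalBlock M G :=
        block_eq_of_mem hM hind.2.1 (Cfsg.Agent.S4691.principal_isPBlock M) χ₀ hχ₀B hχ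
      rw [hBeq] at hind
      have := third_main_hard hM _ _ hind
      rw [← this]
      exact hψb
    · rw [if_neg hχ, sub_zero] at h1
      exact absurd h1 hψ
  · intro hψ
    have hbeq : blockOf M (ψ : Subgroup.centralizer ({u} : Set G) → ℂ) =
        principalBlock M (Subgroup.centralizer ({u} : Set G)) :=
      block_eq_of_mem hM hb (Cfsg.Agent.S4691.principal_isPBlock M) ψ hψb hψ
    rw [hbeq] at hind
    have hB' := third_main_easy hM _ _ hind
    rw [hB'] at hχ₀B
    rw [if_pos hχ₀B] at h1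
    intro hJ
    have h2 := locIdeal_sub hM hJ h1
    rw [sub_sub_cancel] at h2
    exact locIdeal_one_not hM h2

/-- `∑ χ ∈ B₀(G), |χ u|² = ∑ ψ ∈ B₀(C_G(u)), ψ(1)²` for a `p`-element `u`. -/
theorem principal_column_norm (hM : IsPModular p M) (u : G) (hu : ∃ k : ℕ, orderOf u = p ^ k) :
    ∑ᶠ χ ∈ principalBlock M G, conj ((χ : G → ℂ) u) * (χ : G → ℂ) u =
      ∑ᶠ ψ ∈ principalBlock M (Subgroup.centralizer ({u} : Set G)),
        ((charDegree (ψ : Subgroup.centralizer ({u} : Set G) → ℂ) : ℕ) : ℂ) ^ 2 := by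
  classical
  have hp : p.Prime := Fact.out
  haveI := irr_finite (G := G)
  letI := Fintype.ofFinite (IrrCharacter G)
  letI : Fintype (Subgroup.centralizer ({u} : Set G)) := Fintype.ofFinite _
  haveI := irr_finite (G := Subgroup.centralizer ({u} : Set G))
  letI := Fintype.ofFinite (IrrCharacter (Subgroup.centralizer ({u} : Set G)))
  have hC : ∀ g, g ∈ Subgroup.centralizer ({u} : Set G) ↔ g * u = u * g := by
    intro g
    rw [Subgroup.mem_centralizer_iff]
    simp [eq_comm]
  have huC : u ∈ Subgroup.centralizer ({u} : Set G) := (hC u).mpr rfl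
  obtain ⟨k, hk⟩ := hu
  have hPG : IsPGroup p (Subgroup.zpowers u) := by
    apply IsPGroup.of_card (n := k)
    rw [Nat.card_zpowers, hk]
  have hxy : ∀ c : ℕ, ¬ p ∣ c → ∃ j : ℕ,
      ((⟨u, huC⟩ : Subgroup.centralizer ({u} : Set G)) : G) ^ (c * j) = u ∧
      ((⟨u, huC⟩ : Subgroup.centralizer ({u} : Set G)) : G) ^ (c * j) = u := by
    intro c hc
    obtain ⟨j, hj⟩ := exists_mul_mod hp k c hc
    have h1 : u ^ (c * j) = u :=
      pow_mul_eq_self (by rw [← hk]; exact pow_orderOf_eq_one u) hj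
    exact ⟨j, h1, h1⟩
  have h1 := sect_block_orth hM (principalBlock M G) (Cfsg.Agent.S4691.principal_isPBlock M) u hPG
    (Subgroup.centralizer ({u} : Set G)) hC ⟨u, huC⟩ ⟨u, huC⟩ hxy
  rw [finsum_mem_def, finsum_eq_sum_of_fintype, finsum_mem_def, finsum_eq_sum_of_fintype]
  have h2 : ∑ χ : IrrCharacter G, (principalBlock M G).indicator
      (fun χ : IrrCharacter G => conj ((χ : G → ℂ) u) * (χ : G → ℂ) u) χ =
      ∑ χ : IrrCharacter G, (if χ ∈ principalBlock M G then (1 : ℂ) else 0) *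
        (conj ((χ : G → ℂ) u) * (χ : G → ℂ) u) := by
    refine Finset.sum_congr rfl fun χ _ => ?_
    by_cases h : χ ∈ principalBlock M G
    · simp [h]
    · simp [h]
  rw [h2, h1]
  refine Finset.sum_congr rfl fun ψ _ => ?_
  have hz : (⟨u, huC⟩ : Subgroup.centralizer ({u} : Set G)) ∈
      Subgroup.center (Subgroup.centralizer ({u} : Set G)) := by
    rw [Subgroup.mem_center_iff]
    intro g
    apply Subtype.ext
    exact (hC g).mp g.2
  have h3 : conj ((ψ : Subgroup.centralizer ({u} : Set G) → ℂ) ⟨u, huC⟩) *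
      (ψ : Subgroup.centralizer ({u} : Set G) → ℂ) ⟨u, huC⟩ =
      ((charDegree (ψ : Subgroup.centralizer ({u} : Set G) → ℂ) : ℕ) : ℂ) ^ 2 := by
    rw [Complex.conj_mul', Cfsg.Agent.Lib.Helper83.irr_central_norm ψ _ hz]
    push_cast
    rfl
  rw [h3]
  have h4 : (ψ ∈ sectSet M (principalBlock M G) (Subgroup.centralizer ({u} : Set G))) ↔
      ψ ∈ principalBlock M (Subgroup.centralizer ({u} : Set G)) := by
    rw [sectSet_principal hM u ⟨k, hk⟩]
  by_cases h : ψ ∈ principalBlock M (Subgroup.centralizer ({u} : Set G))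
  · rw [if_pos (h4.mpr h)]
    simp [h]
  · rw [if_neg (fun h' => h (h4.mp h'))]
    simp [h]

end Cfsg.Agent.Lib.Helper82
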