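import Cfsg.Agent.Lib.Helper82.StrongOrth
import Cfsg.Agent.Lib.Helper82.CharCore
import Cfsg.Agent.Lib.Helper79.Blk2

/-!
# Brauer's relations for a class function induced from a `p`-subgroup (helper82)

General-`p` version of the first three relations of `S4722` (there `p = 2`): let `P` be a
`p`-subgroup, `U ⊆ P`, `t` an element such that no element of `U` is inverted by a conjugate of
`t`, `θ : P → ℂ` vanishing outside `U`, `B` a `p`-block and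
`a_χ = |P|⁻¹ ∑_{y ∈ P} χ(y) θ(y⁻¹)`.  Then `∑_{χ ∈ B} a_χ χ(g) = 0` for every `g` inverted by
a conjugate of `t`; if `t` is an involution, then `∑ a_χ χ(t)²/χ(1) = 0`, `∑ a_χ χ(1) = 0` and
`∑ a_χ χ(t) = 0`.
-/

set_option autoImplicit false

namespace Cfsg.Agent.Lib.Helper82

open Cfsg Cfsg.Agent.Lib.Helper21 Cfsg.Agent.Lib.Helper22 Cfsg.Agent.Lib.Helper79
open scoped ComplexConjugate

/-- The `B`-part of the class function attached to `θ` vanishes at every element inverted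
by a conjugate of `t`. -/
theorem theta_vanish_gen {G : Type*} [Group G] [Finite G] {p : ℕ} (M : Ideal AlgInt)
    (hM : IsPModular p M) (P : Subgroup G) (hP : IsPGroup p P) (U : Set G)
    (hUP : U ⊆ (P : Set G)) (t : G)
    (hinv : ∀ u ∈ U, ∀ g : G, (g * t * g⁻¹) * u * (g * t * g⁻¹)⁻¹ ≠ u⁻¹)
    (θ : ↥P → ℂ) (hθU : ∀ y : ↥P, (y : G) ∉ U → θ y = 0)
    (B : Set (IrrCharacter G)) (hB : IsPBlock M B) (g k : G)
    (hsg : (k * t * k⁻¹) * g * (k * t * k⁻¹)⁻¹ = g⁻¹) :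
    ∑ᶠ χ ∈ B, ((Nat.card ↥P : ℂ)⁻¹ *
      ∑ᶠ y : ↥P, (χ : G → ℂ) (y : G) * θ y⁻¹) * (χ : G → ℂ) g = 0 := by
  classical
  cases nonempty_fintype G
  haveI := finite_irrCharacter G
  letI := Fintype.ofFinite (IrrCharacter G)
  letI : Fintype P := Fintype.ofFinite P
  have hp : p.Prime := pmod_prime hM
  rw [finsum_mem_eq_sum_filter_univ]
  simp only [finsum_eq_sum_of_fintype]
  have hswap : ∑ χ ∈ Finset.univ.filter (· ∈ B),
      ((Nat.card ↥P : ℂ)⁻¹ * ∑ y : ↥P, (χ : G → ℂ) (y : G) * θ y⁻¹) * (χ : G → ℂ) g =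
      (Nat.card ↥P : ℂ)⁻¹ * ∑ y : ↥P, θ y⁻¹ *
        ∑ χ ∈ Finset.univ.filter (· ∈ B),
          (χ : G → ℂ) g * (χ : G → ℂ) (y : G) := by
    simp only [Finset.mul_sum, Finset.sum_mul]
    rw [Finset.sum_comm]
    refine Finset.sum_congr rfl fun y _ => Finset.sum_congr rfl fun χ _ => by ring
  rw [hswap]
  have hzero : ∀ y : ↥P, θ y⁻¹ * ∑ χ ∈ Finset.univ.filter (· ∈ B),
      (χ : G → ℂ) g * (χ : G → ℂ) (y : G) = 0 := by
    intro y
    by_cases hyU : ((y⁻¹ : ↥P) : G) ∈ U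
    · have hxy : ∀ (c : ℕ) (h : G), ¬ p ∣ c →
          ((y⁻¹ : ↥P) : G) ^ c ≠ h⁻¹ * g ^ c * h := by
        intro c h hc heq
        obtain ⟨u, hu⟩ : ∃ u : G, u = ((y⁻¹ : ↥P) : G) := ⟨_, rfl⟩
        rw [← hu] at heq hyU
        have huP : u ∈ P := hUP hyU
        obtain ⟨j, hj⟩ := hP ⟨u, huP⟩
        have hj' : u ^ (p ^ j) = 1 := by simpa using congrArg Subtype.val hj
        have hord : orderOf u ∣ p ^ j := orderOf_dvd_of_pow_eq_one hj'
        have hcop : Nat.Coprime c (orderOf u) := by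
          have h2 : Nat.Coprime c (p ^ j) :=
            Nat.Coprime.pow_right _ (by
              rw [Nat.coprime_comm]
              exact (Nat.Prime.coprime_iff_not_dvd hp).mpr hc)
          exact Nat.Coprime.coprime_dvd_right hord h2
        obtain ⟨d, hd⟩ := exists_pow_eq_self_of_coprime hcop
        have h1 : (h⁻¹ * (k * t * k⁻¹) * h) * u ^ c * (h⁻¹ * (k * t * k⁻¹) * h)⁻¹ =
            (u ^ c)⁻¹ := by
          rw [heq]
          have e1 : h⁻¹ * (k * t * k⁻¹) * h * (h⁻¹ * g ^ c * h) *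
              (h⁻¹ * (k * t * k⁻¹) * h)⁻¹ =
              h⁻¹ * ((k * t * k⁻¹) * g ^ c * (k * t * k⁻¹)⁻¹) * h := by group
          rw [e1, ← conj_pow, hsg, inv_pow]
          group
        have h2 : (h⁻¹ * (k * t * k⁻¹) * h) * u * (h⁻¹ * (k * t * k⁻¹) * h)⁻¹ = u⁻¹ := by
          calc (h⁻¹ * (k * t * k⁻¹) * h) * u * (h⁻¹ * (k * t * k⁻¹) * h)⁻¹
              = (h⁻¹ * (k * t * k⁻¹) * h) * (u ^ c) ^ d * (h⁻¹ * (k * t * k⁻¹) * h)⁻¹ := by
                rw [hd]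
            _ = ((h⁻¹ * (k * t * k⁻¹) * h) * u ^ c * (h⁻¹ * (k * t * k⁻¹) * h)⁻¹) ^ d := by
                rw [conj_pow]
            _ = ((u ^ c)⁻¹) ^ d := by rw [h1]
            _ = ((u ^ c) ^ d)⁻¹ := by rw [inv_pow]
            _ = u⁻¹ := by rw [hd]
        have h3 : h⁻¹ * (k * t * k⁻¹) * h = (h⁻¹ * k) * t * (h⁻¹ * k)⁻¹ := by group
        rw [h3] at h2
        exact hinv u hyU (h⁻¹ * k) h2
      have horth := strong_block_orth hM B hB g ((y⁻¹ : ↥P) : G) hxy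
      rw [finsum_mem_eq_sum_filter_univ] at horth
      have hcongr : ∑ χ ∈ Finset.univ.filter (· ∈ B),
          (χ : G → ℂ) g * (χ : G → ℂ) (y : G) =
          ∑ χ ∈ Finset.univ.filter (· ∈ B),
            (χ : G → ℂ) g * conj ((χ : G → ℂ) ((y⁻¹ : ↥P) : G)) := by
        refine Finset.sum_congr rfl fun χ _ => ?_
        rw [← Cfsg.Agent.Lib.Helper82.irr_inv]
        simp
      rw [hcongr, horth, mul_zero]
    · rw [hθU _ hyU, zero_mul]
  simp [hzero]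

/-- Brauer's three relations for an involution `t` inverting no element of `U`, for any prime
`p` and any `p`-block `B`. -/
theorem theta_relations_gen {G : Type*} [Group G] [Finite G] {p : ℕ} (M : Ideal AlgInt)
    (hM : IsPModular p M) (P : Subgroup G) (hP : IsPGroup p P) (U : Set G)
    (hUP : U ⊆ (P : Set G)) (t : G) (ht : orderOf t = 2)
    (hinv : ∀ u ∈ U, ∀ g : G, (g * t * g⁻¹) * u * (g * t * g⁻¹)⁻¹ ≠ u⁻¹)
    (θ : ↥P → ℂ) (hθU : ∀ y : ↥P, (y : G) ∉ U → θ y = 0)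
    (B : Set (IrrCharacter G)) (hB : IsPBlock M B) :
    (∑ᶠ χ ∈ B, ((Nat.card ↥P : ℂ)⁻¹ * ∑ᶠ y : ↥P, (χ : G → ℂ) (y : G) * θ y⁻¹) *
      (χ : G → ℂ) t ^ 2 / (χ : G → ℂ) 1 = 0) ∧
    (∑ᶠ χ ∈ B, ((Nat.card ↥P : ℂ)⁻¹ * ∑ᶠ y : ↥P, (χ : G → ℂ) (y : G) * θ y⁻¹) *
      (χ : G → ℂ) 1 = 0) ∧
    (∑ᶠ χ ∈ B, ((Nat.card ↥P : ℂ)⁻¹ * ∑ᶠ y : ↥P, (χ : G → ℂ) (y : G) * θ y⁻¹) *
      (χ : G → ℂ) t = 0) := by
  classical
  cases nonempty_fintype G
  haveI := finite_irrCharacter G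
  letI := Fintype.ofFinite (IrrCharacter G)
  letI : Fintype P := Fintype.ofFinite P
  have ht2 : t * t = 1 := by
    have := pow_orderOf_eq_one t
    rwa [ht, sq] at this
  have htinv : t⁻¹ = t := inv_eq_of_mul_eq_one_left ht2
  obtain ⟨a, ha⟩ : ∃ a : IrrCharacter G → ℂ, a = fun χ : IrrCharacter G =>
      (Nat.card ↥P : ℂ)⁻¹ * ∑ᶠ y : ↥P, (χ : G → ℂ) (y : G) * θ y⁻¹ := ⟨_, rfl⟩
  have hvan : ∀ g k : G, (k * t * k⁻¹) * g * (k * t * k⁻¹)⁻¹ = g⁻¹ →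
      ∑ χ ∈ Finset.univ.filter (· ∈ B), a χ * (χ : G → ℂ) g = 0 := by
    intro g k hsg
    have := theta_vanish_gen M hM P hP U hUP t hinv θ hθU B hB g k hsg
    rw [finsum_mem_eq_sum_filter_univ] at this
    rw [ha]
    exact this
  have hC2 : ∑ χ ∈ Finset.univ.filter (· ∈ B), a χ * (χ : G → ℂ) 1 = 0 :=
    hvan 1 1 (by group)
  have hC3 : ∑ χ ∈ Finset.univ.filter (· ∈ B), a χ * (χ : G → ℂ) t = 0 := by
    refine hvan t 1 ?_
    rw [htinv]; group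
  have hC1 : ∑ χ ∈ Finset.univ.filter (· ∈ B),
      a χ * (χ : G → ℂ) t ^ 2 / (χ : G → ℂ) 1 = 0 := by
    have hG : (Nat.card G : ℂ) ≠ 0 := by exact_mod_cast Nat.card_pos.ne'
    have h1 : ∀ χ : IrrCharacter G, a χ * (χ : G → ℂ) t ^ 2 / (χ : G → ℂ) 1 =
        (Nat.card G : ℂ)⁻¹ * ∑ h : G, a χ * (χ : G → ℂ) (h * t * h⁻¹ * t) := by
      intro χ
      rw [← Finset.mul_sum, irr_sum_conj_mul]
      field_simp
    rw [Finset.sum_congr rfl (fun χ _ => h1 χ), ← Finset.mul_sum, Finset.sum_comm]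
    rw [Finset.sum_eq_zero, mul_zero]
    intro h _
    refine hvan (h * t * h⁻¹ * t) 1 ?_
    have e1 : (1 * t * 1⁻¹) * (h * t * h⁻¹ * t) * (1 * t * 1⁻¹)⁻¹ =
        t * h * t * h⁻¹ * (t * t⁻¹) := by
      group
    have e2 : (h * t * h⁻¹ * t)⁻¹ = t⁻¹ * h * t⁻¹ * h⁻¹ := by group
    rw [e1, e2, htinv, ht2, mul_one]
  refine ⟨?_, ?_, ?_⟩
  · rw [finsum_mem_eq_sum_filter_univ]
    rw [ha] at hC1
    exact hC1
  · rw [finsum_mem_eq_sum_filter_univ]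
    rw [ha] at hC2
    exact hC2
  · rw [finsum_mem_eq_sum_filter_univ]
    rw [ha] at hC3
    exact hC3

end Cfsg.Agent.Lib.Helper82
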