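import Mathlib
import Cfsg.Prelude.Def_Blocks
import Cfsg.Agent.Lib.Helper21.Loc2
import Cfsg.Agent.Lib.Helper82.ResField

/-!
# S4648 piece KU-RESF (for helper1): the residue field at `M` is algebraically closed

The residue field of the local ring at `M` is algebraically closed and the residue map is
surjective.
-/

set_option autoImplicit false

namespace Cfsg.Agent.Lib.Helper82.Kuls

open Cfsg Cfsg.Agent.Lib.Helper21 Cfsg.Agent.Lib.Helper82

variable {p : ℕ} {M : Ideal AlgInt}

/-- The inclusion of the algebraic integers into the local ring at `M`. -/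
noncomputable def algIntToLoc (hM : IsPModular p M) : AlgInt →+* locSubring hM :=
  RingHom.codRestrict (algebraMap AlgInt ℂ) (locSubring hM) (fun a => locRing_algInt hM a)

theorem algIntToLoc_coe (hM : IsPModular p M) (a : AlgInt) :
    ((algIntToLoc hM a : locSubring hM) : ℂ) = (a : ℂ) := rfl

/-- The residue map on the algebraic integers is onto the residue field of the local ring. -/
theorem algIntToRes_surjective (hM : IsPModular p M) :
    Function.Surjective
      ((Ideal.Quotient.mk (locMaxIdeal hM)).comp (algIntToLoc hM)) := by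
  intro y
  obtain ⟨⟨x, hx⟩, rfl⟩ := Ideal.Quotient.mk_surjective y
  obtain ⟨a, b, hb, hab⟩ := hx
  haveI : M.IsMaximal := hM.2.1
  obtain ⟨c, i, hi, hci⟩ := Ideal.IsMaximal.exists_inv hM.2.1 hb
  refine ⟨a * c, ?_⟩
  rw [RingHom.comp_apply]
  apply Ideal.Quotient.eq.mpr
  rw [mem_locMaxIdeal]
  have hb0 : (b : ℂ) ≠ 0 := by
    intro h0
    apply hb
    have : b = 0 := Subtype.ext h0
    rw [this]
    exact M.zero_mem
  refine ⟨-(a * i), b, M.neg_mem (M.mul_mem_left a hi), hb, ?_⟩
  have hci' : (c : ℂ) * (b : ℂ) + (i : ℂ) = 1 := by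
    have := congrArg (fun t : AlgInt => (t : ℂ)) hci
    simpa using this
  have hi' : (i : ℂ) = 1 - (c : ℂ) * (b : ℂ) := by linear_combination hci'
  change (((-(a * i) : AlgInt) : ℂ)) / (b : ℂ) = ((a * c : AlgInt) : ℂ) - x
  rw [← hab]
  push_cast
  rw [hi']
  field_simp
  ring

theorem isAlgClosed_residue (hM : IsPModular p M) :
    haveI := locMaxIdeal_isMaximal hM
    letI : Field (locSubring hM ⧸ locMaxIdeal hM) := Ideal.Quotient.field _
    IsAlgClosed (locSubring hM ⧸ locMaxIdeal hM) := by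
  haveI := locMaxIdeal_isMaximal hM
  letI : Field (locSubring hM ⧸ locMaxIdeal hM) := Ideal.Quotient.field _
  apply IsAlgClosed.of_exists_root
  intro f hfm hfi
  set φ : AlgInt →+* (locSubring hM ⧸ locMaxIdeal hM) :=
    (Ideal.Quotient.mk (locMaxIdeal hM)).comp (algIntToLoc hM) with hφ
  have hsurj : Function.Surjective φ := algIntToRes_surjective hM
  have hlift : f ∈ Polynomial.lifts φ :=
    (Polynomial.mem_lifts _).mpr (Polynomial.map_surjective φ hsurj f)
  obtain ⟨q, hqmap, hqdeg, hqm⟩ := Polynomial.lifts_and_natDegree_eq_and_monic hlift hfm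
  have hdeg : 0 < q.natDegree := by
    rw [hqdeg]
    exact Polynomial.natDegree_pos_iff_degree_pos.mpr (Polynomial.degree_pos_of_irreducible hfi)
  have hdeg' : (q.map (algebraMap AlgInt ℂ)).degree ≠ 0 := by
    rw [hqm.degree_map, Polynomial.degree_eq_natDegree hqm.ne_zero]
    exact_mod_cast hdeg.ne'
  obtain ⟨z, hz⟩ := IsAlgClosed.exists_root (q.map (algebraMap AlgInt ℂ)) hdeg'
  have hzint : IsIntegral AlgInt z := by
    refine ⟨q, hqm, ?_⟩
    rw [← Polynomial.eval_map]
    exact hz
  have hzZ : IsIntegral ℤ z := isIntegral_trans z hzint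
  set z' : AlgInt := ⟨z, hzZ⟩ with hz'
  have hq0 : q.eval z' = 0 := by
    apply Subtype.ext
    have h1 : (algebraMap AlgInt ℂ) (q.eval z') = (q.map (algebraMap AlgInt ℂ)).eval z := by
      rw [Polynomial.eval_map, ← Polynomial.eval₂_at_apply]
      rfl
    have h2 : (q.map (algebraMap AlgInt ℂ)).eval z = 0 := hz
    rw [h2] at h1
    exact h1
  refine ⟨φ z', ?_⟩
  rw [← hqmap, Polynomial.eval_map, Polynomial.eval₂_at_apply, hq0, map_zero]

/-- **S4648, piece KU-RESF.** -/
theorem exists_residue_field_acl {p : ℕ} {M : Ideal AlgInt} (hM : IsPModular p M) :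
    ∃ (F : Type) (_ : Field F) (_ : IsAlgClosed F) (res : ℂ → F),
      (∀ x y, MemLocalRing M x → MemLocalRing M y → res (x + y) = res x + res y) ∧
      (∀ x y, MemLocalRing M x → MemLocalRing M y → res (x * y) = res x * res y) ∧
      res 1 = 1 ∧ (∀ x, MemLocalRing M x → (res x = 0 ↔ MemLocalIdeal M x)) ∧
      (∀ y : F, ∃ x, MemLocalRing M x ∧ res x = y) := by
  classical
  haveI := locMaxIdeal_isMaximal hM
  refine ⟨locSubring hM ⧸ locMaxIdeal hM, Ideal.Quotient.field _, isAlgClosed_residue hM,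
    fun z => if h : MemLocalRing M z then Ideal.Quotient.mk (locMaxIdeal hM) ⟨z, h⟩ else 0,
    ?_, ?_, ?_, ?_, ?_⟩
  · intro x y hx hy
    simp only [dif_pos hx, dif_pos hy, dif_pos (locRing_add hM hx hy)]
    rw [← map_add]
    rfl
  · intro x y hx hy
    simp only [dif_pos hx, dif_pos hy, dif_pos (locRing_mul hM hx hy)]
    rw [← map_mul]
    rfl
  · simp only [dif_pos (locRing_one hM)]
    rw [← map_one (Ideal.Quotient.mk (locMaxIdeal hM))]
    rfl
  · intro x hx
    simp only [dif_pos hx]
    rw [Ideal.Quotient.eq_zero_iff_mem]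
    rfl
  · intro y
    obtain ⟨⟨x, hx⟩, rfl⟩ := Ideal.Quotient.mk_surjective y
    have hx' : MemLocalRing M x := hx
    exact ⟨x, hx', dif_pos hx'⟩

end Cfsg.Agent.Lib.Helper82.Kuls
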