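import Mathlib
import Cfsg.Prelude.Def_GeometricClasses
import Cfsg.Agent.Lib.Helper71.Asch0
import Cfsg.Agent.Lib.Helper71.Asch8
import Cfsg.Agent.Lib.Helper1.SP8EADefs

/-! Project SPG (helper71), S5823, sub-project SP8-EA (architect helper1), piece EA2 (helper82):
the similitudes of `J ⊗ J` on `F² ⊗ F²` are the pure tensors and the pure tensors times the swap. -/

set_option autoImplicit false

namespace Cfsg.Agent.Lib.Helper82.SP8EA2

open Matrix Cfsg.Geo Cfsg.Agent.Lib.Helper71.Asch Cfsg.Agent.Lib.Helper1.SP8EADefs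
open scoped Kronecker

variable {n : ℕ} {F : Type*} [Field F] [Fintype F]

theorem ea2_par (a b : Fin 2 → F) (h : a 0 * b 1 - a 1 * b 0 = 0) (ha : a 0 ≠ 0 ∨ a 1 ≠ 0) :
    ∃ k : F, ∀ i, b i = k * a i := by
  rcases ha with ha | ha
  · refine ⟨b 0 / a 0, ?_⟩
    rw [Fin.forall_fin_two]
    constructor
    · exact (div_mul_cancel₀ (b 0) ha).symm
    · have h1 : b 1 * a 0 = b 0 * a 1 := by linear_combination h
      rw [div_mul_eq_mul_div, eq_div_iff ha]
      exact h1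
  · refine ⟨b 1 / a 1, ?_⟩
    rw [Fin.forall_fin_two]
    constructor
    · have h1 : b 0 * a 1 = b 1 * a 0 := by linear_combination -h
      rw [div_mul_eq_mul_div, eq_div_iff ha]
      exact h1
    · exact (div_mul_cancel₀ (b 1) ha).symm

theorem ea2_dec (p q r s : F) (h : p * s = q * r) :
    ∃ σ τ : Fin 2 → F, p = σ 0 * τ 0 ∧ q = σ 0 * τ 1 ∧ r = σ 1 * τ 0 ∧ s = σ 1 * τ 1 := by
  by_cases hp : p = 0
  · by_cases hq : q = 0
    · refine ⟨![0, 1], ![r, s], ?_, ?_, ?_, ?_⟩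
      · show p = 0 * r
        rw [hp, zero_mul]
      · show q = 0 * s
        rw [hq, zero_mul]
      · show r = 1 * r
        rw [one_mul]
      · show s = 1 * s
        rw [one_mul]
    · have hr : r = 0 := by
        have h1 : q * r = 0 := by rw [← h, hp, zero_mul]
        exact (mul_eq_zero.mp h1).resolve_left hq
      refine ⟨![1, s / q], ![0, q], ?_, ?_, ?_, ?_⟩
      · show p = 1 * 0
        rw [hp, mul_zero]
      · show q = 1 * q
        rw [one_mul]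
      · show r = s / q * 0
        rw [hr, mul_zero]
      · show s = s / q * q
        exact (div_mul_cancel₀ s hq).symm
  · refine ⟨![1, r / p], ![p, q], ?_, ?_, ?_, ?_⟩
    · show p = 1 * p
      rw [one_mul]
    · show q = 1 * q
      rw [one_mul]
    · show r = r / p * p
      exact (div_mul_cancel₀ r hp).symm
    · show s = r / p * q
      rw [div_mul_eq_mul_div, eq_div_iff hp]
      linear_combination h

theorem ea2_core (μ : F) (hμ : μ ≠ 0) (s1 t1 s2 t2 s3 t3 s4 t4 : Fin 2 → F)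
    (h12 : (s1 0 * s2 1 - s1 1 * s2 0) * (t1 0 * t2 1 - t1 1 * t2 0) = 0)
    (h13 : (s1 0 * s3 1 - s1 1 * s3 0) * (t1 0 * t3 1 - t1 1 * t3 0) = 0)
    (h42 : (s4 0 * s2 1 - s4 1 * s2 0) * (t4 0 * t2 1 - t4 1 * t2 0) = 0)
    (h43 : (s4 0 * s3 1 - s4 1 * s3 0) * (t4 0 * t3 1 - t4 1 * t3 0) = 0)
    (h14 : (s1 0 * s4 1 - s1 1 * s4 0) * (t1 0 * t4 1 - t1 1 * t4 0) = μ)
    (h23 : (s2 0 * s3 1 - s2 1 * s3 0) * (t2 0 * t3 1 - t2 1 * t3 0) = -μ)
    (hA : s1 0 * s2 1 - s1 1 * s2 0 = 0) :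
    ∃ U V : Matrix (Fin 2) (Fin 2) F, U.det ≠ 0 ∧ V.det ≠ 0 ∧ ∀ a b : Fin 2,
      s1 a * t1 b = U a 0 * V b 0 ∧ s2 a * t2 b = U a 0 * V b 1 ∧
      s3 a * t3 b = U a 1 * V b 0 ∧ s4 a * t4 b = U a 1 * V b 1 := by
  have hs14 : s1 0 * s4 1 - s1 1 * s4 0 ≠ 0 := by
    intro h
    rw [h, zero_mul] at h14
    exact hμ h14.symm
  have ht14 : t1 0 * t4 1 - t1 1 * t4 0 ≠ 0 := by
    intro h
    rw [h, mul_zero] at h14
    exact hμ h14.symm
  have hμ' : -μ ≠ 0 := neg_ne_zero.mpr hμ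
  have hs23 : s2 0 * s3 1 - s2 1 * s3 0 ≠ 0 := by
    intro h
    rw [h, zero_mul] at h23
    exact hμ' h23.symm
  have ht23 : t2 0 * t3 1 - t2 1 * t3 0 ≠ 0 := by
    intro h
    rw [h, mul_zero] at h23
    exact hμ' h23.symm
  have hs1 : s1 0 ≠ 0 ∨ s1 1 ≠ 0 := by
    by_contra hc
    push Not at hc
    apply hs14
    rw [hc.1, hc.2]
    ring
  obtain ⟨k, hk⟩ := ea2_par s1 s2 hA hs1
  have hk0 : k ≠ 0 := by
    intro hk0
    apply hs23
    rw [hk 0, hk 1, hk0]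
    ring
  have hs13 : s1 0 * s3 1 - s1 1 * s3 0 ≠ 0 := by
    intro h
    apply hs23
    rw [hk 0, hk 1]
    linear_combination k * h
  have ht13 : t1 0 * t3 1 - t1 1 * t3 0 = 0 := (mul_eq_zero.mp h13).resolve_left hs13
  have ht1 : t1 0 ≠ 0 ∨ t1 1 ≠ 0 := by
    by_contra hc
    push Not at hc
    apply ht14
    rw [hc.1, hc.2]
    ring
  obtain ⟨k', hk'⟩ := ea2_par t1 t3 ht13 ht1
  have hk'0 : k' ≠ 0 := by
    intro hk0
    apply ht23
    rw [hk' 0, hk' 1, hk0]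
    ring
  have hs42 : s4 0 * s2 1 - s4 1 * s2 0 ≠ 0 := by
    intro h
    rw [hk 0, hk 1] at h
    have h' : k * (s1 0 * s4 1 - s1 1 * s4 0) = 0 := by linear_combination -h
    rcases mul_eq_zero.mp h' with h1 | h1
    · exact hk0 h1
    · exact hs14 h1
  have ht42 : t4 0 * t2 1 - t4 1 * t2 0 = 0 := (mul_eq_zero.mp h42).resolve_left hs42
  have ht2 : t2 0 ≠ 0 ∨ t2 1 ≠ 0 := by
    by_contra hc
    push Not at hc
    apply ht23
    rw [hc.1, hc.2]
    ring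
  obtain ⟨m1, hm1⟩ := ea2_par t2 t4 (by linear_combination -ht42) ht2
  have ht43 : t4 0 * t3 1 - t4 1 * t3 0 ≠ 0 := by
    intro h
    rw [hk' 0, hk' 1] at h
    have h' : k' * (t1 0 * t4 1 - t1 1 * t4 0) = 0 := by linear_combination -h
    rcases mul_eq_zero.mp h' with h1 | h1
    · exact hk'0 h1
    · exact ht14 h1
  have hs43 : s4 0 * s3 1 - s4 1 * s3 0 = 0 := (mul_eq_zero.mp h43).resolve_right ht43
  have hs3 : s3 0 ≠ 0 ∨ s3 1 ≠ 0 := by
    by_contra hc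
    push Not at hc
    apply hs13
    rw [hc.1, hc.2]
    ring
  obtain ⟨m2, hm2⟩ := ea2_par s3 s4 (by linear_combination -hs43) hs3
  have hX1 : m1 * m2 * ((s1 0 * s3 1 - s1 1 * s3 0) * (t1 0 * t2 1 - t1 1 * t2 0)) = μ := by
    rw [← h14, hm2 0, hm2 1, hm1 0, hm1 1]
    ring
  have hX2 : k * k' * ((s1 0 * s3 1 - s1 1 * s3 0) * (t1 0 * t2 1 - t1 1 * t2 0)) = μ := by
    have h := h23
    rw [hk 0, hk 1, hk' 0, hk' 1] at h
    linear_combination -h
  have hX : (s1 0 * s3 1 - s1 1 * s3 0) * (t1 0 * t2 1 - t1 1 * t2 0) ≠ 0 := by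
    intro h
    rw [h, mul_zero] at hX1
    exact hμ hX1.symm
  have hm : m1 * m2 = k * k' := mul_right_cancel₀ hX (hX1.trans hX2.symm)
  have ht12 : t1 0 * t2 1 - t1 1 * t2 0 ≠ 0 := right_ne_zero_of_mul hX
  obtain ⟨U, hU⟩ : ∃ U : Matrix (Fin 2) (Fin 2) F, ∀ a, U a 0 = s1 a ∧ U a 1 = k' * s3 a :=
    ⟨Matrix.of (fun a c => if c = 0 then s1 a else k' * s3 a), fun a => ⟨by simp, by simp⟩⟩
  obtain ⟨V, hV⟩ : ∃ V : Matrix (Fin 2) (Fin 2) F, ∀ b, V b 0 = t1 b ∧ V b 1 = k * t2 b :=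
    ⟨Matrix.of (fun b d => if d = 0 then t1 b else k * t2 b), fun b => ⟨by simp, by simp⟩⟩
  refine ⟨U, V, ?_, ?_, ?_⟩
  · rw [Matrix.det_fin_two, (hU 0).1, (hU 1).2, (hU 0).2, (hU 1).1]
    intro h
    apply hs13
    have h' : k' * (s1 0 * s3 1 - s1 1 * s3 0) = 0 := by linear_combination h
    exact (mul_eq_zero.mp h').resolve_left hk'0
  · rw [Matrix.det_fin_two, (hV 0).1, (hV 1).2, (hV 0).2, (hV 1).1]
    intro h
    apply ht12
    have h' : k * (t1 0 * t2 1 - t1 1 * t2 0) = 0 := by linear_combination h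
    exact (mul_eq_zero.mp h').resolve_left hk0
  · intro a b
    rw [(hU a).1, (hU a).2, (hV b).1, (hV b).2]
    refine ⟨rfl, ?_, ?_, ?_⟩
    · rw [hk a]
      ring
    · rw [hk' b]
      ring
    · rw [hm2 a, hm1 b]
      linear_combination (s3 a * t2 b) * hm

theorem ea2_sum4 (f : (Fin 2 → Fin 2) → F) :
    ∑ x, f x = f ![0, 0] + f ![0, 1] + f ![1, 0] + f ![1, 1] := by
  rw [← (finTwoArrowEquiv (Fin 2)).symm.sum_comp f, Fintype.sum_prod_type]
  simp [Fin.sum_univ_two, add_assoc]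

theorem ea2_swap_apply (x y : Fin 2 → Fin 2) :
    (swapM : Matrix (Fin 2 → Fin 2) (Fin 2 → Fin 2) F) x y
      = if y = x ∘ Equiv.swap (0 : Fin 2) 1 then 1 else 0 := rfl

theorem ea2_mul_swap (M : Matrix (Fin 2 → Fin 2) (Fin 2 → Fin 2) F) (x z : Fin 2 → Fin 2) :
    (M * (swapM : Matrix (Fin 2 → Fin 2) (Fin 2 → Fin 2) F)) x z
      = M x (z ∘ Equiv.swap (0 : Fin 2) 1) := by
  rw [Matrix.mul_apply, Finset.sum_eq_single (z ∘ Equiv.swap (0 : Fin 2) 1)]
  · have h0 : z = (z ∘ Equiv.swap (0 : Fin 2) 1) ∘ Equiv.swap (0 : Fin 2) 1 := by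
      ext j
      simp
    rw [ea2_swap_apply, if_pos h0, mul_one]
  · intro b _ hb
    have h0 : z ≠ b ∘ Equiv.swap (0 : Fin 2) 1 := by
      rintro rfl
      apply hb
      ext j
      simp
    rw [ea2_swap_apply, if_neg h0, mul_zero]
  · intro h
    exact absurd (Finset.mem_univ _) h

theorem ea2_cols (B : Matrix (Fin 2 → Fin 2) (Fin 2 → Fin 2) F) (y : Fin 2 → Fin 2)
    (s t : Fin 2 → F) (ha : B ![0, 0] y = s 0 * t 0) (hb : B ![0, 1] y = s 0 * t 1)
    (hc : B ![1, 0] y = s 1 * t 0) (hd : B ![1, 1] y = s 1 * t 1) :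
    ∀ a b, B ![a, b] y = s a * t b := by
  rw [Fin.forall_fin_two]
  constructor <;> rw [Fin.forall_fin_two]
  · exact ⟨ha, hb⟩
  · exact ⟨hc, hd⟩

/-- EA2: the similitudes of `J ⊗ J` are the pure tensors and the pure tensors times the swap. -/
theorem EA2 (h2ne : (2 : F) ≠ 0) (B : Matrix (Fin 2 → Fin 2) (Fin 2 → Fin 2) F) (μ : F) (hμ : μ ≠ 0)
    (hB : Bᵀ * K22 * B = μ • (K22 : Matrix (Fin 2 → Fin 2) (Fin 2 → Fin 2) F)) :
    ∃ U V : Matrix (Fin 2) (Fin 2) F, U.det ≠ 0 ∧ V.det ≠ 0 ∧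
      (B = pt ![U, V] ∨ B = pt ![U, V] * swapM) := by
  have hK : ∀ a b c d : Fin 2,
      (K22 : Matrix (Fin 2 → Fin 2) (Fin 2 → Fin 2) F) ![a, b] ![c, d] = J2 a c * J2 b d := by
    intro a b c d
    simp [K22, pt_apply, Fin.prod_univ_two]
  have hJ00 : (J2 : Matrix (Fin 2) (Fin 2) F) 0 0 = 0 := by simp [J2]
  have hJ01 : (J2 : Matrix (Fin 2) (Fin 2) F) 0 1 = 1 := by simp [J2]
  have hJ10 : (J2 : Matrix (Fin 2) (Fin 2) F) 1 0 = -1 := by simp [J2]
  have hJ11 : (J2 : Matrix (Fin 2) (Fin 2) F) 1 1 = 0 := by simp [J2]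
  have hβ : ∀ y z, B ![0, 0] y * B ![1, 1] z + B ![1, 1] y * B ![0, 0] z
      - B ![0, 1] y * B ![1, 0] z - B ![1, 0] y * B ![0, 1] z = μ * K22 y z := by
    intro y z
    have h := congrFun (congrFun hB y) z
    rw [Matrix.smul_apply, smul_eq_mul] at h
    simp only [Matrix.mul_apply, Matrix.transpose_apply, ea2_sum4, hK, hJ00, hJ01, hJ10, hJ11] at h
    linear_combination h
  have hdet : ∀ c d : Fin 2, B ![0, 0] ![c, d] * B ![1, 1] ![c, d]
      = B ![0, 1] ![c, d] * B ![1, 0] ![c, d] := by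
    intro c d
    have e := hβ ![c, d] ![c, d]
    rw [hK] at e
    have hJcc : (J2 : Matrix (Fin 2) (Fin 2) F) c c = 0 := by
      revert c
      rw [Fin.forall_fin_two]
      exact ⟨fun _ => hJ00, fun _ => hJ11⟩
    rw [hJcc, zero_mul, mul_zero] at e
    have e' : (2 : F) * (B ![0, 0] ![c, d] * B ![1, 1] ![c, d]
        - B ![0, 1] ![c, d] * B ![1, 0] ![c, d]) = 0 := by linear_combination e
    have e'' := (mul_eq_zero.mp e').resolve_left h2ne
    linear_combination e''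
  obtain ⟨s1, t1, h1a, h1b, h1c, h1d⟩ := ea2_dec _ _ _ _ (hdet 0 0)
  obtain ⟨s2, t2, h2a, h2b, h2c, h2d⟩ := ea2_dec _ _ _ _ (hdet 0 1)
  obtain ⟨s3, t3, h3a, h3b, h3c, h3d⟩ := ea2_dec _ _ _ _ (hdet 1 0)
  obtain ⟨s4, t4, h4a, h4b, h4c, h4d⟩ := ea2_dec _ _ _ _ (hdet 1 1)
  have h12 : (s1 0 * s2 1 - s1 1 * s2 0) * (t1 0 * t2 1 - t1 1 * t2 0) = 0 := by
    have e := hβ ![0, 0] ![0, 1]
    rw [hK, hJ00, h1a, h1b, h1c, h1d, h2a, h2b, h2c, h2d] at e
    linear_combination e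
  have h13 : (s1 0 * s3 1 - s1 1 * s3 0) * (t1 0 * t3 1 - t1 1 * t3 0) = 0 := by
    have e := hβ ![0, 0] ![1, 0]
    rw [hK, hJ00, h1a, h1b, h1c, h1d, h3a, h3b, h3c, h3d] at e
    linear_combination e
  have h42 : (s4 0 * s2 1 - s4 1 * s2 0) * (t4 0 * t2 1 - t4 1 * t2 0) = 0 := by
    have e := hβ ![1, 1] ![0, 1]
    rw [hK, hJ11, h4a, h4b, h4c, h4d, h2a, h2b, h2c, h2d] at e
    linear_combination e
  have h43 : (s4 0 * s3 1 - s4 1 * s3 0) * (t4 0 * t3 1 - t4 1 * t3 0) = 0 := by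
    have e := hβ ![1, 1] ![1, 0]
    rw [hK, hJ11, h4a, h4b, h4c, h4d, h3a, h3b, h3c, h3d] at e
    linear_combination e
  have h14 : (s1 0 * s4 1 - s1 1 * s4 0) * (t1 0 * t4 1 - t1 1 * t4 0) = μ := by
    have e := hβ ![0, 0] ![1, 1]
    rw [hK, hJ01, h1a, h1b, h1c, h1d, h4a, h4b, h4c, h4d] at e
    linear_combination e
  have h23 : (s2 0 * s3 1 - s2 1 * s3 0) * (t2 0 * t3 1 - t2 1 * t3 0) = -μ := by
    have e := hβ ![0, 1] ![1, 0]
    rw [hK, hJ01, hJ10, h2a, h2b, h2c, h2d, h3a, h3b, h3c, h3d] at e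
    linear_combination e
  have hc1 := ea2_cols B ![0, 0] s1 t1 h1a h1b h1c h1d
  have hc2 := ea2_cols B ![0, 1] s2 t2 h2a h2b h2c h2d
  have hc3 := ea2_cols B ![1, 0] s3 t3 h3a h3b h3c h3d
  have hc4 := ea2_cols B ![1, 1] s4 t4 h4a h4b h4c h4d
  have hvec : ∀ x : Fin 2 → Fin 2, x = ![x 0, x 1] := by
    intro x
    funext i
    revert i
    rw [Fin.forall_fin_two]
    exact ⟨rfl, rfl⟩
  rcases mul_eq_zero.mp h12 with hA | hA
  · obtain ⟨U, V, hU, hV, hUV⟩ := ea2_core μ hμ s1 t1 s2 t2 s3 t3 s4 t4 h12 h13 h42 h43 h14 h23 hA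
    refine ⟨U, V, hU, hV, Or.inl ?_⟩
    have key : ∀ c d a b, B ![a, b] ![c, d] = U a c * V b d := by
      rw [Fin.forall_fin_two]
      constructor <;> rw [Fin.forall_fin_two] <;> constructor
      · intro a b
        rw [hc1 a b]
        exact (hUV a b).1
      · intro a b
        rw [hc2 a b]
        exact (hUV a b).2.1
      · intro a b
        rw [hc3 a b]
        exact (hUV a b).2.2.1
      · intro a b
        rw [hc4 a b]
        exact (hUV a b).2.2.2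
    ext x y
    rw [hvec x, hvec y, key, pt_apply, Fin.prod_univ_two]
    rfl
  · obtain ⟨U, V, hU, hV, hUV⟩ := ea2_core μ hμ t1 s1 t2 s2 t3 s3 t4 s4
      (by rw [mul_comm]; exact h12) (by rw [mul_comm]; exact h13) (by rw [mul_comm]; exact h42)
      (by rw [mul_comm]; exact h43) (by rw [mul_comm]; exact h14) (by rw [mul_comm]; exact h23) hA
    refine ⟨V, U, hV, hU, Or.inr ?_⟩
    have key : ∀ c d a b, B ![a, b] ![c, d] = V a d * U b c := by
      rw [Fin.forall_fin_two]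
      constructor <;> rw [Fin.forall_fin_two] <;> constructor
      · intro a b
        rw [hc1 a b]
        linear_combination (hUV b a).1
      · intro a b
        rw [hc2 a b]
        linear_combination (hUV b a).2.1
      · intro a b
        rw [hc3 a b]
        linear_combination (hUV b a).2.2.1
      · intro a b
        rw [hc4 a b]
        linear_combination (hUV b a).2.2.2
    ext x y
    rw [ea2_mul_swap, hvec x, hvec y, key, pt_apply, Fin.prod_univ_two]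
    rfl

end Cfsg.Agent.Lib.Helper82.SP8EA2
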