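import Mathlib
import Cfsg.Prelude.Def_GeometricClasses
import Cfsg.Agent.Lib.Helper71.Asch0
import Cfsg.Agent.Lib.Helper71.Asch5

/-! S5630 pieces SG and SH (helper82 for helper71): non-scalar elements of `L` have trace `0`;
`(n : F) ≠ 0`. -/

set_option autoImplicit false

namespace Cfsg.Agent.Lib.Helper82.ASSG

open Matrix Cfsg.Geo Cfsg.Agent.Lib.Helper71.Asch
open scoped Kronecker commutatorElement

variable {n : ℕ} {F : Type*} [Field F]

theorem inv_mul_val (P : GL (Fin n) F) : (P⁻¹ : GL (Fin n) F).1 * P.1 = 1 := by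
  rw [← Units.val_mul, inv_mul_cancel, Units.val_one]

theorem mul_inv_val (P : GL (Fin n) F) : P.1 * (P⁻¹ : GL (Fin n) F).1 = 1 := by
  rw [← Units.val_mul, mul_inv_cancel, Units.val_one]

/-- (F2) An element of an absolutely irreducible `L` commuting with all of `L` is scalar. -/
theorem mem_scalars_of_central (L : Subgroup (GL (Fin n) F))
    (hLa : ActsAbsolutelyIrreducibly (matrixSet L)) (x : GL (Fin n) F)
    (hx : ∀ y ∈ L, y * x = x * y) : x ∈ scalars (Fin n) F := by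
  obtain ⟨c, hc⟩ := hLa.2 x.1 (by
    rintro _ ⟨y, hy, rfl⟩
    have := congrArg Units.val (hx y hy)
    simpa using this.symm)
  rw [mem_scalars_iff]
  by_cases hc0 : c = 0
  · subst hc0
    rw [zero_smul] at hc
    have h1 : (1 : Matrix (Fin n) (Fin n) F) = 0 := by
      rw [← mul_inv_val x, hc, zero_mul]
    refine ⟨1, ?_⟩
    rw [hc, Units.val_one, one_smul, h1]
  · exact ⟨Units.mk0 c hc0, by rw [Units.val_mk0]; exact hc⟩

/-- SG -/
theorem SG (H L : Subgroup (GL (Fin n) F)) (h : SymT H L) :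
    ∀ x ∈ L, x ∉ scalars (Fin n) F → Matrix.trace x.1 = 0 := by
  intro x hxL hxZ
  have hex : ∃ y ∈ L, y * x ≠ x * y := by
    by_contra hcon
    push Not at hcon
    exact hxZ (mem_scalars_of_central L h.abs x hcon)
  obtain ⟨y, hyL, hyx⟩ := hex
  have hcomm : ⁅y, x⁆ ∈ scalars (Fin n) F := h.comm (Subgroup.commutator_mem_commutator hyL hxL)
  rw [mem_scalars_iff] at hcomm
  obtain ⟨c, hc⟩ := hcomm
  have hc1 : (c : F) ≠ 1 := by
    intro hc1
    apply hyx
    rw [hc1, one_smul] at hc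
    have h1 : ⁅y, x⁆ = 1 := Units.ext hc
    rw [commutatorElement_eq_one_iff_mul_comm] at h1
    exact h1
  have h2 : (y * x * y⁻¹ : GL (Fin n) F) = ⁅y, x⁆ * x := by
    rw [commutatorElement_def]; group
  have h3 : (y * x * y⁻¹ : GL (Fin n) F).1 = (c : F) • x.1 := by
    rw [h2, Units.val_mul, hc, Matrix.smul_mul, one_mul]
  have h4 : Matrix.trace (y * x * y⁻¹ : GL (Fin n) F).1 = Matrix.trace x.1 := by
    rw [Units.val_mul, Units.val_mul]
    exact Matrix.trace_units_conj y x.1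
  rw [h3, Matrix.trace_smul, smul_eq_mul] at h4
  have h5 : ((c : F) - 1) * Matrix.trace x.1 = 0 := by rw [sub_mul, h4, one_mul, sub_self]
  rcases mul_eq_zero.1 h5 with h6 | h6
  · exact absurd (sub_eq_zero.1 h6) hc1
  · exact h6

/-- SH -/
theorem SH [Fintype F] (hn : 1 ≤ n) (L : Subgroup (GL (Fin n) F))
    (hLa : ActsAbsolutelyIrreducibly (matrixSet L)) (r : ℕ) (hr : r.Prime) (hr0 : (r : F) ≠ 0)
    (hp : ∀ x ∈ L, ∃ j : ℕ, x ^ (r ^ j) = 1) : (n : F) ≠ 0 := by
  classical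
  haveI : NeZero n := ⟨by omega⟩
  haveI : Fintype ↥L := Fintype.ofFinite _
  let E : Matrix (Fin n) (Fin n) F := Matrix.single 0 0 1
  let T : Matrix (Fin n) (Fin n) F := ∑ g : ↥L, g.1.1 * E * (g.1⁻¹ : GL (Fin n) F).1
  have hT : ∀ x ∈ L, x.1 * T * (x⁻¹ : GL (Fin n) F).1 = T := by
    intro x hx
    show x.1 * (∑ g : ↥L, g.1.1 * E * (g.1⁻¹ : GL (Fin n) F).1) * (x⁻¹ : GL (Fin n) F).1 = _
    rw [Finset.mul_sum, Finset.sum_mul]
    refine Fintype.sum_equiv (Equiv.mulLeft (⟨x, hx⟩ : ↥L)) _ _ (fun g => ?_)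
    simp only [Equiv.coe_mulLeft, Subgroup.coe_mul, Units.val_mul, _root_.mul_inv_rev, mul_assoc]
  have hTc : ∀ s ∈ matrixSet L, T * s = s * T := by
    rintro _ ⟨x, hx, rfl⟩
    have := hT x hx
    calc T * x.1 = (x.1 * T * (x⁻¹ : GL (Fin n) F).1) * x.1 := by rw [this]
      _ = x.1 * T * ((x⁻¹ : GL (Fin n) F).1 * x.1) := by simp only [mul_assoc]
      _ = x.1 * T := by rw [inv_mul_val, mul_one]
  obtain ⟨c, hc⟩ := hLa.2 T hTc
  have htr1 : Matrix.trace T = (Nat.card ↥L : F) := by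
    show Matrix.trace (∑ g : ↥L, g.1.1 * E * (g.1⁻¹ : GL (Fin n) F).1) = _
    rw [Matrix.trace_sum]
    have : ∀ g : ↥L, Matrix.trace (g.1.1 * E * (g.1⁻¹ : GL (Fin n) F).1) = 1 := by
      intro g
      rw [Matrix.trace_units_conj]
      simp [E]
    rw [Finset.sum_congr rfl (fun g _ => this g)]
    simp [Nat.card_eq_fintype_card]
  have htr2 : Matrix.trace T = c * (n : F) := by
    rw [hc, Matrix.trace_smul, Matrix.trace_one]; simp
  have hcard : ∃ a : ℕ, Nat.card ↥L = r ^ a := by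
    haveI : Fact r.Prime := ⟨hr⟩
    have hpg : IsPGroup r ↥L := by
      intro g
      obtain ⟨j, hj⟩ := hp g.1 g.2
      exact ⟨j, Subtype.ext hj⟩
    exact IsPGroup.iff_card.1 hpg
  obtain ⟨a, ha⟩ := hcard
  intro hn0
  rw [htr1, ha, hn0, mul_zero] at htr2
  push_cast at htr2
  exact pow_ne_zero a hr0 htr2

end Cfsg.Agent.Lib.Helper82.ASSG
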