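import Mathlib
import Cfsg.Prelude.Def_GeometricClasses
import Cfsg.Agent.Lib.Helper71.Asch0
import Cfsg.Agent.Lib.Helper71.Asch5

/-! S5630 piece SA (helper82 for helper71): in the symplectic-type branch there is a prime `r`
with `x ^ r` scalar for all `x ∈ L`. -/

set_option autoImplicit false

namespace Cfsg.Agent.Lib.Helper82.ASSA

open Matrix Cfsg.Geo Cfsg.Agent.Lib.Helper71.Asch
open scoped Kronecker commutatorElement

variable {n : ℕ} {F : Type*} [Field F]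

/-- Two elements of `L` commute modulo the scalars when `⁅L, L⁆` is scalar. -/
theorem commute_mk (L : Subgroup (GL (Fin n) F)) (hc : ⁅L, L⁆ ≤ scalars (Fin n) F)
    {u v : GL (Fin n) F} (hu : u ∈ L) (hv : v ∈ L) :
    Commute (u : GL (Fin n) F ⧸ scalars (Fin n) F) (v : GL (Fin n) F ⧸ scalars (Fin n) F) := by
  have h1 : ⁅u, v⁆ ∈ scalars (Fin n) F := hc (Subgroup.commutator_mem_commutator hu hv)
  have h2 : ((⁅u, v⁆ : GL (Fin n) F) : GL (Fin n) F ⧸ scalars (Fin n) F) = 1 :=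
    (QuotientGroup.eq_one_iff _).2 h1
  rw [commutatorElement_def] at h2
  have h3 : (u : GL (Fin n) F ⧸ scalars (Fin n) F) * v *
      (u : GL (Fin n) F ⧸ scalars (Fin n) F)⁻¹ * (v : GL (Fin n) F ⧸ scalars (Fin n) F)⁻¹ = 1 := by
    simpa using h2
  have h4 := mul_inv_eq_one.1 h3
  exact mul_inv_eq_iff_eq_mul.1 h4

/-- For `u v ∈ L` (with `⁅L, L⁆` scalar): `(u v)^r` is scalar if `u^r` and `v^r` are. -/
theorem mul_pow_mem (L : Subgroup (GL (Fin n) F)) (hc : ⁅L, L⁆ ≤ scalars (Fin n) F) (r : ℕ)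
    {u v : GL (Fin n) F} (hu : u ∈ L) (hv : v ∈ L) (hur : u ^ r ∈ scalars (Fin n) F)
    (hvr : v ^ r ∈ scalars (Fin n) F) : (u * v) ^ r ∈ scalars (Fin n) F := by
  rw [← QuotientGroup.eq_one_iff] at hur hvr ⊢
  rw [QuotientGroup.mk_pow] at hur hvr
  rw [QuotientGroup.mk_pow, QuotientGroup.mk_mul, (commute_mk L hc hu hv).mul_pow, hur, hvr,
    one_mul]

/-- SA -/
theorem SA [Fintype F] (H L : Subgroup (GL (Fin n) F)) (h : SymT H L) :
    ∃ r : ℕ, r.Prime ∧ ∀ x ∈ L, x ^ r ∈ scalars (Fin n) F := by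
  classical
  obtain ⟨x, hxL, hxZ⟩ := SetLike.not_le_iff_exists.1 h.min.ns
  have hex : ∃ m : ℕ, 0 < m ∧ x ^ m ∈ scalars (Fin n) F :=
    ⟨orderOf x, orderOf_pos x, by rw [pow_orderOf_eq_one]; exact Subgroup.one_mem _⟩
  let m := Nat.find hex
  have hm : 0 < m ∧ x ^ m ∈ scalars (Fin n) F := Nat.find_spec hex
  have hmin : ∀ j : ℕ, j < m → ¬ (0 < j ∧ x ^ j ∈ scalars (Fin n) F) :=
    fun j hj => Nat.find_min hex hj
  have hm1 : m ≠ 1 := by
    intro h1
    apply hxZ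
    have := hm.2
    rw [h1, pow_one] at this
    exact this
  let r := m.minFac
  have hr : r.Prime := Nat.minFac_prime hm1
  have hrm : r ∣ m := Nat.minFac_dvd m
  let y := x ^ (m / r)
  have hyL : y ∈ L := Subgroup.pow_mem _ hxL _
  have hyr : y ^ r ∈ scalars (Fin n) F := by
    show (x ^ (m / r)) ^ r ∈ _
    rw [← pow_mul, Nat.div_mul_cancel hrm]
    exact hm.2
  have hyZ : y ∉ scalars (Fin n) F := by
    intro hy
    have hlt : m / r < m := Nat.div_lt_self hm.1 hr.one_lt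
    have hpos : 0 < m / r := Nat.div_pos (Nat.le_of_dvd hm.1 hrm) hr.pos
    exact hmin _ hlt ⟨hpos, hy⟩
  let N : Subgroup (GL (Fin n) F) :=
    { carrier := {u | u ∈ L ∧ u ^ r ∈ scalars (Fin n) F}
      mul_mem' := fun {u v} hu hv =>
        ⟨L.mul_mem hu.1 hv.1, mul_pow_mem L h.comm r hu.1 hv.1 hu.2 hv.2⟩
      one_mem' := ⟨L.one_mem, by rw [one_pow]; exact Subgroup.one_mem _⟩
      inv_mem' := fun {u} hu => ⟨L.inv_mem hu.1, by rw [inv_pow]; exact Subgroup.inv_mem _ hu.2⟩ }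
  have hNL : N ≤ L := fun u hu => hu.1
  have hNrm : Nrm H N := by
    intro g hg u hu
    refine ⟨h.min.nrm g hg u hu.1, ?_⟩
    rw [conj_pow]
    exact (scalars_normal (ι := Fin n) (F := F)).conj_mem _ hu.2 g
  refine ⟨r, hr, ?_⟩
  rcases h.min.min N hNL hNrm with hN | hN
  · exact absurd (hN ⟨hyL, hyr⟩) hyZ
  · intro u hu
    have hu' : u ∈ N := by rw [hN]; exact hu
    exact hu'.2

end Cfsg.Agent.Lib.Helper82.ASSA
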