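import Mathlib
import Cfsg.Prelude.Def_GeometricClasses
import Cfsg.Agent.Lib.Helper71.Asch0
import Cfsg.Agent.Lib.Helper86.ASB8Defs

/-! S5630 piece B8.BIG (helper82 for helper86): products of `k` pairwise commuting systems of
`m × m` matrix units form a system of matrix units indexed by `Fin k → Fin m`. -/

set_option autoImplicit false

namespace Cfsg.Agent.Lib.Helper82.ASB8BIG

open Matrix Cfsg.Geo Cfsg.Agent.Lib.Helper71.Asch Cfsg.Agent.Lib.Helper86.ASB8

variable {F : Type*} [Field F]

theorem sum_cons {M : Type*} [AddCommMonoid M] {k m : ℕ} (f : Fin m → (Fin k → Fin m) → M) :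
    ∑ x : Fin (k + 1) → Fin m, f (x 0) (Fin.tail x) = ∑ a, ∑ x', f a x' := by
  rw [← Fintype.sum_prod_type']
  exact Fintype.sum_equiv (Fin.consEquiv (fun _ : Fin (k + 1) => Fin m)).symm _ _ (fun x => rfl)

theorem eq_iff_zero_tail {k m : ℕ} (y z : Fin (k + 1) → Fin m) :
    y = z ↔ y 0 = z 0 ∧ Fin.tail y = Fin.tail z := by
  constructor
  · rintro rfl; exact ⟨rfl, rfl⟩
  · rintro ⟨h0, ht⟩
    rw [← Fin.cons_self_tail y, ← Fin.cons_self_tail z, h0, ht]

theorem big_units_aux {n m : ℕ} : ∀ (k : ℕ) (E : Fin k → Fin m → Fin m → Matrix (Fin n) (Fin n) F),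
    (∀ i, IsMU (E i)) → (∀ i j, i ≠ j → ∀ a b c d, E i a b * E j c d = E j c d * E i a b) →
    ∃ B : (Fin k → Fin m) → (Fin k → Fin m) → Matrix (Fin n) (Fin n) F, IsMU B ∧
      (∀ i a b, E i a b =
        ∑ x : Fin k → Fin m, if x i = a then B x (Function.update x i b) else 0) ∧
      (∀ M : Matrix (Fin n) (Fin n) F, (∀ i a b, M * E i a b = E i a b * M) →
        ∀ x y, M * B x y = B x y * M) := by
  intro k
  induction k with
  | zero =>
    intro E hE hcomm
    refine ⟨fun _ _ => 1, ⟨?_, ?_⟩, ?_, ?_⟩
    · intro x y z w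
      rw [if_pos (Subsingleton.elim y z), one_mul]
    · simp
    · intro i; exact Fin.elim0 i
    · intro M _ x y
      rw [mul_one, one_mul]
  | succ k ih =>
    intro E hE hcomm
    obtain ⟨B', hB', hexp', hcen'⟩ := ih (fun i => E i.succ) (fun i => hE i.succ)
      (fun i j hij => hcomm i.succ j.succ (fun h => hij (Fin.succ_injective _ h)))
    have hexp'' : ∀ (i : Fin k) (a b : Fin m), E i.succ a b =
        ∑ x : Fin k → Fin m, if x i = a then B' x (Function.update x i b) else 0 := hexp'
    have hcen'' : ∀ M : Matrix (Fin n) (Fin n) F,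
        (∀ (i : Fin k) (a b : Fin m), M * E i.succ a b = E i.succ a b * M) →
        ∀ x y, M * B' x y = B' x y * M := hcen'
    have hc0 : ∀ a b x' y', E 0 a b * B' x' y' = B' x' y' * E 0 a b := by
      intro a b x' y'
      exact hcen'' (E 0 a b) (fun i c d => hcomm 0 i.succ (Fin.succ_ne_zero i).symm a b c d) x' y'
    refine ⟨fun x y => E 0 (x 0) (y 0) * B' (Fin.tail x) (Fin.tail y), ⟨?_, ?_⟩, ?_, ?_⟩
    · intro x y z w
      show E 0 (x 0) (y 0) * B' (Fin.tail x) (Fin.tail y) *
          (E 0 (z 0) (w 0) * B' (Fin.tail z) (Fin.tail w)) =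
        if y = z then E 0 (x 0) (w 0) * B' (Fin.tail x) (Fin.tail w) else 0
      have h1 : E 0 (x 0) (y 0) * B' (Fin.tail x) (Fin.tail y) *
          (E 0 (z 0) (w 0) * B' (Fin.tail z) (Fin.tail w)) =
          (E 0 (x 0) (y 0) * E 0 (z 0) (w 0)) *
            (B' (Fin.tail x) (Fin.tail y) * B' (Fin.tail z) (Fin.tail w)) := by
        calc E 0 (x 0) (y 0) * B' (Fin.tail x) (Fin.tail y) *
              (E 0 (z 0) (w 0) * B' (Fin.tail z) (Fin.tail w))
            = E 0 (x 0) (y 0) * (B' (Fin.tail x) (Fin.tail y) * E 0 (z 0) (w 0)) *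
                B' (Fin.tail z) (Fin.tail w) := by simp only [mul_assoc]
          _ = E 0 (x 0) (y 0) * (E 0 (z 0) (w 0) * B' (Fin.tail x) (Fin.tail y)) *
                B' (Fin.tail z) (Fin.tail w) := by rw [hc0]
          _ = _ := by simp only [mul_assoc]
      rw [h1, (hE 0).mul, hB'.mul]
      by_cases h0 : y 0 = z 0
      · by_cases ht : Fin.tail y = Fin.tail z
        · rw [if_pos h0, if_pos ht, if_pos ((eq_iff_zero_tail y z).2 ⟨h0, ht⟩)]
        · rw [if_neg ht, mul_zero, if_neg (fun h => ht ((eq_iff_zero_tail y z).1 h).2)]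
      · rw [if_neg h0, zero_mul, if_neg (fun h => h0 ((eq_iff_zero_tail y z).1 h).1)]
    · show ∑ x : Fin (k + 1) → Fin m, E 0 (x 0) (x 0) * B' (Fin.tail x) (Fin.tail x) = 1
      rw [sum_cons (fun a x' => E 0 a a * B' x' x')]
      have h2 : ∀ a : Fin m, ∑ x' : Fin k → Fin m, E 0 a a * B' x' x' = E 0 a a := by
        intro a
        rw [← Finset.mul_sum, hB'.one, mul_one]
      rw [Finset.sum_congr rfl (fun a _ => h2 a), (hE 0).one]
    · intro i a b
      refine Fin.cases ?_ (fun i' => ?_) i
      · have h3 : ∀ x : Fin (k + 1) → Fin m,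
            (if x 0 = a then E 0 (x 0) ((Function.update x 0 b) 0) *
              B' (Fin.tail x) (Fin.tail (Function.update x 0 b)) else 0) =
            (fun c x' => if c = a then E 0 c b * B' x' x' else 0) (x 0) (Fin.tail x) := by
          intro x
          simp only [Function.update_self, Fin.tail_update_zero]
        show E 0 a b = ∑ x : Fin (k + 1) → Fin m,
          if x 0 = a then E 0 (x 0) ((Function.update x 0 b) 0) *
              B' (Fin.tail x) (Fin.tail (Function.update x 0 b)) else 0
        rw [Finset.sum_congr rfl (fun x _ => h3 x),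
          sum_cons (fun c x' => if c = a then E 0 c b * B' x' x' else 0)]
        have h2 : ∀ c, ∑ x' : Fin k → Fin m, (if c = a then E 0 c b * B' x' x' else 0) =
            if c = a then E 0 c b else 0 := by
          intro c
          by_cases hca : c = a
          · simp only [if_pos hca]
            rw [← Finset.mul_sum, hB'.one, mul_one]
          · simp only [if_neg hca]
            exact Finset.sum_const_zero
        rw [Finset.sum_congr rfl (fun c _ => h2 c),
          Finset.sum_ite_eq' Finset.univ a (fun c => E 0 c b), if_pos (Finset.mem_univ a)]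
      · have h3 : ∀ x : Fin (k + 1) → Fin m,
            (if x i'.succ = a then E 0 (x 0) ((Function.update x i'.succ b) 0) *
              B' (Fin.tail x) (Fin.tail (Function.update x i'.succ b)) else 0) =
            (fun c x' => if x' i' = a then E 0 c c * B' x' (Function.update x' i' b) else 0)
              (x 0) (Fin.tail x) := by
          intro x
          have h0 : (Function.update x i'.succ b) 0 = x 0 :=
            Function.update_of_ne (Fin.succ_ne_zero i').symm _ _
          rw [h0, Fin.tail_update_succ]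
          rfl
        show E i'.succ a b = ∑ x : Fin (k + 1) → Fin m,
          if x i'.succ = a then E 0 (x 0) ((Function.update x i'.succ b) 0) *
              B' (Fin.tail x) (Fin.tail (Function.update x i'.succ b)) else 0
        rw [Finset.sum_congr rfl (fun x _ => h3 x),
          sum_cons (fun c x' => if x' i' = a then E 0 c c * B' x' (Function.update x' i' b) else 0)]
        have h2 : ∀ c, ∑ x' : Fin k → Fin m,
            (if x' i' = a then E 0 c c * B' x' (Function.update x' i' b) else 0) =
            E 0 c c * E i'.succ a b := by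
          intro c
          rw [hexp'' i' a b, Finset.mul_sum]
          refine Finset.sum_congr rfl (fun x' _ => ?_)
          split_ifs
          · rfl
          · rw [mul_zero]
        rw [Finset.sum_congr rfl (fun c _ => h2 c), ← Finset.sum_mul, (hE 0).one, one_mul]
    · intro M hM x y
      show M * (E 0 (x 0) (y 0) * B' (Fin.tail x) (Fin.tail y)) =
        E 0 (x 0) (y 0) * B' (Fin.tail x) (Fin.tail y) * M
      rw [← mul_assoc, hM 0, mul_assoc, hcen'' M (fun i a b => hM i.succ a b), mul_assoc]

/-- B8.BIG: the products of `k` pairwise commuting systems of `m × m` matrix units form a system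
of matrix units indexed by `Fin k → Fin m`. -/
theorem big_units {n k m : ℕ} (E : Fin k → Fin m → Fin m → Matrix (Fin n) (Fin n) F)
    (hE : ∀ i, IsMU (E i))
    (hcomm : ∀ i j, i ≠ j → ∀ a b c d, E i a b * E j c d = E j c d * E i a b) :
    ∃ B : (Fin k → Fin m) → (Fin k → Fin m) → Matrix (Fin n) (Fin n) F, IsMU B ∧
      ∀ i a b, E i a b =
        ∑ x : Fin k → Fin m, if x i = a then B x (Function.update x i b) else 0 := by
  obtain ⟨B, h1, h2, -⟩ := big_units_aux k E hE hcomm
  exact ⟨B, h1, h2⟩

end Cfsg.Agent.Lib.Helper82.ASB8BIG
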