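import Mathlib
import Cfsg.Prelude.Def_GeometricClasses
import Cfsg.Agent.Lib.Helper71.Asch0
import Cfsg.Agent.Lib.Helper86.ASB8Defs

/-! S5630 piece B8.UNITS (helper82 for helper86): matrix units spanning the span of a
homogeneous group. -/

set_option autoImplicit false

namespace Cfsg.Agent.Lib.Helper82.ASB8UNITS

open Matrix Cfsg.Geo Cfsg.Agent.Lib.Helper71.Asch Cfsg.Agent.Lib.Helper86.ASB8
open scoped Kronecker

variable {F : Type*} [Field F]

section tm

variable {n d k : ℕ}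

theorem inv_mul_val (P : GL (Fin n) F) : (P⁻¹ : GL (Fin n) F).1 * P.1 = 1 := by
  rw [← Units.val_mul, inv_mul_cancel, Units.val_one]

theorem mul_inv_val (P : GL (Fin n) F) : P.1 * (P⁻¹ : GL (Fin n) F).1 = 1 := by
  rw [← Units.val_mul, mul_inv_cancel, Units.val_one]

theorem tmat_mul (e : Fin n ≃ Fin d × Fin k) (P : GL (Fin n) F)
    (a a' : Matrix (Fin d) (Fin d) F) (b b' : Matrix (Fin k) (Fin k) F) :
    tmat e P a b * tmat e P a' b' = tmat e P (a * a') (b * b') := by
  unfold tmat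
  have h2 : Matrix.reindex e.symm e.symm ((a * a') ⊗ₖ (b * b')) =
      Matrix.reindex e.symm e.symm (a ⊗ₖ b) * Matrix.reindex e.symm e.symm (a' ⊗ₖ b') := by
    rw [Matrix.mul_kronecker_mul]
    simp [Matrix.reindex_apply, Matrix.submatrix_mul_equiv]
  rw [h2]
  calc P.1 * Matrix.reindex e.symm e.symm (a ⊗ₖ b) * (P⁻¹ : GL (Fin n) F).1 *
        (P.1 * Matrix.reindex e.symm e.symm (a' ⊗ₖ b') * (P⁻¹ : GL (Fin n) F).1)
      = P.1 * Matrix.reindex e.symm e.symm (a ⊗ₖ b) * ((P⁻¹ : GL (Fin n) F).1 * P.1) *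
        Matrix.reindex e.symm e.symm (a' ⊗ₖ b') * (P⁻¹ : GL (Fin n) F).1 := by
        simp only [mul_assoc]
    _ = _ := by rw [inv_mul_val, mul_one]; simp only [mul_assoc]

theorem tmat_one (e : Fin n ≃ Fin d × Fin k) (P : GL (Fin n) F) :
    tmat e P (1 : Matrix (Fin d) (Fin d) F) (1 : Matrix (Fin k) (Fin k) F) = 1 := by
  unfold tmat
  have h2 : Matrix.reindex e.symm e.symm
      ((1 : Matrix (Fin d) (Fin d) F) ⊗ₖ (1 : Matrix (Fin k) (Fin k) F)) = 1 := by
    rw [Matrix.one_kronecker_one]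
    simp [Matrix.reindex_apply]
  rw [h2, mul_one, mul_inv_val]

/-- `a ↦ tmat e P a 1` as a linear map. -/
def phi (e : Fin n ≃ Fin d × Fin k) (P : GL (Fin n) F) :
    Matrix (Fin d) (Fin d) F →ₗ[F] Matrix (Fin n) (Fin n) F where
  toFun a := tmat e P a 1
  map_add' a b := by
    unfold tmat
    have h2 : Matrix.reindex e.symm e.symm ((a + b) ⊗ₖ (1 : Matrix (Fin k) (Fin k) F)) =
        Matrix.reindex e.symm e.symm (a ⊗ₖ (1 : Matrix (Fin k) (Fin k) F)) +
          Matrix.reindex e.symm e.symm (b ⊗ₖ (1 : Matrix (Fin k) (Fin k) F)) := by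
      rw [Matrix.add_kronecker]
      ext i j
      simp [Matrix.reindex_apply]
    rw [h2, mul_add, add_mul]
  map_smul' c a := by
    unfold tmat
    have h2 : Matrix.reindex e.symm e.symm ((c • a) ⊗ₖ (1 : Matrix (Fin k) (Fin k) F)) =
        c • Matrix.reindex e.symm e.symm (a ⊗ₖ (1 : Matrix (Fin k) (Fin k) F)) := by
      rw [Matrix.smul_kronecker]
      ext i j
      simp [Matrix.reindex_apply]
    rw [h2, Matrix.mul_smul, Matrix.smul_mul]
    rfl

theorem phi_apply (e : Fin n ≃ Fin d × Fin k) (P : GL (Fin n) F) (a : Matrix (Fin d) (Fin d) F) :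
    phi e P a = tmat e P a 1 := rfl

end tm

/-- B8.UNITS: matrix units spanning the span of a homogeneous group. -/
theorem units {n d k' : ℕ} (e : Fin n ≃ Fin d × Fin k') (P : GL (Fin n) F)
    (R : Subgroup (GL (Fin d) F)) (N : Subgroup (GL (Fin n) F))
    (hspan : Submodule.span F (matrixSet R) = ⊤)
    (h1 : ∀ x ∈ N, ∃ y ∈ R, x.1 = tmat e P y.1 1)
    (h2 : ∀ y ∈ R, ∃ x ∈ N, x.1 = tmat e P y.1 1) :
    ∃ E : Fin d → Fin d → Matrix (Fin n) (Fin n) F, IsMU E ∧
      ∀ X : Matrix (Fin n) (Fin n) F, X ∈ Submodule.span F (matrixSet N) ↔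
        ∃ A : Matrix (Fin d) (Fin d) F, X = ∑ a, ∑ b, A a b • E a b := by
  classical
  have hsum : ∀ A : Matrix (Fin d) (Fin d) F,
      ∑ a, ∑ b, A a b • tmat e P (Matrix.single a b (1 : F)) 1 = phi e P A := by
    intro A
    conv_rhs => rw [Matrix.matrix_eq_sum_single A]
    rw [map_sum]
    refine Finset.sum_congr rfl (fun a _ => ?_)
    rw [map_sum]
    refine Finset.sum_congr rfl (fun b _ => ?_)
    have h3 : Matrix.single a b (A a b) = A a b • Matrix.single a b (1 : F) := by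
      rw [Matrix.smul_single, smul_eq_mul, mul_one]
    rw [h3, map_smul, phi_apply]
  have himg : matrixSet N = (phi e P) '' (matrixSet R) := by
    ext X
    constructor
    · rintro ⟨x, hx, rfl⟩
      obtain ⟨y, hy, hxy⟩ := h1 x hx
      exact ⟨y.1, ⟨y, hy, rfl⟩, hxy.symm⟩
    · rintro ⟨_, ⟨y, hy, rfl⟩, rfl⟩
      obtain ⟨x, hx, hxy⟩ := h2 y hy
      exact ⟨x, hx, hxy⟩
  have hrange : Submodule.span F (matrixSet N) = LinearMap.range (phi e P) := by
    rw [himg, ← Submodule.map_span, hspan, Submodule.map_top]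
  refine ⟨fun a b => tmat e P (Matrix.single a b (1 : F)) 1, ⟨?_, ?_⟩, ?_⟩
  · intro x y z w
    rw [tmat_mul, mul_one]
    by_cases hyz : y = z
    · subst hyz
      rw [if_pos rfl, Matrix.single_mul_single_same, mul_one]
    · rw [if_neg hyz, Matrix.single_mul_single_of_ne (1 : F) x y z hyz]
      exact (phi e P).map_zero
  · have h4 : ∑ x : Fin d, Matrix.single x x (1 : F) = 1 := Matrix.sum_single_one
    have h5 : ∑ x : Fin d, tmat e P (Matrix.single x x (1 : F)) 1 =
        phi e P (∑ x : Fin d, Matrix.single x x (1 : F)) := by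
      rw [map_sum]
      rfl
    rw [h5, h4, phi_apply, tmat_one]
  · intro X
    rw [hrange, LinearMap.mem_range]
    constructor
    · rintro ⟨A, rfl⟩
      exact ⟨A, (hsum A).symm⟩
    · rintro ⟨A, rfl⟩
      exact ⟨A, (hsum A).symm⟩

end Cfsg.Agent.Lib.Helper82.ASB8UNITS
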