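import Cfsg.Agent.Lib.Helper47.QuadDefs
import Cfsg.Agent.Lib.Helper47.GUPrime

/-!
# S2674/S2675 piece SELFDUAL (for helper47): the characteristic polynomial of an isometry of a
nondegenerate bilinear form is self-dual
-/

set_option autoImplicit false

namespace Cfsg.Agent.Lib.Helper82

open Polynomial Module Cfsg.Agent.Lib.Helper47

theorem charpoly_selfdual {F : Type*} [Field F] {V : Type*} [AddCommGroup V] [Module F V]
    [FiniteDimensional F V] {B : V → V → F} {ε : F} (hB : IsSForm (RingHom.id F) ε B)
    (hnd : Nondeg B) (g : Module.End F V) (hgi : ∀ x y, B (g x) (g y) = B x y) :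
    dualP (RingHom.id F) g.charpoly = g.charpoly := by
  classical
  -- linearity in the second variable
  have hsymm : ∀ x y, B x y = ε * B y x := fun x y => by
    have := hB.symm y x
    simpa using this
  have hadd2 : ∀ x y z, B x (y + z) = B x y + B x z := by
    intro x y z
    rw [hsymm x (y + z), hB.add_left, mul_add, ← hsymm, ← hsymm]
  have hsmul2 : ∀ (c : F) x y, B x (c • y) = c * B x y := by
    intro c x y
    rw [hsymm x (c • y), hB.smul_left, hsymm x y]
    ring
  have hzero1 : ∀ y, B 0 y = 0 := by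
    intro y
    have := hB.smul_left 0 0 y
    simpa using this
  have hsum1 : ∀ (s : Finset (Fin (finrank F V))) (f : Fin (finrank F V) → V) (y : V),
      B (∑ i ∈ s, f i) y = ∑ i ∈ s, B (f i) y := by
    intro s f y
    induction s using Finset.induction_on with
    | empty => simp [hzero1]
    | insert a s ha ih => rw [Finset.sum_insert ha, Finset.sum_insert ha, hB.add_left, ih]
  have hzero2 : ∀ x, B x 0 = 0 := by
    intro x
    have := hsmul2 0 x 0
    simpa using this
  have hsum2 : ∀ (s : Finset (Fin (finrank F V))) (f : Fin (finrank F V) → V) (x : V),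
      B x (∑ i ∈ s, f i) = ∑ i ∈ s, B x (f i) := by
    intro s f x
    induction s using Finset.induction_on with
    | empty => simp [hzero2]
    | insert a s ha ih => rw [Finset.sum_insert ha, Finset.sum_insert ha, hadd2, ih]
  -- a basis
  let b : Basis (Fin (finrank F V)) F V := Module.finBasis F V
  set M : Matrix (Fin (finrank F V)) (Fin (finrank F V)) F := LinearMap.toMatrix b b g with hM
  set G : Matrix (Fin (finrank F V)) (Fin (finrank F V)) F := Matrix.of fun i j => B (b i) (b j)
    with hG
  have hgb : ∀ j, g (b j) = ∑ k, M k j • b k := by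
    intro j
    have h1 := b.sum_repr (g (b j))
    rw [← h1]
    refine Finset.sum_congr rfl fun k _ => ?_
    rw [hM, LinearMap.toMatrix_apply]
  -- the Gram identity
  have hgram : M.transpose * G * M = G := by
    ext i j
    have h1 : B (g (b i)) (g (b j)) = B (b i) (b j) := hgi _ _
    rw [hgb i, hgb j, hsum1] at h1
    simp only [hB.smul_left, hsum2, hsmul2] at h1
    rw [Matrix.mul_apply]
    simp only [Matrix.mul_apply, Matrix.transpose_apply, hG, Matrix.of_apply]
    rw [← h1]
    simp only [Finset.sum_mul, Finset.mul_sum]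
    rw [Finset.sum_comm]
    refine Finset.sum_congr rfl fun k _ => Finset.sum_congr rfl fun l _ => ?_
    ring
  -- the Gram matrix is invertible
  have hGu : IsUnit G := by
    refine Matrix.vecMul_injective_iff_isUnit.mp ?_
    intro c₁ c₂ h12
    obtain ⟨c, hcdef⟩ : ∃ c, c = c₁ - c₂ := ⟨_, rfl⟩
    have hc : Matrix.vecMul c G = 0 := by
      rw [hcdef, Matrix.sub_vecMul]
      exact sub_eq_zero.mpr h12
    suffices hc0 : c = 0 by
      rw [hcdef] at hc0
      exact sub_eq_zero.mp hc0
    have hx : ∑ i, c i • b i = 0 := by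
      apply hnd
      intro y
      rw [← b.sum_repr y]
      simp only [hsum2, hsum1, hB.smul_left, hsmul2]
      have h2 : ∀ j, ∑ i, c i * B (b i) (b j) = 0 := by
        intro j
        have := congrFun hc j
        simpa [Matrix.vecMul, dotProduct, hG] using this
      calc ∑ j, ∑ i, c i * (b.repr y j * B (b i) (b j))
          = ∑ j, b.repr y j * ∑ i, c i * B (b i) (b j) := by
            refine Finset.sum_congr rfl fun j _ => ?_
            rw [Finset.mul_sum]
            refine Finset.sum_congr rfl fun i _ => ?_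
            ring
        _ = 0 := by simp [h2]
    have h3 := Fintype.linearIndependent_iff.mp b.linearIndependent c hx
    funext i
    exact h3 i
  have hGdet : IsUnit G.det := (Matrix.isUnit_iff_isUnit_det G).mp hGu
  have hGdet0 : G.det ≠ 0 := hGdet.ne_zero
  -- `M` is invertible
  have hMdet0 : M.det ≠ 0 := by
    intro h0
    have h1 := congrArg Matrix.det hgram
    rw [Matrix.det_mul, Matrix.det_mul, h0, mul_zero] at h1
    exact hGdet0 h1.symm
  have hMdet : IsUnit M.det := isUnit_iff_ne_zero.mpr hMdet0
  have hMu : IsUnit M := (Matrix.isUnit_iff_isUnit_det M).mpr hMdet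
  -- `(Mᵀ)⁻¹ = G M G⁻¹`
  have hGG : G * G⁻¹ = 1 := Matrix.mul_nonsing_inv G hGdet
  have hGG' : G⁻¹ * G = 1 := Matrix.nonsing_inv_mul G hGdet
  have hMM : M * M⁻¹ = 1 := Matrix.mul_nonsing_inv M hMdet
  have hinv : (M.transpose)⁻¹ = G * M * G⁻¹ := by
    apply Matrix.inv_eq_right_inv
    -- `Mᵀ = G M⁻¹ G⁻¹`
    have h1 : M.transpose = G * M⁻¹ * G⁻¹ := by
      calc M.transpose = M.transpose * (G * (M * M⁻¹) * G⁻¹) := by
            rw [hMM, Matrix.mul_one, hGG, Matrix.mul_one]
        _ = (M.transpose * G * M) * M⁻¹ * G⁻¹ := by simp only [Matrix.mul_assoc]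
        _ = G * M⁻¹ * G⁻¹ := by rw [hgram]
    rw [h1]
    calc G * M⁻¹ * G⁻¹ * (G * M * G⁻¹) = G * M⁻¹ * (G⁻¹ * G) * M * G⁻¹ := by
          simp only [Matrix.mul_assoc]
      _ = G * (M⁻¹ * M) * G⁻¹ := by rw [hGG', Matrix.mul_one]; simp only [Matrix.mul_assoc]
      _ = 1 := by rw [Matrix.nonsing_inv_mul M hMdet, Matrix.mul_one, hGG]
  have h1 := charpoly_sT_inv (σ := RingHom.id F) M hMdet
  have hsT : sT (RingHom.id F) M = M.transpose := by
    unfold sT
    simp
  rw [hsT, hinv] at h1
  have h2 : (G * M * G⁻¹).charpoly = M.charpoly := by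
    rw [Matrix.mul_assoc, Matrix.charpoly_mul_comm, Matrix.mul_assoc, hGG', Matrix.mul_one]
  rw [h2] at h1
  have h3 : M.charpoly = g.charpoly := LinearMap.charpoly_toMatrix g b
  rw [← h3]
  exact h1.symm

end Cfsg.Agent.Lib.Helper82
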