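import Cfsg.Prelude.Def_Blocks

/-!
# TG-MOD: definitions

* `Ecoef R f ξ hval` : the coefficient function `h ↦ (ξ(1)/|H|) · f(ξ(h⁻¹))` of the central
  idempotent of the irreducible character `ξ`, pushed to the field `F` along a ring
  homomorphism `f : R →+* F` from a subring `R` of `ℂ` containing the values of `ξ`.
* `convL E` : the operator `x ↦ E ⋆ x` on functions `H → F`,
  `(E ⋆ x) g = ∑ h, E h * x (h⁻¹ * g)`.
-/

set_option autoImplicit false

namespace Cfsg.Agent.Lib.Helper82.TGM

open Cfsg

/-- coefficient function of the central idempotent of `ξ`, pushed to `F` -/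
noncomputable def Ecoef {H : Type*} [Group H] (R : Subring ℂ) {F : Type*} [Field F]
    (f : R →+* F) (ξ : IrrCharacter H) (hval : ∀ h : H, (ξ : H → ℂ) h ∈ R) : H → F :=
  fun h => (charDegree (ξ : H → ℂ) : F) / (Nat.card H : F) * f ⟨(ξ : H → ℂ) h⁻¹, hval h⁻¹⟩

/-- left convolution by `E` on functions `H → F` -/
noncomputable def convL {H : Type*} [Group H] [Fintype H] {F : Type*} [Field F] (E : H → F) :
    (H → F) →ₗ[F] (H → F) :=
  ∑ h : H, E h • LinearMap.funLeft F F (fun x : H => h⁻¹ * x)

theorem convL_apply {H : Type*} [Group H] [Fintype H] {F : Type*} [Field F] (E x : H → F)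
    (g : H) : convL E x g = ∑ h : H, E h * x (h⁻¹ * g) := by
  simp [convL, LinearMap.funLeft_apply]

end Cfsg.Agent.Lib.Helper82.TGM
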