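import Mathlib
import Cfsg.Agent.Lib.Helper82.TGModDefs

/-!
# TG-MOD, piece BURN

An irreducible representation `ρ` of a finite group `H` over a finite field `F` (`|H|` invertible)
on which the centre of `F[H]` acts by scalars (through a central function `E` acting as the
identity) is absolutely irreducible, and the `ρ h` span `End_F(W)`.
(Schur + little Wedderburn + Jacobson density + averaging.)
-/

set_option autoImplicit false

namespace Cfsg.Agent.Lib.Helper82.TGM

open Cfsg

section burn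

variable {F : Type*} [Field F] {H : Type*} [Group H] [Fintype H]
  {W : Type*} [AddCommGroup W] [Module F W]

theorem mem_adjoin_iff (ρ : H →* (W →ₗ[F] W)) (a : W →ₗ[F] W) :
    a ∈ Algebra.adjoin F (Set.range ρ) ↔ ∃ c : H → F, a = ∑ h : H, c h • ρ h := by
  have h1 : (Set.range ρ : Set (W →ₗ[F] W)) =
      ((MonoidHom.mrange ρ : Submonoid (W →ₗ[F] W)) : Set (W →ₗ[F] W)) :=
    (MonoidHom.coe_mrange ρ).symm
  have h2 : a ∈ Algebra.adjoin F (Set.range ρ) ↔ a ∈ Submodule.span F (Set.range ρ) := by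
    rw [← Subalgebra.mem_toSubmodule, Algebra.adjoin_eq_span, h1, Submonoid.closure_eq, ← h1]
  rw [h2, Submodule.mem_span_range_iff_exists_fun]
  constructor
  · rintro ⟨c, hc⟩; exact ⟨c, hc.symm⟩
  · rintro ⟨c, hc⟩; exact ⟨c, hc.symm⟩

/-- `Θ(a ⋆ b) = Θ(a) ∘ Θ(b)` -/
theorem theta_conv (ρ : H →* (W →ₗ[F] W)) (a b : H → F) :
    ∑ g : H, (∑ h : H, a h * b (h⁻¹ * g)) • ρ g =
      (∑ h : H, a h • ρ h) * (∑ k : H, b k • ρ k) := by
  rw [Finset.sum_mul]
  simp_rw [Finset.mul_sum, Finset.sum_smul]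
  rw [Finset.sum_comm]
  refine Finset.sum_congr rfl fun h _ => ?_
  rw [← Equiv.sum_comp (Equiv.mulLeft h)]
  refine Finset.sum_congr rfl fun k _ => ?_
  simp only [Equiv.coe_mulLeft, inv_mul_cancel_left, map_mul]
  rw [smul_mul_smul_comm]

/-- conjugation average of a coefficient function -/
theorem theta_avg (ρ : H →* (W →ₗ[F] W)) (c : H → F)
    (hcomm : ∀ x : H, (∑ h : H, c h • ρ h) * ρ x = ρ x * (∑ h : H, c h • ρ h)) :
    ∑ g : H, (∑ x : H, c (x * g * x⁻¹)) • ρ g =
      (Nat.card H : F) • ∑ h : H, c h • ρ h := by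
  simp_rw [Finset.sum_smul]
  rw [Finset.sum_comm]
  have key : ∀ x : H, ∑ g : H, c (x * g * x⁻¹) • ρ g = ∑ h : H, c h • ρ h := by
    intro x
    have e1 : ∑ g : H, c (x * g * x⁻¹) • ρ g =
        ∑ g : H, c g • ρ (x⁻¹ * g * x) := by
      rw [← Equiv.sum_comp (MulAut.conj x⁻¹).toEquiv (fun g => c (x * g * x⁻¹) • ρ g)]
      refine Finset.sum_congr rfl fun g _ => ?_
      simp [MulAut.conj_apply, mul_assoc]
    rw [e1]
    have e2 : ∑ g : H, c g • ρ (x⁻¹ * g * x) =
        ρ x⁻¹ * (∑ g : H, c g • ρ g) * ρ x := by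
      rw [Finset.mul_sum, Finset.sum_mul]
      refine Finset.sum_congr rfl fun g _ => ?_
      rw [map_mul, map_mul, mul_smul_comm, smul_mul_assoc]
    rw [e2, mul_assoc, hcomm x, ← mul_assoc, ← map_mul, inv_mul_cancel, map_one, one_mul]
  rw [Finset.sum_congr rfl fun x _ => key x]
  rw [Finset.sum_const, Finset.card_univ, Nat.card_eq_fintype_card, Nat.cast_smul_eq_nsmul]

theorem avg_class (c : H → F) (a g : H) :
    ∑ x : H, c (x * (a * g * a⁻¹) * x⁻¹) = ∑ x : H, c (x * g * x⁻¹) := by
  rw [← Equiv.sum_comp (Equiv.mulRight a⁻¹) (fun x => c (x * (a * g * a⁻¹) * x⁻¹))]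
  refine Finset.sum_congr rfl fun x _ => ?_
  simp [mul_assoc]

end burn

/-- PIECE BURN: absolute irreducibility + Burnside, via Schur, little Wedderburn and
Jacobson density. -/
theorem wed_burn {F : Type*} [Field F] [Finite F] {H : Type*} [Group H] [Fintype H]
    (hH : (Nat.card H : F) ≠ 0)
    {W : Type*} [AddCommGroup W] [Module F W] [Finite W] [Nontrivial W]
    (ρ : H →* (W →ₗ[F] W))
    (hirr : ∀ U : Submodule F W, (∀ h, ∀ u ∈ U, ρ h u ∈ U) → U = ⊥ ∨ U = ⊤)
    (E : H → F)
    (hEc : ∀ c : H → F, (∀ x h : H, c (x * h * x⁻¹) = c h) →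
      ∃ l : F, ∀ g : H, ∑ h : H, c h * E (h⁻¹ * g) = l * E g)
    (hE1 : ∑ h : H, E h • ρ h = 1) :
    ∀ f : W →ₗ[F] W, ∃ c : H → F, f = ∑ h : H, c h • ρ h := by
  classical
  haveI : Fintype W := Fintype.ofFinite W
  set A : Subalgebra F (W →ₗ[F] W) := Algebra.adjoin F (Set.range ρ) with hA
  have hρA : ∀ h : H, ρ h ∈ A := fun h => Algebra.subset_adjoin ⟨h, rfl⟩
  -- W is a simple A-module
  haveI hsimple : IsSimpleModule A W := by
    rw [isSimpleModule_iff]
    refine { eq_bot_or_eq_top := fun U => ?_ }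
    let U' : Submodule F W :=
      { carrier := U
        add_mem' := U.add_mem
        zero_mem' := U.zero_mem
        smul_mem' := by
          intro c u hu
          have : (algebraMap F A c) • u ∈ U := U.smul_mem _ hu
          simpa [Algebra.algebraMap_eq_smul_one] using this }
    have hU' : ∀ h, ∀ u ∈ U', ρ h u ∈ U' := by
      intro h u hu
      exact U.smul_mem (⟨ρ h, hρA h⟩ : A) hu
    rcases hirr U' hU' with h0 | h1
    · left
      ext w
      have : w ∈ U' ↔ w ∈ (⊥ : Submodule F W) := by rw [h0]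
      have h' : w ∈ U ↔ w ∈ U' := Iff.rfl
      rw [h', this]
      simp
    · right
      ext w
      have : w ∈ U' ↔ w ∈ (⊤ : Submodule F W) := by rw [h1]
      have h' : w ∈ U ↔ w ∈ U' := Iff.rfl
      rw [h', this]
      simp
  haveI : Finite (Module.End A W) :=
    Finite.of_injective (fun d : Module.End A W => (d : W → W)) DFunLike.coe_injective
  have hcomm : ∀ a b : Module.End A W, a * b = b * a := by
    intro a b
    letI : Field (Module.End A W) := littleWedderburn (Module.End A W)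
    exact mul_comm a b
  -- Step A: every A-endomorphism is a scalar
  have hscalar : ∀ d : Module.End A W, ∃ l : F, ∀ w : W, d w = l • w := by
    intro d
    let fd : Module.End (Module.End A W) W :=
      { toFun := d
        map_add' := d.map_add
        map_smul' := by
          intro e w
          change d (e w) = e (d w)
          exact congrFun (congrArg DFunLike.coe (hcomm d e)) w }
    obtain ⟨r, hr⟩ := jacobson_density fd Finset.univ
    have hr' : ∀ w : W, d w = (r : W →ₗ[F] W) w := fun w => hr w (Finset.mem_univ w)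
    obtain ⟨c, hc⟩ := (mem_adjoin_iff ρ (r : W →ₗ[F] W)).1 r.2
    have hrc : ∀ x : H, (r : W →ₗ[F] W) * ρ x = ρ x * (r : W →ₗ[F] W) := by
      intro x
      ext w
      change (r : W →ₗ[F] W) (ρ x w) = ρ x ((r : W →ₗ[F] W) w)
      rw [← hr', ← hr']
      exact d.map_smul (⟨ρ x, hρA x⟩ : A) w
    rw [hc] at hrc
    have havg := theta_avg ρ c hrc
    obtain ⟨l, hl⟩ := hEc (fun g => ∑ x : H, c (x * g * x⁻¹)) (fun a g => avg_class c a g)
    have h1 := theta_conv ρ (fun g => ∑ x : H, c (x * g * x⁻¹)) E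
    rw [hE1, mul_one, havg] at h1
    have h2 : ∑ g : H, (∑ h : H, (fun g => ∑ x : H, c (x * g * x⁻¹)) h * E (h⁻¹ * g)) • ρ g =
        l • (1 : W →ₗ[F] W) := by
      rw [← hE1, Finset.smul_sum]
      refine Finset.sum_congr rfl fun g _ => ?_
      rw [hl g, mul_smul]
    rw [h2] at h1
    refine ⟨(Nat.card H : F)⁻¹ * l, fun w => ?_⟩
    rw [hr', hc, mul_smul]
    have h3 := congrArg (fun T : W →ₗ[F] W => T w) h1
    simp only [LinearMap.smul_apply, Module.End.one_apply] at h3
    rw [h3, smul_smul, inv_mul_cancel₀ hH, one_smul]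
  -- Step B
  intro f
  let ff : Module.End (Module.End A W) W :=
    { toFun := f
      map_add' := f.map_add
      map_smul' := by
        intro e w
        change f (e w) = e (f w)
        obtain ⟨l, hl⟩ := hscalar e
        rw [hl, hl, f.map_smul] }
  obtain ⟨r, hr⟩ := jacobson_density ff Finset.univ
  obtain ⟨c, hc⟩ := (mem_adjoin_iff ρ (r : W →ₗ[F] W)).1 r.2
  refine ⟨c, ?_⟩
  rw [← hc]
  ext w
  exact hr w (Finset.mem_univ w)

end Cfsg.Agent.Lib.Helper82.TGM
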