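import Mathlib
import Cfsg.Agent.Lib.Helper82.TGModDefs
import Cfsg.Agent.Lib.Helper4.TGMCRK
import Cfsg.Agent.Lib.Helper6.TGMRK
import Cfsg.Agent.Lib.Helper83.Codeg

/-!
# TG-MOD, piece RANK (backup copy by helper82)

The block of `ξ` in `F[H]` has dimension `ξ(1)²`.
-/

set_option autoImplicit false

namespace Cfsg.Agent.Lib.Helper82.TGM

open Cfsg

theorem rank_smul_le' {n : Type*} [Fintype n] [DecidableEq n] {F : Type*} [Field F] (c : F)
    (M : Matrix n n F) : (c • M).rank ≤ M.rank := by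
  have : c • M = (c • (1 : Matrix n n F)) * M := by rw [Matrix.smul_mul, Matrix.one_mul]
  rw [this]
  exact Matrix.rank_mul_le_right _ _

theorem rank_add_le' {n : Type*} [Fintype n] [DecidableEq n] {F : Type*} [Field F]
    (A B : Matrix n n F) : (A + B).rank ≤ A.rank + B.rank := by
  unfold Matrix.rank
  have h : LinearMap.range (A + B).mulVecLin ≤
      LinearMap.range A.mulVecLin ⊔ LinearMap.range B.mulVecLin := by
    rintro _ ⟨x, rfl⟩
    rw [Matrix.mulVecLin_add]
    exact Submodule.add_mem_sup ⟨x, rfl⟩ ⟨x, rfl⟩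
  calc Module.finrank F ↥(LinearMap.range (A + B).mulVecLin)
      ≤ Module.finrank F ↥(LinearMap.range A.mulVecLin ⊔ LinearMap.range B.mulVecLin) :=
        Submodule.finrank_mono h
    _ ≤ _ := Submodule.finrank_add_le_finrank_add_finrank _ _

/-- PIECE RANK -/
theorem rank_ecoef_b {H : Type*} [Group H] [Fintype H] (R : Subring ℂ) {F : Type*} [Field F]
    (f : R →+* F) (hH : (Nat.card H : F) ≠ 0) (ξ : IrrCharacter H)
    (hval : ∀ h : H, (ξ : H → ℂ) h ∈ R) :
    Module.finrank F (LinearMap.range (convL (Ecoef R f ξ hval))) =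
      charDegree (ξ : H → ℂ) ^ 2 := by
  classical
  obtain ⟨hc1, hc2⟩ := Cfsg.Agent.Lib.Helper4.TGM.crk ξ
  set d : ℕ := charDegree (ξ : H → ℂ) with hd
  have hdvd : d ∣ Nat.card H := Cfsg.Agent.Lib.Helper83.irr_degree_dvd_card ξ
  have hdF : (d : F) ≠ 0 := by
    intro h0
    obtain ⟨k, hk⟩ := hdvd
    apply hH
    rw [hk, Nat.cast_mul, h0, zero_mul]
  let MR : Matrix H H R := Matrix.of (fun g y : H => (⟨(ξ : H → ℂ) (y * g⁻¹), hval _⟩ : R))
  let NR : Matrix H H R := (Nat.card H : R) • (1 : Matrix H H R) - (d : R) • MR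
  have hMC : MR.map (fun x : R => (x : ℂ)) =
      Matrix.of (fun g y : H => (ξ : H → ℂ) (y * g⁻¹)) := by
    ext g y
    rfl
  have hNC : NR.map (fun x : R => (x : ℂ)) = (Nat.card H : ℂ) • (1 : Matrix H H ℂ) -
      (d : ℂ) • Matrix.of (fun g y : H => (ξ : H → ℂ) (y * g⁻¹)) := by
    ext g y
    simp only [NR, MR, Matrix.map_apply, Matrix.sub_apply, Matrix.smul_apply, Matrix.one_apply,
      Matrix.of_apply, smul_eq_mul]
    split_ifs <;> simp
  have hNF : NR.map f = (Nat.card H : F) • (1 : Matrix H H F) - (d : F) • MR.map f := by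
    ext g y
    simp only [NR, MR, Matrix.map_apply, Matrix.sub_apply, Matrix.smul_apply, Matrix.one_apply,
      Matrix.of_apply, smul_eq_mul]
    split_ifs <;> simp
  have h1 : (MR.map f).rank ≤ d ^ 2 := by
    have := Cfsg.Agent.Lib.Helper6.TGM.rank_map_le R f MR
    rw [hMC, hc1] at this
    exact this
  have h2 : (NR.map f).rank ≤ Nat.card H - d ^ 2 := by
    have := Cfsg.Agent.Lib.Helper6.TGM.rank_map_le R f NR
    rw [hNC, hc2] at this
    exact this
  have hle : d ^ 2 ≤ Nat.card H := by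
    rw [← hc1, Nat.card_eq_fintype_card]
    exact Matrix.rank_le_card_width _
  have h3 : Nat.card H ≤ (MR.map f).rank + (NR.map f).rank := by
    have e : (Nat.card H : F) • (1 : Matrix H H F) = (d : F) • MR.map f + NR.map f := by
      rw [hNF]; abel
    have r1 : ((Nat.card H : F) • (1 : Matrix H H F)).rank = Nat.card H := by
      rw [Matrix.rank_of_isUnit, Nat.card_eq_fintype_card]
      refine ⟨⟨(Nat.card H : F) • 1, (Nat.card H : F)⁻¹ • 1, ?_, ?_⟩, rfl⟩
      · rw [Matrix.smul_mul, Matrix.one_mul, smul_smul, mul_inv_cancel₀ hH, one_smul]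
      · rw [Matrix.smul_mul, Matrix.one_mul, smul_smul, inv_mul_cancel₀ hH, one_smul]
    have r2 := rank_add_le' ((d : F) • MR.map f) (NR.map f)
    have r3 := rank_smul_le' (d : F) (MR.map f)
    rw [← e, r1] at r2
    omega
  have hrank : (MR.map f).rank = d ^ 2 := by omega
  -- the matrix of convL
  set c : F := (d : F) / (Nat.card H : F) with hc
  have hc0 : c ≠ 0 := div_ne_zero hdF hH
  have hconv : convL (Ecoef R f ξ hval) = (c • MR.map f).mulVecLin := by
    refine LinearMap.ext fun x => funext fun g => ?_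
    rw [convL_apply, Matrix.mulVecLin_apply, Matrix.mulVec, dotProduct]
    rw [← Equiv.sum_comp ((Equiv.inv H).trans (Equiv.mulLeft g))]
    refine Finset.sum_congr rfl fun y _ => ?_
    simp only [Equiv.trans_apply, Equiv.inv_apply, Equiv.coe_mulLeft, Matrix.smul_apply,
      Matrix.map_apply, MR, Matrix.of_apply, smul_eq_mul, Ecoef, mul_inv_rev, inv_inv,
      inv_mul_cancel_right]
    rw [hc]
  rw [hconv]
  change (c • MR.map f).rank = d ^ 2
  rw [← hrank]
  apply le_antisymm (rank_smul_le' c _)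
  have := rank_smul_le' c⁻¹ (c • MR.map f)
  rwa [smul_smul, inv_mul_cancel₀ hc0, one_smul] at this

end Cfsg.Agent.Lib.Helper82.TGM
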