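import Mathlib
import Cfsg.Agent.Lib.Helper82.TGModDefs
import Cfsg.Agent.Lib.Helper82.TGMBURN
import Cfsg.Agent.Lib.Helper82.TGMRANKB
import Cfsg.Agent.Lib.Helper34.TGMID
import Cfsg.Agent.Lib.Helper90.TGMWEDFIN
import Cfsg.Agent.Lib.Helper4.CharCore

/-!
# TG-MOD, piece FMAIN

An irreducible representation of a `p'`-group `H` over a finite field `F` receiving a ring
homomorphism from a subring of `ℂ` containing all character values of `H` has dimension `ξ(1)`
for the irreducible character `ξ` whose central idempotent acts as the identity.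
-/

set_option autoImplicit false

namespace Cfsg.Agent.Lib.Helper82.TGM

open Cfsg

/-- PIECE FMAIN -/
theorem f_main {F : Type*} [Field F] [Finite F] {H : Type*} [Group H] [Fintype H]
    (hH : (Nat.card H : F) ≠ 0)
    {W : Type*} [AddCommGroup W] [Module F W] [Finite W] [Nontrivial W]
    (ρ : H →* (W →ₗ[F] W))
    (hirr : ∀ U : Submodule F W, (∀ h, ∀ u ∈ U, ρ h u ∈ U) → U = ⊥ ∨ U = ⊤)
    (R : Subring ℂ) (f : R →+* F)
    (hval : ∀ (ξ : IrrCharacter H) (h : H), (ξ : H → ℂ) h ∈ R) :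
    ∃ ξ : IrrCharacter H, Module.finrank F W = charDegree (ξ : H → ℂ) ∧
      ∑ h : H, Ecoef R f ξ (hval ξ) h • ρ h = 1 := by
  classical
  obtain ⟨hcl, hEE, hEc, hsum1, hsum0⟩ := Cfsg.Agent.Lib.Helper34.TGM.ecoef_props R f hH hval
  haveI : Finite (IrrCharacter H) := Cfsg.Agent.Lib.Helper4.irr_finite
  haveI : Fintype (IrrCharacter H) := Fintype.ofFinite _
  set P : IrrCharacter H → (W →ₗ[F] W) := fun ξ => ∑ h : H, Ecoef R f ξ (hval ξ) h • ρ h with hP
  -- the P ξ sum to 1
  have hsum : ∑ ξ : IrrCharacter H, P ξ = 1 := by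
    simp only [hP]
    rw [Finset.sum_comm]
    have h1 : ∀ h : H, ∑ ξ : IrrCharacter H, Ecoef R f ξ (hval ξ) h • ρ h =
        (if h = 1 then (1 : F) else 0) • ρ h := by
      intro h
      rw [← Finset.sum_smul]
      congr 1
      rw [← finsum_eq_sum_of_fintype]
      by_cases hh : h = 1
      · subst hh
        rw [if_pos rfl]
        exact hsum1
      · rw [if_neg hh]
        exact hsum0 h hh
    rw [Finset.sum_congr rfl fun h _ => h1 h]
    rw [Finset.sum_eq_single (1 : H)]
    · simp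
    · intro h _ hh
      rw [if_neg hh, zero_smul]
    · intro h
      exact absurd (Finset.mem_univ _) h
  -- some P ξ is nonzero
  have hex : ∃ ξ : IrrCharacter H, P ξ ≠ 0 := by
    by_contra hcon
    push Not at hcon
    rw [Finset.sum_congr rfl fun ξ _ => hcon ξ, Finset.sum_const_zero] at hsum
    exact zero_ne_one hsum
  obtain ⟨ξ, hξ⟩ := hex
  -- P ξ commutes with ρ
  have hPc : ∀ x : H, P ξ * ρ x = ρ x * P ξ := by
    intro x
    simp only [hP]
    rw [Finset.sum_mul, Finset.mul_sum]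
    rw [← Equiv.sum_comp (MulAut.conj x).toEquiv
      (fun h => (Ecoef R f ξ (hval ξ) h • ρ h) * ρ x)]
    refine Finset.sum_congr rfl fun h _ => ?_
    simp only [MulEquiv.toEquiv_eq_coe, EquivLike.coe_coe, MulAut.conj_apply]
    rw [hcl ξ x h, smul_mul_assoc, mul_smul_comm, ← map_mul, ← map_mul]
    congr 2
    group
  -- P ξ is idempotent
  have hPP : P ξ * P ξ = P ξ := by
    have := theta_conv ρ (Ecoef R f ξ (hval ξ)) (Ecoef R f ξ (hval ξ))
    rw [Finset.sum_congr rfl fun g _ => by rw [hEE ξ g]] at this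
    exact this.symm
  -- P ξ = 1
  have hP1 : P ξ = 1 := by
    have hinv : ∀ h, ∀ u ∈ LinearMap.range (P ξ), ρ h u ∈ LinearMap.range (P ξ) := by
      rintro h _ ⟨v, rfl⟩
      refine ⟨ρ h v, ?_⟩
      have := congrArg (fun T : W →ₗ[F] W => T v) (hPc h)
      exact this
    rcases hirr _ hinv with h0 | h1
    · exact absurd (LinearMap.range_eq_bot.1 h0) hξ
    · ext w
      have hw : w ∈ LinearMap.range (P ξ) := by rw [h1]; trivial
      obtain ⟨v, rfl⟩ := hw
      have := congrArg (fun T : W →ₗ[F] W => T v) hPP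
      exact this
  refine ⟨ξ, ?_, hP1⟩
  have hB := wed_burn hH ρ hirr (Ecoef R f ξ (hval ξ)) (hEc ξ) hP1
  have h1 := Cfsg.Agent.Lib.Helper90.TGM.wed_fin hH ρ hB (Ecoef R f ξ (hval ξ)) (hcl ξ) (hEE ξ) (hEc ξ) hP1
  have h2 := rank_ecoef_b R f hH ξ (hval ξ)
  rw [h1] at h2
  exact Nat.pow_left_injective (by norm_num : (2 : ℕ) ≠ 0) h2

end Cfsg.Agent.Lib.Helper82.TGM
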