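import Cfsg.Agent.Lib.Helper22.TGDefs
import Cfsg.Agent.Lib.Helper81.BrConj
import Cfsg.Agent.Lib.Helper81.BrPairs
import Cfsg.Agent.Lib.Helper81.BFTr
import Cfsg.Agent.Lib.Helper92.DOCL5
import Cfsg.Agent.Lib.Helper4.CharCore
import Cfsg.Prelude.Def_Blocks

/-!
# TGC-TRANS (helper82 for helper33): transport of the block part to a conjugate Brauer pair
-/

set_option autoImplicit false

namespace Cfsg.Agent.Lib.Helper82.TGC

open Cfsg Cfsg.Agent.Lib.Helper22.TG Cfsg.Agent.Lib.Helper81
open scoped ComplexConjugate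

variable {G : Type*} [Group G] [Fintype G] (p : ℕ) [Fact p.Prime] (M : Ideal AlgInt)

/-- PIECE TGC-TRANS : transport of the block part to a conjugate pair. -/
theorem trans_part (P : Sylow p G) (hP : Nat.card P = p)
    (B : Set (IrrCharacter G))
    (b : Set (IrrCharacter (Subgroup.centralizer ((P : Subgroup G) : Set G))))
    (θ : IrrCharacter (Subgroup.centralizer ((P : Subgroup G) : Set G)))
    (z : G) (hz : z ∈ (P : Subgroup G)) (hz1 : z ≠ 1)
    (D : ZMod p → IrrCharacter G → ℂ)
    (hKD : ∀ (t : ZMod p) (χ : IrrCharacter G), χ ∈ B →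
      ∀ s : Subgroup.centralizer ((P : Subgroup G) : Set G), ¬ p ∣ orderOf s →
        blockPart b (fun x : Subgroup.centralizer ((P : Subgroup G) : Set G) =>
          (χ : G → ℂ) (z ^ t.val * (x : G))) s =
          D t χ * (θ : Subgroup.centralizer ((P : Subgroup G) : Set G) → ℂ) s)
    (c : Set (IrrCharacter (Subgroup.centralizer ((P : Subgroup G) : Set G)))) (g : G)
    (hg : conjPair g (⟨(P : Subgroup G), b⟩ : BrauerPairIdx G) = ⟨(P : Subgroup G), c⟩) :
    g ∈ Subgroup.normalizer ((P : Subgroup G) : Set G) ∧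
    ∃ k : (ZMod p)ˣ, ∀ χ ∈ B, ∀ (t : ZMod p)
      (s s' : Subgroup.centralizer ((P : Subgroup G) : Set G)), ¬ p ∣ orderOf s →
        (s' : G) = g⁻¹ * (s : G) * g →
        blockPart c (fun x : Subgroup.centralizer ((P : Subgroup G) : Set G) =>
          (χ : G → ℂ) (z ^ ((k : ZMod p) * t).val * (x : G))) s =
          D t χ * (θ : Subgroup.centralizer ((P : Subgroup G) : Set G) → ℂ) s' := by
  classical
  have hp := (Fact.out : p.Prime)
  haveI : NeZero p := ⟨hp.ne_zero⟩
  have hord : orderOf z = p := Cfsg.Agent.Lib.Helper92.DO.cf_order p P hP z hz hz1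
  have hPz : (P : Subgroup G) = Subgroup.zpowers z :=
    Cfsg.Agent.Lib.Helper92.DO.cf_zpowers p P hP z hz hz1
  have h1 : ((P : Subgroup G)).map (MulAut.conj g).toMonoidHom = (P : Subgroup G) :=
    congrArg Sigma.fst hg
  have hconj : ∀ h : G, h ∈ (P : Subgroup G) ↔ g * h * g⁻¹ ∈ (P : Subgroup G) := by
    intro h
    constructor
    · intro hh
      rw [← h1]
      exact ⟨h, hh, rfl⟩
    · intro hh
      rw [← h1] at hh
      obtain ⟨h', hh', he⟩ := hh
      have e : g * h' * g⁻¹ = g * h * g⁻¹ := he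
      have : h' = h := by
        have := congrArg (fun x => g⁻¹ * x * g) e
        simpa [mul_assoc] using this
      rwa [← this]
  have hgN : g ∈ Subgroup.normalizer ((P : Subgroup G) : Set G) := by
    rw [Subgroup.mem_normalizer_iff]
    exact hconj
  refine ⟨hgN, ?_⟩
  have hzg : g * z * g⁻¹ ∈ Subgroup.zpowers z := by
    rw [← hPz]
    exact (hconj z).1 hz
  have hfin : IsOfFinOrder z := isOfFinOrder_of_finite z
  rw [← mem_powers_iff_mem_zpowers] at hzg
  obtain ⟨j, hj⟩ := hzg
  have hj' : z ^ j = g * z * g⁻¹ := hj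
  have hcop : Nat.Coprime j p := by
    rw [Nat.coprime_comm, hp.coprime_iff_not_dvd]
    intro hdvd
    have : z ^ j = 1 := by
      rw [← hord] at hdvd
      exact orderOf_dvd_iff_pow_eq_one.1 hdvd
    rw [hj'] at this
    apply hz1
    have h2 := congrArg (fun x => g⁻¹ * x * g) this
    simpa [mul_assoc] using h2
  refine ⟨ZMod.unitOfCoprime j hcop, ?_⟩
  intro χ hχ t s s' hs hss'
  have hs' : ¬ p ∣ orderOf s' := by
    have e1 : orderOf s' = orderOf (s' : G) := (Subgroup.orderOf_coe s').symm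
    have e2 : orderOf s = orderOf (s : G) := (Subgroup.orderOf_coe s).symm
    have e3 : orderOf (g⁻¹ * (s : G) * g) = orderOf (s : G) := by
      have := (MulAut.conj g⁻¹).orderOf_eq (s : G)
      simpa [MulAut.conj_apply] using this
    rw [e1, hss', e3, ← e2]
    exact hs
  have key := Cfsg.Agent.Lib.BF.blockPart_conjPair g
    (⟨(P : Subgroup G), b⟩ : BrauerPairIdx G) ⟨(P : Subgroup G), c⟩ hg (χ : G → ℂ)
    (Cfsg.Agent.Lib.Helper4.isClassFunction_irr χ) (z ^ t.val) s' s
    (by rw [hss']; group)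
  have hpow : g * z ^ t.val * g⁻¹ =
      z ^ (((ZMod.unitOfCoprime j hcop : (ZMod p)ˣ) : ZMod p) * t).val := by
    rw [← conj_pow, ← hj', ← pow_mul]
    have e : (((ZMod.unitOfCoprime j hcop : (ZMod p)ˣ) : ZMod p) * t).val = (j * t.val) % p := by
      rw [ZMod.coe_unitOfCoprime]
      conv_lhs => rw [← ZMod.natCast_zmod_val t]
      rw [← Nat.cast_mul, ZMod.val_natCast]
    rw [e]
    have hmod := pow_mod_orderOf z (j * t.val)
    rw [hord] at hmod
    rw [hmod]
  have hKD' := hKD t χ hχ s' hs'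
  rw [← hKD', ← key]
  simp only [hpow]

end Cfsg.Agent.Lib.Helper82.TGC
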