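import Mathlib
import Cfsg.Prelude.Def_Blocks
import Cfsg.Agent.Lib.Helper82.LocalRing
import Cfsg.Agent.Lib.Helper82.CharCore
import Cfsg.Agent.Lib.Helper4.CharBurnside

set_option autoImplicit false
set_option linter.unusedSectionVars false
set_option linter.style.haveILetI false
set_option linter.unusedVariables false

namespace Cfsg.Agent.Lib.Helper82

open Cfsg

theorem card_filter_isConj {G : Type*} [Group G] [Fintype G] (g : G)
    [DecidablePred (fun x : G => IsConj x g)] :
    (Finset.univ.filter (fun x : G => IsConj x g)).card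
      = (Subgroup.centralizer ({g} : Set G)).index := by
  classical
  have h := Cfsg.Agent.Lib.Helper22.sum_isConj_eq (θ := fun _ : G => (1 : ℂ)) (fun _ _ => rfl) g
  have h2 : ((Finset.univ.filter (fun x : G => IsConj x g)).card : ℂ)
      = ((Subgroup.centralizer ({g} : Set G)).index : ℂ) := by
    rw [mul_one] at h
    rw [← h, Finset.card_filter]
    push_cast
    refine Finset.sum_congr rfl fun x _ => ?_
    simp only [isConj_comm (g := x) (h := g)]
  exact_mod_cast h2

theorem rep_commutator_of_scalar {G : Type*} [Group G] {V : Type*} [AddCommGroup V] [Module ℂ V]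
    (ρ : Representation ℂ G V) (z g : G) (ω : ℂ) (h : ρ z = ω • (LinearMap.id : V →ₗ[ℂ] V)) :
    ρ (z * g * z⁻¹ * g⁻¹) = ρ 1 := by
  have hcomm : ρ z * ρ g = ρ g * ρ z := by
    rw [h]
    ext v
    simp
  have h1 : ρ (z * g * z⁻¹ * g⁻¹) = ρ z * ρ g * ρ z⁻¹ * ρ g⁻¹ := by
    simp only [map_mul]
  rw [h1, hcomm]
  have h2 : ρ g * ρ z * ρ z⁻¹ * ρ g⁻¹ = ρ (g * z * z⁻¹ * g⁻¹) := by
    simp only [map_mul]
  rw [h2]
  congr 1
  group

/-- Burnside: a faithful irreducible character of a group with trivial centre vanishes at every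
non-identity element whose class size is prime to the degree. -/
theorem irr_vanish_of_coprime {G : Type*} [Group G] [Finite G] (hZ : Subgroup.center G = ⊥)
    (χ : IrrCharacter G) (hfaith : ∀ g : G, (χ : G → ℂ) g = (χ : G → ℂ) 1 → g = 1)
    (z : G) (hz : z ≠ 1)
    (hcop : Nat.Coprime (charDegree (χ : G → ℂ)) (Subgroup.centralizer ({z} : Set G)).index) :
    (χ : G → ℂ) z = 0 := by
  classical
  cases nonempty_fintype G
  obtain ⟨n, ρ, hρ, hχ, hn, h1⟩ := irr_exists_rep χ
  haveI := hρ
  have hdeg : charDegree (χ : G → ℂ) = n := by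
    unfold charDegree
    rw [h1]
    simp
  have hfr : Module.finrank ℂ (Fin n → ℂ) = n := by simp
  have hcop' : Nat.Coprime (Module.finrank ℂ (Fin n → ℂ))
      (Finset.univ.filter (fun x : G => IsConj x z)).card := by
    rw [hfr, card_filter_isConj, ← hdeg]
    exact hcop
  rcases Cfsg.Agent.Lib.Helper4.char_eq_zero_or_norm_eq ρ z hcop' with h0 | hnorm
  · rw [← hχ]; exact h0
  · exfalso
    obtain ⟨ω, hω⟩ := (Cfsg.Agent.Lib.Helper4.norm_char_eq_iff ρ z).mp hnorm
    apply hz
    have hcen : z ∈ Subgroup.center G := by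
      rw [Subgroup.mem_center_iff]
      intro g
      have h2 := rep_commutator_of_scalar ρ z g ω hω
      have h3 : (χ : G → ℂ) (z * g * z⁻¹ * g⁻¹) = (χ : G → ℂ) 1 := by
        rw [← hχ]
        unfold Representation.character
        rw [h2]
      have h4 := hfaith _ h3
      calc g * z = (z * g * z⁻¹ * g⁻¹)⁻¹ * (z * g) := by group
        _ = z * g := by rw [h4]; group
    rw [hZ] at hcen
    exact Subgroup.mem_bot.mp hcen

end Cfsg.Agent.Lib.Helper82
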