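import Mathlib
import Cfsg.Prelude.Def_GeometricClasses
import Cfsg.Prelude.Def_LieClassical
import Cfsg.Agent.Lib.Helper71.Asch0
import Cfsg.Agent.Lib.Helper86.ASB8Defs
import Cfsg.Agent.Lib.Helper82.ASB8UNITS

/-! Project O9 (helper44, S5835), piece TIR (helper82): from the span of the first tensor factor
`span N = P (iota 0 M_3) P⁻¹` to the homogeneous normal form `N = {tmat e₂ P y 1 : y ∈ R}` with
`R ≤ GL_3` absolutely irreducible. -/

set_option autoImplicit false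
set_option linter.unusedSectionVars false

namespace Cfsg.Agent.Lib.Helper44.O9

open Matrix Cfsg.Geo Cfsg.Agent.Lib.Helper71.Asch
open scoped Kronecker

variable {n : ℕ} {F : Type*} [Field F] [Fintype F]

theorem TIR_reindex_iota (e : Fin n ≃ (Fin 2 → Fin 3)) (A : Matrix (Fin 3) (Fin 3) F) :
    Matrix.reindex e.symm e.symm (Cfsg.Agent.Lib.Helper86.ASB8.iota (0 : Fin 2) A) =
      Matrix.reindex (e.trans (finTwoArrowEquiv (Fin 3))).symm
        (e.trans (finTwoArrowEquiv (Fin 3))).symm (A ⊗ₖ (1 : Matrix (Fin 3) (Fin 3) F)) := by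
  ext i j
  show (if ∀ j', j' ≠ (0 : Fin 2) → e i j' = e j j' then A (e i 0) (e j 0) else 0) =
    A (e i 0) (e j 0) * (1 : Matrix (Fin 3) (Fin 3) F) (e i 1) (e j 1)
  rw [Matrix.one_apply]
  by_cases h : e i 1 = e j 1
  · rw [if_pos, if_pos h, mul_one]
    intro j' hj'
    have h1 : j' = 1 := by
      fin_cases j'
      · exact absurd rfl hj'
      · rfl
    rw [h1]
    exact h
  · rw [if_neg, if_neg h, mul_zero]
    intro hall
    exact h (hall 1 (by decide))

theorem TIR_conj_cancel (P : GL (Fin n) F) (X : Matrix (Fin n) (Fin n) F) :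
    (P⁻¹ : GL (Fin n) F).1 * (P.1 * X * (P⁻¹ : GL (Fin n) F).1) * P.1 = X := by
  have h1 := Cfsg.Agent.Lib.Helper82.ASB8UNITS.inv_mul_val P
  calc (P⁻¹ : GL (Fin n) F).1 * (P.1 * X * (P⁻¹ : GL (Fin n) F).1) * P.1
      = ((P⁻¹ : GL (Fin n) F).1 * P.1) * X * ((P⁻¹ : GL (Fin n) F).1 * P.1) := by
        simp only [mul_assoc]
    _ = X := by rw [h1, one_mul, mul_one]

theorem TIR_tmat_inj (e₂ : Fin n ≃ Fin 3 × Fin 3) (P : GL (Fin n) F)
    (A B : Matrix (Fin 3) (Fin 3) F) (h : tmat e₂ P A 1 = tmat e₂ P B 1) : A = B := by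
  unfold tmat at h
  have h2 := congrArg (fun Y => (P⁻¹ : GL (Fin n) F).1 * Y * P.1) h
  simp only [TIR_conj_cancel] at h2
  ext a b
  have h3 := congrFun (congrFun h2 (e₂.symm (a, 0))) (e₂.symm (b, 0))
  simpa [Matrix.reindex_apply, Matrix.submatrix_apply, Matrix.kroneckerMap_apply] using h3

theorem TIR_absIrr_of_span {d : ℕ} (R : Subgroup (GL (Fin d) F))
    (hspan : Submodule.span F (matrixSet R) = ⊤) : ActsAbsolutelyIrreducibly (matrixSet R) := by
  classical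
  constructor
  · intro W hW
    have hall : ∀ M : Matrix (Fin d) (Fin d) F, ∀ w ∈ W, M *ᵥ w ∈ W := by
      intro M
      have hM : M ∈ Submodule.span F (matrixSet R) := by
        rw [hspan]
        trivial
      induction hM using Submodule.span_induction with
      | mem s hs =>
        intro w hw
        have h1 := hW s hs (Submodule.mem_map_of_mem hw)
        rwa [Matrix.toLin'_apply] at h1
      | zero =>
        intro w hw
        rw [Matrix.zero_mulVec]
        exact W.zero_mem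
      | add x y _ _ hx hy =>
        intro w hw
        rw [Matrix.add_mulVec]
        exact W.add_mem (hx w hw) (hy w hw)
      | smul c x _ hx =>
        intro w hw
        rw [Matrix.smul_mulVec]
        exact W.smul_mem c (hx w hw)
    by_cases hbot : W = ⊥
    · left
      exact hbot
    · right
      obtain ⟨w, hw, hw0⟩ := (Submodule.ne_bot_iff W).mp hbot
      have hex : ∃ i, w i ≠ 0 := by
        by_contra hcon
        push Not at hcon
        exact hw0 (funext hcon)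
      obtain ⟨i, hi⟩ := hex
      rw [eq_top_iff]
      intro v _
      have hv : Matrix.vecMulVec v (Pi.single i (w i)⁻¹) *ᵥ w = v := by
        ext a
        simp only [Matrix.mulVec, dotProduct, Matrix.vecMulVec_apply]
        rw [Finset.sum_eq_single i]
        · rw [Pi.single_eq_same, mul_assoc, inv_mul_cancel₀ hi, mul_one]
        · intro b _ hb
          rw [Pi.single_eq_of_ne hb, mul_zero, zero_mul]
        · intro h
          exact absurd (Finset.mem_univ i) h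
      rw [← hv]
      exact hall _ w hw
  · intro M hM
    have hall : ∀ X : Matrix (Fin d) (Fin d) F, M * X = X * M := by
      intro X
      have hX : X ∈ Submodule.span F (matrixSet R) := by
        rw [hspan]
        trivial
      induction hX using Submodule.span_induction with
      | mem s hs => exact hM s hs
      | zero => rw [mul_zero, zero_mul]
      | add x y _ _ hx hy => rw [mul_add, add_mul, hx, hy]
      | smul c x _ hx => rw [Matrix.mul_smul, Matrix.smul_mul, hx]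
    have h1 : M ∈ Set.range (Matrix.scalar (Fin d)) := by
      rw [Matrix.mem_range_scalar_iff_commute_single']
      intro i j
      exact (hall _).symm
    obtain ⟨c, hc⟩ := h1
    refine ⟨c, ?_⟩
    rw [← hc, Matrix.smul_one_eq_diagonal]
    rfl

/-- the elements `y` of `GL_3` with `tmat e₂ P y 1 ∈ N` -/
def TIR_R (e₂ : Fin n ≃ Fin 3 × Fin 3) (P : GL (Fin n) F) (N : Subgroup (GL (Fin n) F)) :
    Subgroup (GL (Fin 3) F) where
  carrier := {y | ∃ x ∈ N, x.1 = tmat e₂ P y.1 1}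
  mul_mem' := by
    rintro y y' ⟨x, hx, hxy⟩ ⟨x', hx', hxy'⟩
    refine ⟨x * x', N.mul_mem hx hx', ?_⟩
    have h1 : (x * x').1 = x.1 * x'.1 := Units.val_mul x x'
    have h2 : ((y * y' : GL (Fin 3) F)).1 = y.1 * y'.1 := Units.val_mul y y'
    rw [h1, h2, hxy, hxy', Cfsg.Agent.Lib.Helper82.ASB8UNITS.tmat_mul, mul_one]
  one_mem' := ⟨1, N.one_mem, by
    rw [Units.val_one, Units.val_one, Cfsg.Agent.Lib.Helper82.ASB8UNITS.tmat_one]⟩
  inv_mem' := by
    rintro y ⟨x, hx, hxy⟩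
    refine ⟨x⁻¹, N.inv_mem hx, ?_⟩
    have h1 : x.1 * tmat e₂ P (y⁻¹ : GL (Fin 3) F).1 1 = 1 := by
      rw [hxy, Cfsg.Agent.Lib.Helper82.ASB8UNITS.tmat_mul, mul_one,
        Cfsg.Agent.Lib.Helper82.ASB8UNITS.mul_inv_val,
        Cfsg.Agent.Lib.Helper82.ASB8UNITS.tmat_one]
    calc (x⁻¹ : GL (Fin n) F).1
        = (x⁻¹ : GL (Fin n) F).1 * (x.1 * tmat e₂ P (y⁻¹ : GL (Fin 3) F).1 1) := by
          rw [h1, mul_one]
      _ = ((x⁻¹ : GL (Fin n) F).1 * x.1) * tmat e₂ P (y⁻¹ : GL (Fin 3) F).1 1 := by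
          rw [mul_assoc]
      _ = tmat e₂ P (y⁻¹ : GL (Fin 3) F).1 1 := by
          rw [Cfsg.Agent.Lib.Helper82.ASB8UNITS.inv_mul_val, one_mul]

theorem TIR (e : Fin n ≃ (Fin 2 → Fin 3)) (P : GL (Fin n) F) (N : Subgroup (GL (Fin n) F))
    (hspan : ∀ X : Matrix (Fin n) (Fin n) F, X ∈ Submodule.span F (matrixSet N) ↔
      ∃ A : Matrix (Fin 3) (Fin 3) F, X = P.1 *
        Matrix.reindex e.symm e.symm (Cfsg.Agent.Lib.Helper86.ASB8.iota (0 : Fin 2) A) *
        (P⁻¹ : GL (Fin n) F).1) :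
    ∃ (e₂ : Fin n ≃ Fin 3 × Fin 3) (R : Subgroup (GL (Fin 3) F)),
      e₂.trans (finTwoArrowEquiv (Fin 3)).symm = e ∧
      ActsAbsolutelyIrreducibly (matrixSet R) ∧
      (∀ x ∈ N, ∃ y ∈ R, x.1 = tmat e₂ P y.1 1) ∧ (∀ y ∈ R, ∃ x ∈ N, x.1 = tmat e₂ P y.1 1) := by
  classical
  obtain ⟨e₂, he₂⟩ : ∃ e₂ : Fin n ≃ Fin 3 × Fin 3, e₂ = e.trans (finTwoArrowEquiv (Fin 3)) :=
    ⟨_, rfl⟩
  have hspan' : ∀ X : Matrix (Fin n) (Fin n) F, X ∈ Submodule.span F (matrixSet N) ↔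
      ∃ A : Matrix (Fin 3) (Fin 3) F, X = tmat e₂ P A 1 := by
    intro X
    rw [hspan X]
    constructor
    · rintro ⟨A, rfl⟩
      refine ⟨A, ?_⟩
      unfold tmat
      rw [he₂, TIR_reindex_iota]
    · rintro ⟨A, rfl⟩
      refine ⟨A, ?_⟩
      unfold tmat
      rw [he₂, TIR_reindex_iota]
  have hN : ∀ x ∈ N, ∃ y : GL (Fin 3) F, x.1 = tmat e₂ P y.1 1 := by
    intro x hx
    obtain ⟨A, hA⟩ := (hspan' x.1).mp (Submodule.subset_span ⟨x, hx, rfl⟩)
    obtain ⟨B, hB⟩ := (hspan' (x⁻¹ : GL (Fin n) F).1).mp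
      (Submodule.subset_span ⟨x⁻¹, N.inv_mem hx, rfl⟩)
    have hAB : A * B = 1 := by
      apply TIR_tmat_inj e₂ P
      have h2 := Cfsg.Agent.Lib.Helper82.ASB8UNITS.tmat_mul e₂ P A B
        (1 : Matrix (Fin 3) (Fin 3) F) 1
      rw [mul_one] at h2
      rw [← h2, ← hA, ← hB, Cfsg.Agent.Lib.Helper82.ASB8UNITS.mul_inv_val,
        Cfsg.Agent.Lib.Helper82.ASB8UNITS.tmat_one]
    have hBA : B * A = 1 := by
      apply TIR_tmat_inj e₂ P
      have h2 := Cfsg.Agent.Lib.Helper82.ASB8UNITS.tmat_mul e₂ P B A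
        (1 : Matrix (Fin 3) (Fin 3) F) 1
      rw [mul_one] at h2
      rw [← h2, ← hA, ← hB, Cfsg.Agent.Lib.Helper82.ASB8UNITS.inv_mul_val,
        Cfsg.Agent.Lib.Helper82.ASB8UNITS.tmat_one]
    exact ⟨⟨A, B, hAB, hBA⟩, hA⟩
  refine ⟨e₂, TIR_R e₂ P N, ?_, ?_, ?_, ?_⟩
  · rw [he₂]
    ext i k
    fin_cases k <;> rfl
  · apply TIR_absIrr_of_span
    rw [eq_top_iff]
    intro A _
    have h1 : tmat e₂ P A 1 ∈ Submodule.span F (matrixSet N) := (hspan' _).mpr ⟨A, rfl⟩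
    have himg : matrixSet N = (Cfsg.Agent.Lib.Helper82.ASB8UNITS.phi e₂ P) ''
        (matrixSet (TIR_R e₂ P N)) := by
      ext X
      constructor
      · rintro ⟨x, hx, rfl⟩
        obtain ⟨y, hxy⟩ := hN x hx
        exact ⟨y.1, ⟨y, ⟨x, hx, hxy⟩, rfl⟩, hxy.symm⟩
      · rintro ⟨_, ⟨y, ⟨x, hx, hxy⟩, rfl⟩, rfl⟩
        exact ⟨x, hx, hxy⟩
    rw [himg, ← Submodule.map_span] at h1
    obtain ⟨A', hA', hAA'⟩ := h1
    have h3 : A' = A := TIR_tmat_inj e₂ P A' A hAA'
    rw [← h3]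
    exact hA'
  · intro x hx
    obtain ⟨y, hxy⟩ := hN x hx
    exact ⟨y, ⟨x, hx, hxy⟩, hxy⟩
  · rintro y ⟨x, hx, hxy⟩
    exact ⟨x, hx, hxy⟩

end Cfsg.Agent.Lib.Helper44.O9
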