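import Mathlib
import Cfsg.Prelude.Def_GeometricClasses
import Cfsg.Prelude.Def_LieClassical
import Cfsg.Agent.Lib.Helper16.SLPC3

/-! Project OMP (helper71, S5814 + S5859), piece FK (no form): an irreducible, not absolutely
irreducible group in prime dimension `n` has commutant a field subalgebra of degree `n`.
The argument is the first half of `Cfsg.Agent.Lib.Helper37.SUPU2.U2` (helper37). -/

set_option autoImplicit false

namespace Cfsg.Agent.Lib.Helper82.OMPFK

open Matrix Cfsg.Geo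

variable {n : ℕ} {F : Type*} [Field F] [Fintype F]

/-- FK (no form): an irreducible, not absolutely irreducible group in prime dimension `n` has
commutant a field subalgebra of degree `n`. -/
theorem FK (hn : n.Prime) (H : Subgroup (GL (Fin n) F)) (h1 : ActsIrreducibly (matrixSet H))
    (h2 : ¬ ActsAbsolutelyIrreducibly (matrixSet H)) :
    ∃ K : Subalgebra F (Matrix (Fin n) (Fin n) F), IsFieldSubalgebra n K ∧
      ∀ z ∈ K, (∀ x ∈ H, z * x.1 = x.1 * z) ∧
        ∀ X : Matrix (Fin n) (Fin n) F, (∀ x ∈ H, X * x.1 = x.1 * X) → z * X = X * z := by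
  classical
  -- a non-scalar matrix commuting with `H`
  have h3 : ∃ M : Matrix (Fin n) (Fin n) F, (∀ s ∈ matrixSet H, M * s = s * M) ∧
      ¬ ∃ c : F, M = c • (1 : Matrix (Fin n) (Fin n) F) := by
    by_contra hcon
    apply h2
    refine ⟨h1, fun M hM => ?_⟩
    by_contra hc
    exact hcon ⟨M, hM, hc⟩
  obtain ⟨M, hM, hMns⟩ := h3
  -- nonzero matrices commuting with `H` are injective
  have hinjE : ∀ x : Matrix (Fin n) (Fin n) F, (∀ s ∈ matrixSet H, x * s = s * x) → x ≠ 0 →
      ∀ v : Fin n → F, x *ᵥ v = 0 → v = 0 := by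
    intro x hxc hx0 v hv
    have hW := h1 (LinearMap.ker (Matrix.toLin' x)) (by
      intro s hs w hw
      obtain ⟨u, hu, rfl⟩ := Submodule.mem_map.mp hw
      rw [LinearMap.mem_ker] at hu ⊢
      rw [Matrix.toLin'_apply] at hu ⊢
      rw [Matrix.toLin'_apply, Matrix.mulVec_mulVec, hxc s hs, ← Matrix.mulVec_mulVec, hu,
        Matrix.mulVec_zero])
    rcases hW with hW | hW
    · have : v ∈ LinearMap.ker (Matrix.toLin' x) := by
        rw [LinearMap.mem_ker, Matrix.toLin'_apply]; exact hv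
      rw [hW] at this
      exact (Submodule.mem_bot F).mp this
    · exfalso
      apply hx0
      have h4 : Matrix.toLin' x = 0 := LinearMap.ker_eq_top.mp hW
      have h5 : Matrix.toLin' x = Matrix.toLin' (0 : Matrix (Fin n) (Fin n) F) := by
        rw [h4, map_zero]
      exact Matrix.toLin'.injective h5
  obtain ⟨K, hKdef⟩ : ∃ K : Subalgebra F (Matrix (Fin n) (Fin n) F),
      K = Algebra.adjoin F {M} := ⟨_, rfl⟩
  have hMK : M ∈ K := by
    rw [hKdef]; exact Algebra.subset_adjoin (Set.mem_singleton M)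
  have hcomm : ∀ x ∈ K, ∀ y ∈ K, x * y = y * x := by
    intro x hx y hy
    rw [hKdef] at hx hy
    have hxM : Commute x M := (Algebra.commute_of_mem_adjoin_self hx).symm
    exact (Algebra.commute_of_mem_adjoin_singleton_of_commute hy hxM).eq
  have hKc : ∀ x ∈ K, ∀ s ∈ matrixSet H, x * s = s * x := by
    intro x hx s hs
    rw [hKdef] at hx
    have hsM : Commute s M := (hM s hs).symm
    exact (Algebra.commute_of_mem_adjoin_singleton_of_commute hx hsM).eq.symm
  have hinj : ∀ x ∈ K, x ≠ 0 → ∀ v : Fin n → F, x *ᵥ v = 0 → v = 0 :=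
    fun x hx hx0 => hinjE x (hKc x hx) hx0
  have hcancel : ∀ x ∈ K, x ≠ 0 → ∀ y : Matrix (Fin n) (Fin n) F, x * y = 0 → y = 0 := by
    intro x hx hx0 y hxy
    apply Matrix.toLin'.injective
    apply LinearMap.ext
    intro v
    rw [Matrix.toLin'_apply, map_zero, LinearMap.zero_apply]
    apply hinj x hx hx0
    rw [Matrix.mulVec_mulVec, hxy, Matrix.zero_mulVec]
  have hinv : ∀ x ∈ K, x ≠ 0 → ∃ y ∈ K, x * y = 1 := by
    intro x hx hx0
    let L : ↥K →ₗ[F] ↥K :=
      { toFun := fun y => ⟨x * y.1, K.mul_mem hx y.2⟩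
        map_add' := fun y z => Subtype.ext (by
          show x * (y.1 + z.1) = x * y.1 + x * z.1
          rw [mul_add])
        map_smul' := fun a y => Subtype.ext (by
          show x * (a • y.1) = a • (x * y.1)
          rw [mul_smul_comm]) }
    have hLinj : Function.Injective L := by
      intro y z hyz
      have h4 : x * y.1 = x * z.1 := congrArg Subtype.val hyz
      have h5 : x * (y.1 - z.1) = 0 := by rw [mul_sub, h4, sub_self]
      exact Subtype.ext (sub_eq_zero.mp (hcancel x hx hx0 _ h5))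
    obtain ⟨y, hy⟩ := (LinearMap.injective_iff_surjective.mp hLinj) ⟨1, K.one_mem⟩
    exact ⟨y.1, y.2, congrArg Subtype.val hy⟩
  have hdim : 2 ≤ Module.finrank F K := by
    by_contra hlt
    have hle : Module.finrank F K ≤ 1 := by omega
    obtain ⟨v, hv⟩ := finrank_le_one_iff.mp hle
    obtain ⟨c₁, hc₁⟩ := hv ⟨1, K.one_mem⟩
    obtain ⟨c₂, hc₂⟩ := hv ⟨M, hMK⟩
    have e1 : c₁ • v.1 = (1 : Matrix (Fin n) (Fin n) F) := congrArg Subtype.val hc₁
    have e2 : c₂ • v.1 = M := congrArg Subtype.val hc₂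
    apply hMns
    by_cases hc0 : c₁ = 0
    · refine ⟨0, ?_⟩
      rw [hc0, zero_smul] at e1
      rw [zero_smul, ← mul_one M, ← e1, mul_zero]
    · refine ⟨c₂ * c₁⁻¹, ?_⟩
      rw [← e2, ← e1, smul_smul, mul_assoc, inv_mul_cancel₀ hc0, mul_one]
  have hKfs : IsFieldSubalgebra (Module.finrank F K) K := ⟨hcomm, hinv, rfl⟩
  have hd : Module.finrank F K = n := by
    rcases (Nat.dvd_prime hn).1
      (Cfsg.Agent.Lib.Helper16.SLPC3.C3 hn.one_lt.le _ K hKfs) with h | h
    · omega
    · exact h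
  -- the commutant of `H` is `K`
  have hn0 : 0 < n := hn.pos
  obtain ⟨v₀, hv₀⟩ : ∃ v₀ : Fin n → F, v₀ ≠ 0 := ⟨Pi.single ⟨0, hn0⟩ 1, by
    intro h
    have h' := congrFun h ⟨0, hn0⟩
    simp at h'⟩
  let ev : ↥K →ₗ[F] (Fin n → F) :=
    { toFun := fun k => k.1 *ᵥ v₀
      map_add' := fun a b => by
        show (a.1 + b.1) *ᵥ v₀ = a.1 *ᵥ v₀ + b.1 *ᵥ v₀
        rw [Matrix.add_mulVec]
      map_smul' := fun a b => by
        show (a • b.1) *ᵥ v₀ = a • (b.1 *ᵥ v₀)
        rw [Matrix.smul_mulVec] }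
  have hevinj : Function.Injective ev := by
    intro a b hab
    have h4 : a.1 *ᵥ v₀ = b.1 *ᵥ v₀ := hab
    have h5 : (a.1 - b.1) *ᵥ v₀ = 0 := by rw [Matrix.sub_mulVec, h4, sub_self]
    by_contra hne
    have hne' : a.1 - b.1 ≠ 0 := fun h => hne (Subtype.ext (sub_eq_zero.mp h))
    exact hv₀ (hinj _ (K.sub_mem a.2 b.2) hne' v₀ h5)
  have hevsurj : Function.Surjective ev := by
    have hfr : Module.finrank F ↥K = Module.finrank F (Fin n → F) := by
      rw [hd, Module.finrank_fin_fun]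
    exact (LinearMap.injective_iff_surjective_of_finrank_eq_finrank hfr).mp hevinj
  have hEK : ∀ X : Matrix (Fin n) (Fin n) F, (∀ s ∈ matrixSet H, X * s = s * X) → X ∈ K := by
    intro X hX
    obtain ⟨k, hk⟩ := hevsurj (X *ᵥ v₀)
    have hk' : k.1 *ᵥ v₀ = X *ᵥ v₀ := hk
    have h5 : (X - k.1) *ᵥ v₀ = 0 := by rw [Matrix.sub_mulVec, hk', sub_self]
    have hc : ∀ s ∈ matrixSet H, (X - k.1) * s = s * (X - k.1) := by
      intro s hs
      rw [sub_mul, mul_sub, hX s hs, hKc k.1 k.2 s hs]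
    have h6 : X - k.1 = 0 := by
      by_contra hne
      exact hv₀ (hinjE _ hc hne v₀ h5)
    rw [sub_eq_zero.mp h6]
    exact k.2
  refine ⟨K, ⟨hcomm, hinv, hd⟩, fun z hz => ⟨fun x hx => hKc z hz x.1 ⟨x, hx, rfl⟩, fun X hX => ?_⟩⟩
  have hXK : X ∈ K := hEK X (by
    rintro s ⟨g, hg, rfl⟩
    exact hX g hg)
  exact hcomm z hz X hXK

end Cfsg.Agent.Lib.Helper82.OMPFK
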