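import Mathlib

/-!
# The rank of a matrix under a field extension (helper82)

`rank_map_field`: the rank of a matrix over a field `K` does not change when the entries are
mapped to an extension field `L`.
`rank_eq_card_of_factor`: a criterion for the rank used for Robinson's theorem.
-/

set_option autoImplicit false

namespace Cfsg.Agent.Lib.Helper82

section RankExt

variable {K L : Type*} [Field K] [Field L] {m n : Type*} [Fintype m] [Fintype n]

/-- Linear independence of vectors with coordinates in `K` is preserved under a field
extension `K → L`. -/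
theorem linearIndependent_map_field (f : K →+* L) {κ : Type*} [Fintype κ] (v : κ → m → K)
    (hv : LinearIndependent K v) : LinearIndependent L (fun k => fun i => f (v k i)) := by
  classical
  letI : Algebra K L := f.toAlgebra
  rw [Fintype.linearIndependent_iff] at hv ⊢
  intro g hg k
  by_contra hne
  obtain ⟨φ, hφ⟩ : ∃ φ : L →ₗ[K] K, φ (g k) = 1 := by
    have hinj : LinearMap.ker (LinearMap.toSpanSingleton K L (g k)) = ⊥ := by
      rw [LinearMap.ker_eq_bot]
      intro a b hab
      simp only [LinearMap.toSpanSingleton_apply] at hab
      exact smul_left_injective K hne hab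
    obtain ⟨φ, hφ⟩ := LinearMap.exists_leftInverse_of_injective _ hinj
    refine ⟨φ, ?_⟩
    have h1 := congrArg (fun F : K →ₗ[K] K => F 1) hφ
    simpa using h1
  have h1 : ∑ j, φ (g j) • v j = 0 := by
    funext i
    have h2 := congrFun hg i
    simp only [Finset.sum_apply, Pi.smul_apply, smul_eq_mul, Pi.zero_apply] at h2 ⊢
    have h3 : φ (∑ j, g j * f (v j i)) = 0 := by rw [h2, map_zero]
    rw [map_sum] at h3
    rw [← h3]
    refine Finset.sum_congr rfl fun j _ => ?_
    have h4 : g j * f (v j i) = v j i • g j := by
      rw [Algebra.smul_def, mul_comm]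
      rfl
    rw [h4, map_smul, smul_eq_mul, mul_comm]
  have h5 := hv _ h1 k
  rw [hφ] at h5
  exact one_ne_zero h5

/-- The rank of a matrix is invariant under field extension. -/
theorem rank_map_field (f : K →+* L) (A : Matrix m n K) : (A.map f).rank = A.rank := by
  classical
  obtain ⟨κ, a, ha_inj, hspan, hli⟩ := exists_linearIndependent' K A.col
  haveI : Finite κ := Finite.of_injective a ha_inj
  letI : Fintype κ := Fintype.ofFinite κ
  have h1 : A.rank = Fintype.card κ := by
    rw [Matrix.rank_eq_finrank_span_cols, ← hspan]
    exact finrank_span_eq_card hli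
  have hli2 : LinearIndependent L (fun k => fun i => f ((A.col ∘ a) k i)) :=
    linearIndependent_map_field f _ hli
  have hcol : ∀ j, (A.map f).col j = fun i => f (A.col j i) := fun j => rfl
  have h2 : Submodule.span L (Set.range (A.map f).col) =
      Submodule.span L (Set.range (fun k => fun i => f ((A.col ∘ a) k i))) := by
    apply le_antisymm
    · rw [Submodule.span_le]
      rintro _ ⟨j, rfl⟩
      have hj : A.col j ∈ Submodule.span K (Set.range (A.col ∘ a)) := by
        rw [hspan]
        exact Submodule.subset_span ⟨j, rfl⟩
      obtain ⟨c, hc⟩ := (Submodule.mem_span_range_iff_exists_fun K).mp hj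
      rw [SetLike.mem_coe, Submodule.mem_span_range_iff_exists_fun]
      refine ⟨fun k => f (c k), ?_⟩
      funext i
      have hci := congrFun hc i
      simp only [Finset.sum_apply, Pi.smul_apply, smul_eq_mul] at hci ⊢
      rw [hcol]
      show _ = f (A.col j i)
      rw [← hci, map_sum]
      refine Finset.sum_congr rfl fun k _ => ?_
      rw [map_mul]
    · apply Submodule.span_mono
      rintro _ ⟨k, rfl⟩
      exact ⟨a k, rfl⟩
  rw [Matrix.rank_eq_finrank_span_cols, h2, h1]
  exact finrank_span_eq_card hli2

/-- If `A` over `K` becomes `U * V` over `L`, with `U`, `V` having one-sided inverses, then the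
rank of `A` is the inner dimension. -/
theorem rank_eq_card_of_factor (f : K →+* L) (A : Matrix m n K) {β : Type*} [Fintype β]
    [DecidableEq β] (U : Matrix m β L) (V : Matrix β n L) (X : Matrix β m L) (Y : Matrix n β L)
    (hUV : A.map f = U * V) (hXU : X * U = 1) (hVY : V * Y = 1) :
    A.rank = Fintype.card β := by
  rw [← rank_map_field f A, hUV]
  apply le_antisymm
  · exact (Matrix.rank_mul_le_left U V).trans (Matrix.rank_le_card_width U)
  · have h1 : X * (U * V) * Y = 1 := by
      rw [← Matrix.mul_assoc, hXU, Matrix.one_mul, hVY]
    have h2 : (1 : Matrix β β L).rank = Fintype.card β := Matrix.rank_one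
    rw [← h2, ← h1]
    exact (Matrix.rank_mul_le_left _ _).trans (Matrix.rank_mul_le_right _ _)

end RankExt

end Cfsg.Agent.Lib.Helper82
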