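import Mathlib
import Cfsg.Agent.Lib.Helper52.SP8EBDefs

/-! SP8-EB (sub-project of S5823, helper52), piece PERMCONJ (helper82, insurance copy):
conjugating a pure tensor by a factor permutation permutes the factors. -/

set_option autoImplicit false

namespace Cfsg.Agent.Lib.Helper52.SP8EB

open Matrix Cfsg.Geo Cfsg.Agent.Lib.Helper71.Asch

variable {n : ℕ} {F : Type*} [Field F] [Fintype F]

theorem PERMCONJ_apply (σ : Equiv.Perm (Fin 3)) (x y : Fin 3 → Fin 2) :
    (permM σ : Matrix (Fin 3 → Fin 2) (Fin 3 → Fin 2) F) x y = if y = x ∘ σ then 1 else 0 := rfl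

theorem PERMCONJ_left (σ : Equiv.Perm (Fin 3))
    (M : Matrix (Fin 3 → Fin 2) (Fin 3 → Fin 2) F) (x z : Fin 3 → Fin 2) :
    ((permM σ : Matrix (Fin 3 → Fin 2) (Fin 3 → Fin 2) F) * M) x z = M (x ∘ σ) z := by
  rw [Matrix.mul_apply, Finset.sum_eq_single (x ∘ σ)]
  · rw [PERMCONJ_apply, if_pos rfl, one_mul]
  · intro b _ hb
    rw [PERMCONJ_apply, if_neg hb, zero_mul]
  · intro h
    exact absurd (Finset.mem_univ _) h

theorem PERMCONJ_right (τ : Equiv.Perm (Fin 3))
    (M : Matrix (Fin 3 → Fin 2) (Fin 3 → Fin 2) F) (x z : Fin 3 → Fin 2) :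
    (M * (permM τ : Matrix (Fin 3 → Fin 2) (Fin 3 → Fin 2) F)) x z = M x (z ∘ τ.symm) := by
  rw [Matrix.mul_apply, Finset.sum_eq_single (z ∘ τ.symm)]
  · have h0 : z = (z ∘ τ.symm) ∘ τ := by
      ext j
      simp
    rw [PERMCONJ_apply, if_pos h0, mul_one]
  · intro b _ hb
    have h0 : z ≠ b ∘ τ := by
      rintro rfl
      apply hb
      ext j
      simp
    rw [PERMCONJ_apply, if_neg h0, mul_zero]
  · intro h
    exact absurd (Finset.mem_univ _) h

/-- PERMCONJ. -/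
theorem PERMCONJ : HPermConj F := by
  intro σ cs
  ext x w
  rw [PERMCONJ_right, PERMCONJ_left]
  show ∏ i, cs i ((x ∘ σ) i) ((w ∘ σ.symm.symm) i) = ∏ j, cs (σ.symm j) (x j) (w j)
  rw [← Equiv.prod_comp σ (fun j => cs (σ.symm j) (x j) (w j))]
  apply Finset.prod_congr rfl
  intro i _
  simp

end Cfsg.Agent.Lib.Helper52.SP8EB
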