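import Mathlib
import Cfsg.Prelude.Def_GeometricClasses
import Cfsg.Prelude.Def_LieClassical
import Cfsg.Agent.Lib.Helper87.ASPSF
import Cfsg.Agent.Lib.Helper66.SPPFLDp

/-!
# Project SP12 (helper71, S5868), piece FLDsa (helper82)

The elements `k` of a self-adjoint field subalgebra satisfy `f (k v) v = 0` for a symplectic form
`f` (characteristic `≠ 2`: skewness; characteristic 2: `k` is a square in `K`).  Extracted from the
second half of `Cfsg.Agent.Lib.Helper66.SPPFLDp.FLDp`.
-/

set_option autoImplicit false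
set_option linter.style.haveILetI false

namespace Cfsg.Agent.Lib.Helper82.SP12FLDsa

open Matrix Cfsg.Geo
open scoped Kronecker

variable {n : ℕ} {F : Type*} [Field F] [Fintype F]

/-- FLDsa: the elements `k` of a self-adjoint field subalgebra satisfy `f (k v) v = 0`. -/
theorem FLDsa (f : (Fin n → F) → (Fin n → F) → F) (hf : IsSymplecticForm f) (r : ℕ)
    (K : Subalgebra F (Matrix (Fin n) (Fin n) F)) (hK : IsFieldSubalgebra r K)
    (hsa : IsSelfAdjointFor f K) : ∀ k ∈ K, ∀ v : Fin n → F, f (k *ᵥ v) v = 0 := by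
  classical
  intro k hk v
  by_cases h2 : (2 : F) = 0
  · by_cases h01 : (0 : ↥K) = 1
    · -- the trivial algebra
      have hk0 : k = 0 := by
        have h1 : (⟨k, hk⟩ : ↥K) = 0 := by
          calc (⟨k, hk⟩ : ↥K) = ⟨k, hk⟩ * 1 := (mul_one _).symm
            _ = ⟨k, hk⟩ * 0 := by rw [h01]
            _ = 0 := mul_zero _
        exact congrArg Subtype.val h1
      rw [hk0, Matrix.zero_mulVec]
      exact Cfsg.Agent.Lib.Helper66.SPPFLDp.fldp_zero_left f hf.bilinear v
    · -- characteristic 2: `k` is a square in the finite field `K`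
      letI iF : Field ↥K := Cfsg.Agent.Lib.Helper87.ASPSF.fieldK K hK.comm hK.inv h01
      have hchar : ringChar ↥K = 2 := by
        apply CharP.ringChar_of_prime_eq_zero Nat.prime_two
        have e2 : ((2 : ℕ) : ↥K) = algebraMap F ↥K (2 : F) := by
          rw [Nat.cast_ofNat, map_ofNat]
        rw [e2, h2, map_zero]
      obtain ⟨s, hs⟩ := FiniteField.isSquare_of_char_two hchar (⟨k, hk⟩ : ↥K)
      have hk' : k = s.1 * s.1 := congrArg Subtype.val hs
      rw [hk', ← Matrix.mulVec_mulVec, hsa s.1 s.2]
      exact hf.alternating _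
  · have h := hsa k hk v v
    have h' := hf.skew v (k *ᵥ v)
    rw [h'] at h
    have h3 : (2 : F) * f (k *ᵥ v) v = 0 := by linear_combination h
    exact (mul_eq_zero.1 h3).resolve_left h2

end Cfsg.Agent.Lib.Helper82.SP12FLDsa
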