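import Mathlib
import Cfsg.Agent.Lib.Helper72.JPDefs
import Cfsg.Agent.Lib.Helper82.JcOCPC
import Cfsg.Agent.Lib.Helper75.JcWF

/-! Project JP (helper72; S2948, S2949), piece K4A (helper82): the subgroup `W = wOf K` of the
group `K = KOf Q k` attached to a seed `k`: `W ≤ K ⊓ Q` is central in `K ⊓ Q`, of exponent 2, `k`
acts on it without fixed points, `N(K)` normalizes it, and `W ≠ ⊥`. -/

set_option autoImplicit false

namespace Cfsg.Agent.Lib.Helper82.JP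

open Cfsg.Agent.Lib.Helper72.JP Cfsg.Agent.Lib.Helper72.JM Cfsg.Agent.Lib.Helper72.JL
  Cfsg.Agent.Lib.Helper72.SC Cfsg.Agent.Lib.Helper78.Jc
open Cfsg.Agent.Lib.Helper82.Jc Cfsg.Agent.Lib.Helper75.Jc

open scoped commutatorElement

universe u

/-- the abstract core of K4A -/
theorem k4a_core (h2 : WvStmt.{u}) (X : Type u) [Group X] [Finite X] (V Q K : Subgroup X) (k : X)
    (hVn : V.Normal) (hVQ : V ≤ Q) (hVab : ∀ a ∈ V, ∀ b ∈ V, a * b = b * a)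
    (hV2 : ∀ a ∈ V, a * a = 1) (hQV : ∀ q ∈ Q, ∀ v ∈ V, q * v = v * q)
    (hQK : Q ≤ Subgroup.normalizer (K : Set X))
    (hdec : ∀ x ∈ K, ∃ p ∈ K ⊓ Q, ∃ i : ℕ, x = p * k ^ i)
    (hpc : Cfsg.pCoreOf 2 K = K ⊓ Q) (hrel : (Cfsg.pCoreOf 2 K).relIndex K = 3)
    (hkK : k ∈ K) (hk3 : k ^ 3 = 1) (hnt : ∃ v ∈ V, ⁅k, v⁆ ≠ 1) :
    Cfsg.wOf K ≤ K ⊓ Q ∧ (∀ w ∈ Cfsg.wOf K, ∀ p ∈ K ⊓ Q, w * p = p * w) ∧
    (∀ w ∈ Cfsg.wOf K, w * w = 1) ∧ (∀ w ∈ Cfsg.wOf K, k * w * k⁻¹ = w → w = 1) ∧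
    (∀ g ∈ Subgroup.normalizer (K : Set X), ∀ w ∈ Cfsg.wOf K, g * w * g⁻¹ ∈ Cfsg.wOf K) ∧
    Cfsg.wOf K ≠ ⊥ := by
  have hWdef : Cfsg.wOf K = ⁅Cfsg.omegaCenterOf (Cfsg.pCoreOf 2 K), K⁆ := rfl
  have hKP : K ≤ Subgroup.normalizer ((Cfsg.pCoreOf 2 K : Subgroup X) : Set X) :=
    pc_le_normalizer K
  have hKΩ : K ≤ Subgroup.normalizer
      ((Cfsg.omegaCenterOf (Cfsg.pCoreOf 2 K) : Subgroup X) : Set X) :=
    hKP.trans (oc_normalizer _)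
  have hWΩ : Cfsg.wOf K ≤ Cfsg.omegaCenterOf (Cfsg.pCoreOf 2 K) := by
    rw [hWdef]
    exact wf_le _ K hKΩ
  have hW2 : ∀ w ∈ Cfsg.wOf K, w * w = 1 := fun w hw => oc_sq _ w (hWΩ hw)
  have hWn : ∀ g ∈ Subgroup.normalizer (K : Set X), ∀ w ∈ Cfsg.wOf K,
      g * w * g⁻¹ ∈ Cfsg.wOf K := by
    intro g hg w hw
    rw [hWdef] at hw ⊢
    exact wf_conj_comm _ K g (oc_normalizer _ (pc_normalizer K hg)) hg w hw
  have hkk : k ^ 2 = k⁻¹ := by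
    apply eq_inv_of_mul_eq_one_left
    rw [← pow_succ]
    exact hk3
  have hcases : ∀ x ∈ K, ∃ q ∈ Cfsg.pCoreOf 2 K, x = q ∨ x = k * q ∨ x = k⁻¹ * q := by
    intro x hx
    obtain ⟨p, hp, i, rfl⟩ := hdec x hx
    rw [← hpc] at hp
    have hkN := hKP hkK
    have hi : k ^ i = k ^ (i % 3) := pow_eq_pow_mod i hk3
    have hi3 : i % 3 < 3 := Nat.mod_lt _ (by norm_num)
    rw [hi]
    interval_cases (i % 3)
    · exact ⟨p, hp, Or.inl (by rw [pow_zero, mul_one])⟩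
    · refine ⟨k⁻¹ * p * k, wf_conj_mem' hkN hp, Or.inr (Or.inl ?_)⟩
      rw [pow_one]
      group
    · refine ⟨k * p * k⁻¹, wf_conj_mem hkN hp, Or.inr (Or.inr ?_)⟩
      rw [hkk]
      group
  have hfpf0 := wf_fpf (Cfsg.omegaCenterOf (Cfsg.pCoreOf 2 K)) K (Cfsg.pCoreOf 2 K) k
    (fun a ha b hb => oc_comm _ a ha b (oc_le _ hb))
    (fun q hq v hv => (oc_comm _ v hv q hq).symm) hKΩ hcases hkK hk3
  have hfpf : ∀ w ∈ Cfsg.wOf K, k * w * k⁻¹ = w → w = 1 := by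
    intro w hw hfix
    have h5 := hfpf0 w hw
    have h6 : k⁻¹ * w * k = w := by
      calc k⁻¹ * w * k = k⁻¹ * (k * w * k⁻¹) * k := by rw [hfix]
        _ = w := by group
    rw [hfix, h6, hW2 w hw, one_mul] at h5
    exact h5
  refine ⟨?_, ?_, hW2, hfpf, hWn, ?_⟩
  · rw [← hpc]
    exact hWΩ.trans (oc_le _)
  · intro w hw p hp
    rw [← hpc] at hp
    exact oc_comm _ w (hWΩ hw) p hp
  · obtain ⟨v, hv, hvne⟩ := hnt
    have h2el : ∀ x ∈ K, (∃ n : ℕ, x ^ 2 ^ n = 1) → x ∈ Cfsg.pCoreOf 2 K := by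
      rintro x hx ⟨n, hn⟩
      have h2z : IsPGroup 2 ↥(Subgroup.zpowers x) := by
        rintro ⟨g, hg⟩
        obtain ⟨z, rfl⟩ := Subgroup.mem_zpowers_iff.mp hg
        refine ⟨n, Subtype.ext ?_⟩
        rw [Subgroup.coe_pow, Subgroup.coe_one]
        show (x ^ z) ^ 2 ^ n = 1
        rw [← zpow_natCast, ← zpow_mul, mul_comm, zpow_mul, zpow_natCast, hn, one_zpow]
      exact pc_two_le K hrel (Subgroup.zpowers x) ((Subgroup.zpowers_le).mpr hx) h2z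
        (Subgroup.mem_zpowers x)
    have hPQ : Cfsg.pCoreOf 2 K ≤ Q := by
      rw [hpc]
      exact inf_le_right
    have hmem := h2 X V Q K (Cfsg.pCoreOf 2 K) (Cfsg.wOf K) k hVn hVQ hVab hV2 hQV hQK hPQ h2el
      hkK hk3 (fun w hw => hWn k (Subgroup.le_normalizer hkK) w hw)
      (fun u hu hc hu2 => by
        rw [hWdef]
        exact Subgroup.commutator_mem_commutator (oc_mem _ u hu hc hu2) hkK) v hv
    intro hbot
    rw [hbot, Subgroup.mem_bot] at hmem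
    exact hvne hmem

theorem k4a (h1 : VabStmt.{u}) (h2 : WvStmt.{u}) (h3 : KbStmt.{u}) (h4 : KpStmt.{u}) :
    K4aStmt.{u} := by
  intro X _ _ T hS a k hseed
  obtain ⟨⟨A, hA, haA⟩, hk3, hak, hρk, hJk⟩ := hseed
  have hQn : (Cfsg.pCore 2 X).Normal := Subgroup.sSup_normal _ (fun H hH => hH.1)
  have hQ2 : IsPGroup 2 ↥(Cfsg.pCore 2 X) :=
    Sylow.sSup_of_normal _ (fun _ hK => hK.2) (fun _ hK => hK.1)
  have hk1 : k ≠ 1 := by
    rintro rfl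
    exact hρk (map_one _)
  have hkK : k ∈ KOf (Cfsg.pCore 2 X) k :=
    Subgroup.subset_closure ⟨1, one_mem _, by simp⟩
  obtain ⟨hQK, hodd, hdec, hoddmem⟩ := h3 X (Cfsg.pCore 2 X) k hQn hQ2 hk3 hk1
  obtain ⟨hpc, hrel⟩ := h4 X (Cfsg.pCore 2 X) k hQn hQ2 hk3 hk1
  obtain ⟨hVQ, hVab, hV2, hQT, hQV⟩ := h1 X T hS
  have hnt : ∃ v ∈ VT T, ⁅k, v⁆ ≠ 1 := by
    by_contra hcon
    push Not at hcon
    apply hρk
    apply MulEquiv.ext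
    intro v
    apply Subtype.ext
    have h5 := hcon v.1 v.2
    rw [commutatorElement_def] at h5
    show k * (v : X) * k⁻¹ = (v : X)
    exact mul_inv_eq_one.mp h5
  exact k4a_core h2 X (VT T) (Cfsg.pCore 2 X) (KOf (Cfsg.pCore 2 X) k) k (VT_normal T) hVQ hVab
    hV2 hQV hQK hdec hpc hrel hkK hk3 hnt

end Cfsg.Agent.Lib.Helper82.JP
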