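import Mathlib
import Cfsg.Agent.Lib.Helper79.DGMK
import Cfsg.Agent.Lib.Helper79.Blk2
import Cfsg.Agent.Lib.Helper67.DGGD
import Cfsg.Agent.Lib.Helper82.Major
import Cfsg.Agent.Lib.Helper92.DOCL5
import Cfsg.Agent.Lib.Helper92.TGCIND
import Cfsg.Agent.Lib.Helper75.DGSTAB
import Cfsg.Agent.Lib.Helper33.TGCCNT
import Cfsg.Agent.Lib.Helper33.KleinPair

/-!
# Piece ORBQ of S4502 (helper79): the canonical roots of a block of defect one at a Sylow
subgroup `Q` of order `p` form one orbit of `N_H(Q)`: `#roots * |stab θ| = |N_H(Q)|`.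
-/

set_option autoImplicit false
set_option linter.style.haveILetI false
set_option maxHeartbeats 1600000

namespace Cfsg.Agent.Lib.Helper82.DG

open Cfsg Cfsg.Agent.Lib.Helper79.DG Cfsg.Agent.Lib.Helper81
open scoped ComplexConjugate

section

variable {H : Type*} [Group H] [Fintype H]

/-- PIECE ORBQ -/
theorem card_roots (p : ℕ) [Fact p.Prime] (M : Ideal AlgInt) (hM : IsPModular p M)
    (Q : Sylow p H) (hQ : Nat.card Q = p)
    (B : Set (IrrCharacter H)) (hBQ : IsDefectGroup p M B Q)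
    (θ : IrrCharacter (Subgroup.centralizer ((Q : Subgroup H) : Set H)))
    (hθ : IsCanon (Q : Subgroup H) θ)
    (hind : IsInducedBlock M (Subgroup.centralizer ((Q : Subgroup H) : Set H))
      (blockOf M θ.1) B) :
    Nat.card {θ' : IrrCharacter (Subgroup.centralizer ((Q : Subgroup H) : Set H)) //
        IsCanon (Q : Subgroup H) θ' ∧
        IsInducedBlock M (Subgroup.centralizer ((Q : Subgroup H) : Set H)) (blockOf M θ'.1) B} *
      Nat.card (stabSet (Q : Subgroup H) θ) =
    Nat.card (Subgroup.normalizer ((Q : Subgroup H) : Set H)) := by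
  classical
  have hp : p.Prime := Fact.out
  have hB : IsPBlock M B := hind.2.1
  have hdef : blockDefect p B = 1 := by
    have h1 := Cfsg.Agent.Lib.Helper82.card_defectGroup hM B hB (Q : Subgroup H) hBQ
    rw [hQ] at h1
    have h2 : p ^ 1 = p ^ blockDefect p B := by rw [pow_one]; exact h1
    exact (Nat.pow_right_injective hp.two_le h2).symm
  -- a generator of `Q`
  obtain ⟨z, hz, hz1⟩ : ∃ z ∈ (Q : Subgroup H), z ≠ 1 := by
    by_contra hno
    push Not at hno
    have h1 : (Q : Subgroup H) = ⊥ := (Subgroup.eq_bot_iff_forall _).mpr hno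
    have h2 : Nat.card (Q : Subgroup H) = 1 := by rw [h1, Subgroup.card_bot]
    rw [hQ] at h2
    exact hp.one_lt.ne' h2
  have hzo := Cfsg.Agent.Lib.Helper92.DO.cf_order p Q hQ z hz hz1
  have hzp := Cfsg.Agent.Lib.Helper92.DO.cf_zpowers p Q hQ z hz hz1
  have hzc : z ∈ Subgroup.centralizer ((Q : Subgroup H) : Set H) := by
    rw [Subgroup.mem_centralizer_iff]
    intro y hy
    have hy' : y ∈ Subgroup.zpowers z := by rw [← hzp]; exact hy
    obtain ⟨k, rfl⟩ := Subgroup.mem_zpowers_iff.mp hy'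
    exact ((Commute.refl z).zpow_left k).eq
  letI : Fintype (Subgroup.centralizer ((Q : Subgroup H) : Set H)) := Fintype.ofFinite _
  have hfinI : Finite (IrrCharacter (Subgroup.centralizer ((Q : Subgroup H) : Set H))) :=
    Cfsg.Agent.Lib.Helper4.irr_finite
  letI : Fintype (IrrCharacter (Subgroup.centralizer ((Q : Subgroup H) : Set H))) :=
    Fintype.ofFinite _
  have hzcen : (⟨z, hzc⟩ : Subgroup.centralizer ((Q : Subgroup H) : Set H)) ∈
      Subgroup.center (Subgroup.centralizer ((Q : Subgroup H) : Set H)) := by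
    rw [Subgroup.mem_center_iff]
    intro h
    apply Subtype.ext
    simp only [Subgroup.coe_mul]
    exact (Subgroup.mem_centralizer_iff.mp h.2 z hz).symm
  have hCH : Subgroup.centralizer ({z} : Set H) ≤
      Subgroup.centralizer ((Q : Subgroup H) : Set H) := by
    rw [Cfsg.Agent.Lib.Helper33.Klein.centralizer_singleton_eq, ← hzp]
  -- canonical ⟺ power form
  have hcanon_iff : ∀ ξ : IrrCharacter (Subgroup.centralizer ((Q : Subgroup H) : Set H)),
      IsCanon (Q : Subgroup H) ξ ↔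
        ∀ k : ℕ, ξ.1 ((⟨z, hzc⟩ : Subgroup.centralizer ((Q : Subgroup H) : Set H)) ^ k) =
          ξ.1 1 := by
    intro ξ
    constructor
    · intro h k
      apply h
      rw [Subgroup.coe_pow]
      exact Subgroup.pow_mem _ hz k
    · intro h y hy
      have hy' : (y : H) ∈ Subgroup.zpowers z := by rw [← hzp]; exact hy
      have hy'' : (y : H) ∈ Submonoid.powers z := mem_powers_iff_mem_zpowers.mpr hy'
      obtain ⟨k, hk⟩ := hy''
      have h1 : y = (⟨z, hzc⟩ : Subgroup.centralizer ((Q : Subgroup H) : Set H)) ^ k :=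
        Subtype.ext (by rw [Subgroup.coe_pow]; exact hk.symm)
      rw [h1]
      exact h k
  -- existence and uniqueness of the canonical character in each block inducing `B`
  have hEU : ∀ c : Set (IrrCharacter (Subgroup.centralizer ((Q : Subgroup H) : Set H))),
      IsInducedBlock M (Subgroup.centralizer ((Q : Subgroup H) : Set H)) c B →
      ∃ ξ₀ : IrrCharacter (Subgroup.centralizer ((Q : Subgroup H) : Set H)),
        ξ₀ ∈ c ∧ IsCanon (Q : Subgroup H) ξ₀ ∧
        ∀ ξ ∈ c, IsCanon (Q : Subgroup H) ξ → ξ = ξ₀ := by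
    intro c hc
    obtain ⟨ξ₀, h1, h2, h3, -⟩ := Cfsg.Agent.Lib.Helper67.DG.gd_setup
      (Subgroup.centralizer ((Q : Subgroup H) : Set H)) hM ⟨z, hzc⟩ hzcen hzo hCH c B hc hdef
    exact ⟨ξ₀, h1, (hcanon_iff ξ₀).2 h2, fun ξ hξ hcan => h3 ξ hξ ((hcanon_iff ξ).1 hcan)⟩
  -- the stabilizer subgroup
  obtain ⟨T, hT⟩ := exists_stabGroup (Q : Subgroup H) θ
  have hTN : T ≤ Subgroup.normalizer ((Q : Subgroup H) : Set H) := fun g hg => ((hT g).1 hg).1
  have hθb : θ ∈ blockOf M θ.1 := Cfsg.Agent.Lib.Helper79.mem_blockOf_self hM θ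
  have hbblk : IsPBlock M (blockOf M θ.1) := hind.1
  have huniq : ∀ ξ ∈ blockOf M θ.1,
      (∀ x : Subgroup.centralizer ((Q : Subgroup H) : Set H), (x : H) ∈ (Q : Subgroup H) →
        ξ.1 x = ξ.1 1) → ξ = θ := by
    intro ξ hξ hcan
    obtain ⟨ξ₀, -, -, hu⟩ := hEU _ hind
    rw [hu ξ hξ hcan, hu θ hθb hθ]
  have hstab : ∀ g : H, conjPair g (⟨(Q : Subgroup H), blockOf M θ.1⟩ : BrauerPairIdx H) =
      ⟨(Q : Subgroup H), blockOf M θ.1⟩ ↔ g ∈ T := by
    intro g
    rw [hT]
    exact Cfsg.Agent.Lib.Helper75.DG.stab_iff hM (Q : Subgroup H) (blockOf M θ.1) hbblk θ hθb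
      hθ huniq g
  obtain ⟨S, hS⟩ : ∃ S : Set (Set (IrrCharacter (Subgroup.centralizer
      ((Q : Subgroup H) : Set H)))), S = {c | IsInducedBlock M
        (Subgroup.centralizer ((Q : Subgroup H) : Set H)) c B} := ⟨_, rfl⟩
  have hSmem : ∀ c, c ∈ S ↔
      IsInducedBlock M (Subgroup.centralizer ((Q : Subgroup H) : Set H)) c B := by
    intro c
    rw [hS]
    rfl
  have hconj : ∀ c, c ∈ S ↔ ∃ g : H,
      conjPair g (⟨(Q : Subgroup H), blockOf M θ.1⟩ : BrauerPairIdx H) =
        ⟨(Q : Subgroup H), c⟩ := by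
    intro c
    rw [hSmem]
    exact Cfsg.Agent.Lib.Helper92.TGC.ind_iff_conj p M hM Q hQ B hB hBQ (blockOf M θ.1) hind c
  have hcardS := Cfsg.Agent.Lib.Helper33.TGC.card_conj (Q : Subgroup H) (blockOf M θ.1) S T
    hstab hconj
  -- the bijection roots → S
  have hbij : Nat.card {θ' : IrrCharacter (Subgroup.centralizer ((Q : Subgroup H) : Set H)) //
      IsCanon (Q : Subgroup H) θ' ∧
      IsInducedBlock M (Subgroup.centralizer ((Q : Subgroup H) : Set H)) (blockOf M θ'.1) B} =
      Nat.card S := by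
    let f : {θ' : IrrCharacter (Subgroup.centralizer ((Q : Subgroup H) : Set H)) //
        IsCanon (Q : Subgroup H) θ' ∧
        IsInducedBlock M (Subgroup.centralizer ((Q : Subgroup H) : Set H)) (blockOf M θ'.1) B} →
        S := fun r => ⟨blockOf M r.1.1, (hSmem _).2 r.2.2⟩
    have hinj : Function.Injective f := by
      intro r₁ r₂ h12
      have heq : blockOf M r₁.1.1 = blockOf M r₂.1.1 := congrArg Subtype.val h12
      obtain ⟨ξ₀, -, -, hu⟩ := hEU _ r₁.2.2
      have e1 : r₁.1 = ξ₀ := hu r₁.1 (Cfsg.Agent.Lib.Helper79.mem_blockOf_self hM r₁.1) r₁.2.1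
      have e2 : r₂.1 = ξ₀ := by
        refine hu r₂.1 ?_ r₂.2.1
        rw [heq]
        exact Cfsg.Agent.Lib.Helper79.mem_blockOf_self hM r₂.1
      exact Subtype.ext (e1.trans e2.symm)
    have hsurj : Function.Surjective f := by
      rintro ⟨c, hc⟩
      have hc' := (hSmem c).1 hc
      obtain ⟨ξ₀, h1, h2, -⟩ := hEU c hc'
      have hceq : c = blockOf M ξ₀.1 := Cfsg.Agent.Lib.Helper79.blockOf_eq_of_mem hM hc'.1 h1
      refine ⟨⟨ξ₀, h2, ?_⟩, ?_⟩
      · rw [← hceq]
        exact hc'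
      · exact Subtype.ext hceq.symm
    exact Nat.card_congr (Equiv.ofBijective f ⟨hinj, hsurj⟩)
  have hcardT : Nat.card (stabSet (Q : Subgroup H) θ) = Nat.card T :=
    Nat.card_congr (Equiv.subtypeEquivRight (fun g => (hT g).symm))
  rw [hbij, hcardS, hcardT]
  have h1 := (T.subgroupOf (Subgroup.normalizer ((Q : Subgroup H) : Set H))).card_mul_index
  rw [Nat.card_congr (Subgroup.subgroupOfEquivOfLe hTN).toEquiv] at h1
  rw [mul_comm]
  exact h1

end

end Cfsg.Agent.Lib.Helper82.DG
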