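import Mathlib
import Cfsg.Agent.Lib.Helper22.BFDefs
import Cfsg.Agent.Lib.Helper88.DGGALU
import Cfsg.Agent.Lib.Helper80.Galois
import Cfsg.Agent.Lib.Helper4.BrSpan
import Cfsg.Agent.Lib.Helper4.CharDual

/-! Piece GAL of helper22's S4503 project: the product of two Galois conjugates of `χ`
is a character `Ξ` with `Ξ (z ^ t * y) = χ (z ^ (a t) * y) * conj (χ (z ^ (b t) * y))`. -/

set_option autoImplicit false
set_option linter.style.haveILetI false
set_option maxHeartbeats 1600000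

namespace Cfsg.Agent.Lib.Helper82.BFT

open Cfsg Cfsg.Agent.Lib.Helper22.BFD
open scoped ComplexConjugate

universe u

section

variable {G : Type u} [Group G] [Fintype G]

/-- PIECE GAL -/
theorem gal_prod (p : ℕ) [Fact p.Prime] (hdiv : p ∣ Nat.card G) (hsq : ¬ p ^ 2 ∣ Nat.card G)
    (z : G) (hz : orderOf z = p) (χ : IrrCharacter G) (a b : ZMod p) (ha : a ≠ 0)
    (hb : b ≠ 0) :
    ∃ Ξ : G → ℂ, IsCharacter G Ξ ∧ ∀ t : ZMod p, ∀ y ∈ Kf p z,
      Ξ (z ^ t.val * y) = χ.1 (z ^ (a * t).val * y) * conj (χ.1 (z ^ (b * t).val * y)) := by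
  classical
  have hp : p.Prime := Fact.out
  obtain ⟨σa, ka, -, hka, hkac, hka1, -⟩ :=
    Cfsg.Agent.Lib.Helper88.DG.exists_galois_unit (G := G) p hdiv hsq (Units.mk0 a ha)
  obtain ⟨σb, kb, -, hkb, hkbc, hkb1, -⟩ :=
    Cfsg.Agent.Lib.Helper88.DG.exists_galois_unit (G := G) p hdiv hsq (Units.mk0 b hb)
  rw [Units.val_mk0] at hka hkb
  have hA' : IsCharacter G (fun g => χ.1 (g ^ ka)) := by
    obtain ⟨n, ρ, -, h⟩ := Cfsg.Agent.Lib.Helper80.isIrrCharacter_pow_coprime ka hkac χ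
    exact ⟨n, ρ, h⟩
  have hB' : IsCharacter G (fun g => χ.1 (g ^ kb)) := by
    obtain ⟨n, ρ, -, h⟩ := Cfsg.Agent.Lib.Helper80.isIrrCharacter_pow_coprime kb hkbc χ
    exact ⟨n, ρ, h⟩
  have hBc := Cfsg.Agent.Lib.Helper4.isCharacter_conj _ hB'
  have hΞ := Cfsg.Agent.Lib.Helper4.isCharacter_mul _ _ hA' hBc
  refine ⟨_, hΞ, ?_⟩
  intro t y hy
  have hy' : y * z = z * y ∧ ¬ p ∣ orderOf y := by
    simpa only [Kf, Finset.mem_filter, Finset.mem_univ, true_and] using hy
  obtain ⟨hyz, hyp⟩ := hy'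
  have hdvd : orderOf y ∣ Nat.card G / p ^ (Nat.card G).factorization p := by
    have h1 : orderOf y ∣ Nat.card G := orderOf_dvd_natCard y
    have h2 : Nat.card G = Nat.card G / p ^ (Nat.card G).factorization p *
        p ^ (Nat.card G).factorization p :=
      (Nat.div_mul_cancel (Nat.ordProj_dvd _ _)).symm
    rw [h2] at h1
    have hcop : Nat.Coprime (orderOf y) (p ^ (Nat.card G).factorization p) :=
      Nat.Coprime.pow_right _ ((Nat.Prime.coprime_iff_not_dvd hp).2 hyp).symm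
    exact hcop.dvd_of_dvd_mul_right h1
  have key : ∀ (k : ℕ) (c : ZMod p), (k : ZMod p) = c →
      k ≡ 1 [MOD Nat.card G / p ^ (Nat.card G).factorization p] →
      (z ^ t.val * y) ^ k = z ^ (c * t).val * y := by
    intro k c hkc hk1
    have hcomm : Commute (z ^ t.val) y := Commute.pow_left (show Commute z y from hyz.symm) _
    rw [hcomm.mul_pow]
    have e1 : (z ^ t.val) ^ k = z ^ (c * t).val := by
      rw [← pow_mul, pow_eq_pow_iff_modEq, hz, ← ZMod.natCast_eq_natCast_iff]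
      push_cast
      rw [ZMod.natCast_zmod_val, ZMod.natCast_zmod_val, hkc]
      ring
    have e2 : y ^ k = y := by
      have h3 : k ≡ 1 [MOD orderOf y] := hk1.of_dvd hdvd
      have h4 : y ^ k = y ^ 1 := pow_eq_pow_iff_modEq.2 h3
      rw [h4, pow_one]
    rw [e1, e2]
  show χ.1 ((z ^ t.val * y) ^ ka) * conj (χ.1 ((z ^ t.val * y) ^ kb)) = _
  rw [key ka a hka hka1, key kb b hkb hkb1]

end

end Cfsg.Agent.Lib.Helper82.BFT
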