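import Mathlib
import Cfsg.Prelude.Def_Blocks
import Cfsg.Agent.Lib.Helper22.WeakOrth
import Cfsg.Agent.Lib.Helper22.SylowAux
import Cfsg.Agent.Lib.Helper83.Ortho
import Cfsg.Agent.Lib.Helper82.CharCore

/-!
# Counting pairs of conjugates with quotient in a subgroup (helper82)

`pair_identity`: for a subgroup `S` and `x y : G`,
`∑ χ, χ y * χ x⁻¹ / χ 1 * ∑_{g ∈ S} χ g =
  |C(x)| |C(y)| / |G| * #{(x', y') | x' ~ x, y' ~ y, y' x'⁻¹ ∈ S}`.
-/

set_option autoImplicit false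

namespace Cfsg.Agent.Lib.Helper82

open Cfsg
open scoped ComplexConjugate

section ClassPair

variable {G : Type*} [Group G]

theorem card_conjugators [Finite G] (h c : G) :
    Nat.card {u : G // u * h * u⁻¹ = c * h * c⁻¹} =
      Nat.card (Subgroup.centralizer ({h} : Set G)) := by
  refine Nat.card_congr ⟨fun u => ⟨c⁻¹ * u.1, ?_⟩, fun z => ⟨c * z.1, ?_⟩, ?_, ?_⟩
  · rw [Cfsg.Agent.Lib.Helper22.mem_centralizer_singleton_iff']
    have h1 := u.2
    calc h * (c⁻¹ * u.1) = c⁻¹ * (c * h * c⁻¹) * u.1 := by group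
      _ = c⁻¹ * (u.1 * h * u.1⁻¹) * u.1 := by rw [h1]
      _ = c⁻¹ * u.1 * h := by group
  · have h1 := (Cfsg.Agent.Lib.Helper22.mem_centralizer_singleton_iff' h z.1).mp z.2
    calc c * z.1 * h * (c * z.1)⁻¹ = c * (z.1 * h) * z.1⁻¹ * c⁻¹ := by group
      _ = c * (h * z.1) * z.1⁻¹ * c⁻¹ := by rw [h1]
      _ = c * h * c⁻¹ := by group
  · intro u
    apply Subtype.ext
    show c * (c⁻¹ * u.1) = u.1
    group
  · intro z
    apply Subtype.ext
    show c⁻¹ * (c * z.1) = z.1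
    group

variable [Fintype G]

open scoped Classical in
/-- The number of `a` with `a x a⁻¹ = x'`. -/
theorem sum_boole_conjugators (x x' : G) :
    ∑ a : G, (if a * x * a⁻¹ = x' then (1 : ℂ) else 0) =
      if IsConj x x' then (Nat.card (Subgroup.centralizer ({x} : Set G)) : ℂ) else 0 := by
  rw [Finset.sum_boole]
  by_cases hc : IsConj x x'
  · rw [if_pos hc]
    obtain ⟨c, rfl⟩ := isConj_iff.mp hc
    rw [← card_conjugators x c, Nat.card_eq_fintype_card, Fintype.card_subtype]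
  · rw [if_neg hc]
    have : (Finset.univ.filter fun a : G => a * x * a⁻¹ = x') = ∅ := by
      apply Finset.filter_eq_empty_iff.mpr
      intro a _ ha
      exact hc (isConj_iff.mpr ⟨a, ha⟩)
    rw [this]
    simp

variable [Fintype (IrrCharacter G)]

open scoped Classical in
theorem sum_irr_mul_eq_sum_boole (w g : G) :
    ∑ χ : IrrCharacter G, (χ : G → ℂ) w * (χ : G → ℂ) g =
      ∑ u : G, (if u * g⁻¹ * u⁻¹ = w then (1 : ℂ) else 0) := by
  have h3 : ∑ χ : IrrCharacter G, (χ : G → ℂ) w * (χ : G → ℂ) g =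
      ∑ χ : IrrCharacter G, (χ : G → ℂ) w * conj ((χ : G → ℂ) g⁻¹) := by
    refine Finset.sum_congr rfl fun χ _ => ?_
    rw [Cfsg.Agent.Lib.Helper82.irr_inv χ g, Complex.conj_conj]
  rw [h3, Cfsg.Agent.Lib.Helper83.column_orthogonality w g⁻¹, sum_boole_conjugators]

open scoped Classical in
/-- First form: a double sum of indicators. -/
theorem pair_identity_aux (S : Subgroup G) (x y : G) :
    ∑ χ : IrrCharacter G, (χ : G → ℂ) y * (χ : G → ℂ) x⁻¹ / (χ : G → ℂ) 1 *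
        ∑ g : G, (if g ∈ S then (χ : G → ℂ) g else 0) =
      (Nat.card G : ℂ)⁻¹ * ∑ t : G, ∑ u : G,
        (if u⁻¹ * (t * y * t⁻¹ * x⁻¹) * u ∈ S then (1 : ℂ) else 0) := by
  have hG0 : (Nat.card G : ℂ) ≠ 0 := by exact_mod_cast Nat.card_pos.ne'
  have h1 : ∀ χ : IrrCharacter G, (χ : G → ℂ) y * (χ : G → ℂ) x⁻¹ / (χ : G → ℂ) 1 =
      (Nat.card G : ℂ)⁻¹ * ∑ t : G, (χ : G → ℂ) (t * y * t⁻¹ * x⁻¹) := by
    intro χ
    rw [Cfsg.Agent.Lib.Helper22.irr_sum_conj_mul χ y x⁻¹]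
    field_simp
  have h4 : ∀ t : G, ∑ g : G, (if g ∈ S then
      ∑ χ : IrrCharacter G, (χ : G → ℂ) (t * y * t⁻¹ * x⁻¹) * (χ : G → ℂ) g else 0) =
      ∑ u : G, (if u⁻¹ * (t * y * t⁻¹ * x⁻¹) * u ∈ S then (1 : ℂ) else 0) := by
    intro t
    obtain ⟨w, hw⟩ : ∃ w, w = t * y * t⁻¹ * x⁻¹ := ⟨_, rfl⟩
    rw [← hw]
    have h5 : ∀ g : G, (if g ∈ S then
        ∑ χ : IrrCharacter G, (χ : G → ℂ) w * (χ : G → ℂ) g else 0) =
        ∑ u : G, (if g ∈ S ∧ u * g⁻¹ * u⁻¹ = w then (1 : ℂ) else 0) := by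
      intro g
      by_cases hg : g ∈ S
      · rw [if_pos hg, sum_irr_mul_eq_sum_boole]
        refine Finset.sum_congr rfl fun u _ => ?_
        by_cases hu : u * g⁻¹ * u⁻¹ = w
        · rw [if_pos hu, if_pos ⟨hg, hu⟩]
        · rw [if_neg hu, if_neg (fun h => hu h.2)]
      · rw [if_neg hg]
        symm
        apply Finset.sum_eq_zero
        intro u _
        rw [if_neg (fun h => hg h.1)]
    rw [Finset.sum_congr rfl (fun g _ => h5 g), Finset.sum_comm]
    refine Finset.sum_congr rfl fun u _ => ?_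
    rw [Finset.sum_eq_single (u⁻¹ * w⁻¹ * u)]
    · have h6 : u * (u⁻¹ * w⁻¹ * u)⁻¹ * u⁻¹ = w := by group
      have h7 : u⁻¹ * w⁻¹ * u ∈ S ↔ u⁻¹ * w * u ∈ S := by
        have : u⁻¹ * w⁻¹ * u = (u⁻¹ * w * u)⁻¹ := by group
        rw [this, inv_mem_iff]
      by_cases hS : u⁻¹ * w * u ∈ S
      · rw [if_pos hS, if_pos ⟨h7.mpr hS, h6⟩]
      · rw [if_neg hS, if_neg (fun h => hS (h7.mp h.1))]
    · intro g _ hg
      rw [if_neg]
      rintro ⟨_, h8⟩
      apply hg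
      rw [← h8]
      group
    · intro h
      exact absurd (Finset.mem_univ _) h
  calc ∑ χ : IrrCharacter G, (χ : G → ℂ) y * (χ : G → ℂ) x⁻¹ / (χ : G → ℂ) 1 *
        ∑ g : G, (if g ∈ S then (χ : G → ℂ) g else 0)
      = (Nat.card G : ℂ)⁻¹ * ∑ t : G, ∑ g : G, (if g ∈ S then
          ∑ χ : IrrCharacter G, (χ : G → ℂ) (t * y * t⁻¹ * x⁻¹) * (χ : G → ℂ) g else 0) := by
        rw [Finset.sum_congr rfl (fun χ _ => by rw [h1 χ])]
        have h5 : ∀ χ : IrrCharacter G,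
            ((Nat.card G : ℂ)⁻¹ * ∑ t : G, (χ : G → ℂ) (t * y * t⁻¹ * x⁻¹)) *
              ∑ g : G, (if g ∈ S then (χ : G → ℂ) g else 0) =
            (Nat.card G : ℂ)⁻¹ * ∑ t : G, ∑ g : G,
              (if g ∈ S then (χ : G → ℂ) (t * y * t⁻¹ * x⁻¹) * (χ : G → ℂ) g else 0) := by
          intro χ
          rw [mul_assoc, Finset.sum_mul]
          congr 1
          refine Finset.sum_congr rfl fun t _ => ?_
          rw [Finset.mul_sum]
          refine Finset.sum_congr rfl fun g _ => ?_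
          split_ifs
          · rfl
          · rw [mul_zero]
        rw [Finset.sum_congr rfl (fun χ _ => h5 χ), ← Finset.mul_sum, Finset.sum_comm]
        congr 1
        refine Finset.sum_congr rfl fun t _ => ?_
        rw [Finset.sum_comm]
        refine Finset.sum_congr rfl fun g _ => ?_
        split_ifs
        · rfl
        · rw [Finset.sum_const_zero]
    _ = (Nat.card G : ℂ)⁻¹ * ∑ t : G, ∑ u : G,
        (if u⁻¹ * (t * y * t⁻¹ * x⁻¹) * u ∈ S then (1 : ℂ) else 0) := by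
        rw [Finset.sum_congr rfl (fun t _ => h4 t)]

open scoped Classical in
/-- The double sum counts pairs of conjugates. -/
theorem pair_count (S : Subgroup G) (x y : G) :
    ∑ t : G, ∑ u : G, (if u⁻¹ * (t * y * t⁻¹ * x⁻¹) * u ∈ S then (1 : ℂ) else 0) =
      (Nat.card (Subgroup.centralizer ({x} : Set G)) : ℂ) *
        (Nat.card (Subgroup.centralizer ({y} : Set G)) : ℂ) *
        (Nat.card {yz : G × G // IsConj x yz.1 ∧ IsConj y yz.2 ∧ yz.2 * yz.1⁻¹ ∈ S} : ℂ) := by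
  -- reindex
  have h1 : ∑ t : G, ∑ u : G, (if u⁻¹ * (t * y * t⁻¹ * x⁻¹) * u ∈ S then (1 : ℂ) else 0) =
      ∑ a : G, ∑ b : G, (if (b * y * b⁻¹) * (a * x * a⁻¹)⁻¹ ∈ S then (1 : ℂ) else 0) := by
    rw [Finset.sum_comm]
    rw [← Equiv.sum_comp (Equiv.inv G)
      (fun u => ∑ t : G, (if u⁻¹ * (t * y * t⁻¹ * x⁻¹) * u ∈ S then (1 : ℂ) else 0))]
    refine Finset.sum_congr rfl fun a _ => ?_
    rw [← Equiv.sum_comp (Equiv.mulLeft a⁻¹)
      (fun t => (if ((Equiv.inv G) a)⁻¹ * (t * y * t⁻¹ * x⁻¹) * (Equiv.inv G) a ∈ S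
        then (1 : ℂ) else 0))]
    refine Finset.sum_congr rfl fun b _ => ?_
    have h2 : ((Equiv.inv G) a)⁻¹ * ((Equiv.mulLeft a⁻¹) b * y * ((Equiv.mulLeft a⁻¹) b)⁻¹ * x⁻¹) *
        (Equiv.inv G) a = (b * y * b⁻¹) * (a * x * a⁻¹)⁻¹ := by
      simp only [Equiv.inv_apply, Equiv.coe_mulLeft]
      group
    rw [h2]
  rw [h1]
  -- fiberwise
  have h2 : ∀ a b : G, (if (b * y * b⁻¹) * (a * x * a⁻¹)⁻¹ ∈ S then (1 : ℂ) else 0) =
      ∑ x' : G, ∑ y' : G, (if a * x * a⁻¹ = x' then (1 : ℂ) else 0) *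
        ((if b * y * b⁻¹ = y' then (1 : ℂ) else 0) *
          (if y' * x'⁻¹ ∈ S then (1 : ℂ) else 0)) := by
    intro a b
    rw [Finset.sum_eq_single (a * x * a⁻¹)]
    · rw [Finset.sum_eq_single (b * y * b⁻¹)]
      · simp
      · intro y' _ hy'
        rw [if_neg (Ne.symm hy')]
        simp
      · intro h
        exact absurd (Finset.mem_univ _) h
    · intro x' _ hx'
      apply Finset.sum_eq_zero
      intro y' _
      rw [if_neg (Ne.symm hx'), zero_mul]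
    · intro h
      exact absurd (Finset.mem_univ _) h
  have h3 : ∑ a : G, ∑ b : G, (if (b * y * b⁻¹) * (a * x * a⁻¹)⁻¹ ∈ S then (1 : ℂ) else 0) =
      ∑ x' : G, ∑ y' : G, (∑ a : G, (if a * x * a⁻¹ = x' then (1 : ℂ) else 0)) *
        ((∑ b : G, (if b * y * b⁻¹ = y' then (1 : ℂ) else 0)) *
          (if y' * x'⁻¹ ∈ S then (1 : ℂ) else 0)) := by
    rw [Finset.sum_congr rfl (fun a _ => Finset.sum_congr rfl (fun b _ => h2 a b))]
    have h4 : ∀ a : G, ∑ b : G, ∑ x' : G, ∑ y' : G,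
        (if a * x * a⁻¹ = x' then (1 : ℂ) else 0) *
          ((if b * y * b⁻¹ = y' then (1 : ℂ) else 0) * (if y' * x'⁻¹ ∈ S then (1 : ℂ) else 0)) =
        ∑ x' : G, ∑ y' : G, (if a * x * a⁻¹ = x' then (1 : ℂ) else 0) *
          ((∑ b : G, (if b * y * b⁻¹ = y' then (1 : ℂ) else 0)) *
            (if y' * x'⁻¹ ∈ S then (1 : ℂ) else 0)) := by
      intro a
      rw [Finset.sum_comm]
      refine Finset.sum_congr rfl fun x' _ => ?_
      rw [Finset.sum_comm]
      refine Finset.sum_congr rfl fun y' _ => ?_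
      rw [← Finset.mul_sum, ← Finset.sum_mul]
    rw [Finset.sum_congr rfl (fun a _ => h4 a), Finset.sum_comm]
    refine Finset.sum_congr rfl fun x' _ => ?_
    rw [Finset.sum_comm]
    refine Finset.sum_congr rfl fun y' _ => ?_
    rw [← Finset.sum_mul]
  rw [h3]
  simp only [sum_boole_conjugators]
  have h5 : ∀ x' y' : G,
      (if IsConj x x' then (Nat.card (Subgroup.centralizer ({x} : Set G)) : ℂ) else 0) *
        ((if IsConj y y' then (Nat.card (Subgroup.centralizer ({y} : Set G)) : ℂ) else 0) *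
          (if y' * x'⁻¹ ∈ S then (1 : ℂ) else 0)) =
      (Nat.card (Subgroup.centralizer ({x} : Set G)) : ℂ) *
        (Nat.card (Subgroup.centralizer ({y} : Set G)) : ℂ) *
        (if IsConj x x' ∧ IsConj y y' ∧ y' * x'⁻¹ ∈ S then (1 : ℂ) else 0) := by
    intro x' y'
    by_cases h1 : IsConj x x'
    · by_cases h2 : IsConj y y'
      · by_cases h3 : y' * x'⁻¹ ∈ S
        · rw [if_pos h1, if_pos h2, if_pos h3, if_pos ⟨h1, h2, h3⟩]
          ring
        · have e : ¬ (IsConj x x' ∧ IsConj y y' ∧ y' * x'⁻¹ ∈ S) := fun h => h3 h.2.2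
          rw [if_pos h1, if_pos h2, if_neg h3, if_neg e]
          ring
      · have e : ¬ (IsConj x x' ∧ IsConj y y' ∧ y' * x'⁻¹ ∈ S) := fun h => h2 h.2.1
        rw [if_pos h1, if_neg h2, if_neg e]
        ring
    · have e : ¬ (IsConj x x' ∧ IsConj y y' ∧ y' * x'⁻¹ ∈ S) := fun h => h1 h.1
      rw [if_neg h1, if_neg e]
      ring
  rw [Finset.sum_congr rfl (fun x' _ => Finset.sum_congr rfl (fun y' _ => h5 x' y'))]
  simp only [← Finset.mul_sum]
  congr 1
  rw [← Fintype.sum_prod_type (f := fun q : G × G =>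
    (if IsConj x q.1 ∧ IsConj y q.2 ∧ q.2 * q.1⁻¹ ∈ S then (1 : ℂ) else 0)), Finset.sum_boole,
    Nat.card_eq_fintype_card, Fintype.card_subtype]

open scoped Classical in
theorem pair_identity (S : Subgroup G) (x y : G) :
    ∑ χ : IrrCharacter G, (χ : G → ℂ) y * (χ : G → ℂ) x⁻¹ / (χ : G → ℂ) 1 *
        ∑ g : G, (if g ∈ S then (χ : G → ℂ) g else 0) =
      (Nat.card G : ℂ)⁻¹ * ((Nat.card (Subgroup.centralizer ({x} : Set G)) : ℂ) *
        (Nat.card (Subgroup.centralizer ({y} : Set G)) : ℂ) *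
        (Nat.card {yz : G × G // IsConj x yz.1 ∧ IsConj y yz.2 ∧ yz.2 * yz.1⁻¹ ∈ S} : ℂ)) := by
  rw [pair_identity_aux, pair_count]

end ClassPair

end Cfsg.Agent.Lib.Helper82
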