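import Mathlib
import Cfsg.Agent.Lib.Helper57.DCP1
import Cfsg.Agent.Lib.Helper4.DCP4a
import Cfsg.Agent.Lib.Helper55.DCP2
import Cfsg.Agent.Lib.Helper43.DCP3
import Cfsg.Agent.Lib.Helper18.DCP4bAux
import Cfsg.Agent.Lib.Helper94.DCP5
import Cfsg.Agent.Lib.Helper32.DCP6
import Cfsg.Agent.Lib.Helper32.DCP7

set_option autoImplicit false

namespace Cfsg.Agent.Lib.Helper82.DCPieces

/-! ## PIECE P1 : four-group acting on a normal subgroup of odd order -/
theorem four_odd_bound {G : Type*} [Group G] [Finite G] (N : Subgroup G) [N.Normal]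
    (hN : Odd (Nat.card N)) (v₁ v₂ : G) (h1 : v₁ * v₁ = 1) (h2 : v₂ * v₂ = 1)
    (h12 : v₁ * v₂ = v₂ * v₁) (hne1 : v₁ ≠ 1) (hne2 : v₂ ≠ 1) (hne : v₁ ≠ v₂) :
    Nat.card N ≤ Nat.card ↥(N ⊓ Subgroup.centralizer {v₁})
      * Nat.card ↥(N ⊓ Subgroup.centralizer {v₂})
      * Nat.card ↥(N ⊓ Subgroup.centralizer {v₁ * v₂}) := by
  exact Cfsg.Agent.Lib.Helper57.DCP1.four_odd_bound N hN v₁ v₂ h1 h2 h12 hne1 hne2 hne

/-! ## PIECE P2 : Brauer-Fowler counting -/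
theorem bf_count {G : Type*} [Group G] [Finite G] (T : Subgroup G) (z : G) (hz : z * z = 1)
    (hzT : ∀ t ∈ T, z * t * z⁻¹ ∈ T) (c : ℕ)
    (hc : Nat.card ↥(T ⊓ Subgroup.centralizer {z}) ≤ c) (hT : 2 * c < Nat.card T) :
    ∃ g ∈ T, g ≠ 1 ∧ Nat.card T ≤ 4 * c ^ 2 * Nat.card ↥(T ⊓ Subgroup.centralizer {g}) := by
  exact Cfsg.Agent.Lib.Helper55.DCP2.bf_count T z hz hzT c hc hT

/-! ## PIECE P3 : centralizers in quotients -/
theorem card_centralizer_quotient_le {G : Type*} [Group G] [Finite G] (M X : Subgroup G)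
    [M.Normal] (hMX : M ≤ X) (z : G) :
    Nat.card ↥(X.map (QuotientGroup.mk' M) ⊓ Subgroup.centralizer {(QuotientGroup.mk' M) z})
      ≤ Nat.card ↥(X ⊓ Subgroup.centralizer {z}) := by
  exact Cfsg.Agent.Lib.Helper43.DCP3.card_centralizer_quotient_le M X hMX z

/-! ## PIECE P4a : structure of a non-abelian minimal normal subgroup -/
theorem minimal_normal_structure {G : Type*} [Group G] [Finite G] (M : Subgroup G) [M.Normal]
    (hmin : ∀ N : Subgroup G, N.Normal → N ≤ M → N = ⊥ ∨ N = M)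
    (hnc : ¬ ∀ x ∈ M, ∀ y ∈ M, x * y = y * x) :
    ∃ (T : Subgroup G) (k : ℕ), T ≤ M ∧ T ≠ ⊥ ∧
      (∀ R : Subgroup G, R ≤ T → (∀ t ∈ T, ∀ r ∈ R, t * r * t⁻¹ ∈ R) → R = ⊥ ∨ R = T) ∧
      (∀ x ∈ T, (∀ y ∈ T, x * y = y * x) → x = 1) ∧
      (∀ g : G, (∀ t ∈ T, g * t * g⁻¹ ∈ T) ∨
        ((∀ t ∈ T, ∀ s ∈ T, t * (g * s * g⁻¹) = (g * s * g⁻¹) * t) ∧
          ∀ t ∈ T, g * t * g⁻¹ ∈ T → t = 1)) ∧
      Nat.card M = Nat.card T ^ k := by
  exact Cfsg.Agent.Lib.Helper4.DCP4a.minimal_normal_structure M hmin hnc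

/-! ## PIECE P4b : a simple-like subgroup with an involutory automorphism of small centralizer -/
theorem simple_bound {G : Type*} [Group G] [Finite G] (T : Subgroup G) (hT : T ≠ ⊥)
    (hsimple : ∀ R : Subgroup G, R ≤ T → (∀ t ∈ T, ∀ r ∈ R, t * r * t⁻¹ ∈ R) → R = ⊥ ∨ R = T)
    (hcenter : ∀ x ∈ T, (∀ y ∈ T, x * y = y * x) → x = 1)
    (z : G) (hz : z * z = 1)
    (hconj : (∀ t ∈ T, z * t * z⁻¹ ∈ T) ∨
      ((∀ t ∈ T, ∀ s ∈ T, t * (z * s * z⁻¹) = (z * s * z⁻¹) * t) ∧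
        ∀ t ∈ T, z * t * z⁻¹ ∈ T → t = 1))
    (W : Subgroup G) (hTW : T ≤ W) (hzW : ∀ w ∈ W, z * w * z⁻¹ ∈ W)
    (c : ℕ) (hc0 : 1 ≤ c) (hc : Nat.card ↥(W ⊓ Subgroup.centralizer {z}) ≤ c) :
    Nat.card T ≤ (4 * c ^ 2).factorial := by
  exact Cfsg.Agent.Lib.Helper18.DCP4b.simple_bound_of_bf
    (fun T z hz hzT c hc hT => bf_count T z hz hzT c hc hT) T hsimple hcenter z hz hconj W hTW hzW
    c hc0 hc

/-! ## PIECE P5 : an abelian minimal normal subgroup is a p-group -/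
theorem minimal_normal_abelian {G : Type*} [Group G] [Finite G] (M : Subgroup G) [M.Normal]
    (hM : M ≠ ⊥) (hmin : ∀ N : Subgroup G, N.Normal → N ≤ M → N = ⊥ ∨ N = M)
    (hc : ∀ x ∈ M, ∀ y ∈ M, x * y = y * x) :
    ∃ (p i : ℕ), p.Prime ∧ 1 ≤ i ∧ Nat.card M = p ^ i := by
  exact Cfsg.Agent.Lib.Helper94.DCP5.minimal_normal_abelian M hM hmin hc

/-! ## PIECE P6 : central 2-subgroup with odd quotient splits off normally -/
theorem odd_complement_normal {G : Type*} [Group G] [Finite G] (M H : Subgroup G) [M.Normal]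
    [H.Normal] (hMH : M ≤ H) (i : ℕ) (hM2 : Nat.card M = 2 ^ i)
    (hcent : ∀ m ∈ M, ∀ h ∈ H, m * h = h * m) (n : ℕ) (hn : Odd n)
    (hcard : Nat.card H = Nat.card M * n) :
    ∃ K : Subgroup G, K.Normal ∧ K ≤ H ∧ Nat.card K = n := by
  exact Cfsg.Agent.Lib.Helper32.DCP6.odd_complement_normal M H hMH i hM2 hcent n hn hcard

/-! ## PIECE P7 : index of the centralizer of a normal subgroup -/
theorem card_le_factorial_mul_centralizer {G : Type*} [Group G] [Finite G] (M X : Subgroup G)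
    [M.Normal] :
    Nat.card X ≤ (Nat.card M).factorial * Nat.card ↥(X ⊓ Subgroup.centralizer (M : Set G)) := by
  exact Cfsg.Agent.Lib.Helper32.DCP7.card_le_factorial_mul_centralizer M X

/-! ## derived : bound for a non-abelian minimal normal subgroup (from P4a, P4b) -/
theorem minimal_normal_nonabelian_bound {G : Type*} [Group G] [Finite G] (M : Subgroup G)
    [M.Normal] (hmin : ∀ N : Subgroup G, N.Normal → N ≤ M → N = ⊥ ∨ N = M)
    (hnc : ¬ ∀ x ∈ M, ∀ y ∈ M, x * y = y * x) (heven : Even (Nat.card M))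
    (z : G) (hz : z * z = 1) (c : ℕ) (hc0 : 1 ≤ c)
    (hc : Nat.card ↥(M ⊓ Subgroup.centralizer {z}) ≤ c) :
    Nat.card M ≤ ((4 * c ^ 2).factorial) ^ ((Nat.card M).factorization 2) := by
  obtain ⟨T, k, hTM, hT0, hsimple, hcenter, hconj, hcard⟩ := minimal_normal_structure M hmin hnc
  have hzM : ∀ w ∈ M, z * w * z⁻¹ ∈ M := fun w hw => Subgroup.Normal.conj_mem inferInstance w hw z
  have hTb := simple_bound T hT0 hsimple hcenter z hz (hconj z) M hTM hzM c hc0 hc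
  have hTpos : 0 < Nat.card T := Nat.card_pos
  have hTeven : Even (Nat.card T) := by
    rw [hcard] at heven
    by_contra hodd
    rw [Nat.not_even_iff_odd] at hodd
    exact (Nat.not_even_iff_odd.mpr (hodd.pow)) heven
  have hk : k ≤ (Nat.card M).factorization 2 := by
    rw [hcard, Nat.factorization_pow]
    simp only [Finsupp.smul_apply, smul_eq_mul]
    have h2 : 1 ≤ (Nat.card T).factorization 2 := by
      have hdvd : 2 ∣ Nat.card T := even_iff_two_dvd.mp hTeven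
      exact (Nat.Prime.dvd_iff_one_le_factorization Nat.prime_two hTpos.ne').mp hdvd
    nlinarith
  rw [hcard]
  refine le_trans (Nat.pow_le_pow_left hTb k) ?_
  refine le_trans (Nat.pow_le_pow_right (Nat.factorial_pos _) hk) ?_
  rw [← hcard]

end Cfsg.Agent.Lib.Helper82.DCPieces
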