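import Mathlib
import Cfsg.Agent.Lib.Helper82.DCPieces

/-!
# S4719: the group-theoretic part (helper82)

`dc_t1`: a normal subgroup `X` without odd-order normal subgroups, with a bounded 2-part and an
involution `z` with bounded centralizer in `X`, is bounded (induction on the 2-part, through
minimal normal subgroups).  `dc_lemA`: a group with a four-group all of whose involutions have
bounded centralizers and with bounded 2-part is bounded.
-/

set_option autoImplicit false

universe u

namespace Cfsg.Agent.Lib.Helper82.DCAsm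

open Cfsg.Agent.Lib.Helper82.DCPieces

theorem dc_exists_minimal_normal {G : Type*} [Group G] [Finite G] (X : Subgroup G) [X.Normal]
    (hX : X ≠ ⊥) :
    ∃ M : Subgroup G, M.Normal ∧ M ≤ X ∧ M ≠ ⊥ ∧
      ∀ N : Subgroup G, N.Normal → N ≤ M → N = ⊥ ∨ N = M := by
  classical
  have hne : ∃ n, ∃ N : Subgroup G, N.Normal ∧ N ≤ X ∧ N ≠ ⊥ ∧ Nat.card N = n :=
    ⟨_, X, inferInstance, le_refl _, hX, rfl⟩
  obtain ⟨M, hMn, hMX, hM0, hMc⟩ := Nat.find_spec hne
  refine ⟨M, hMn, hMX, hM0, ?_⟩
  intro N hN hNM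
  by_cases hN0 : N = ⊥
  · exact Or.inl hN0
  · right
    have h1 : Nat.find hne ≤ Nat.card N := Nat.find_min' hne ⟨N, hN, hNM.trans hMX, hN0, rfl⟩
    rw [← hMc] at h1
    exact Subgroup.eq_of_le_of_card_ge hNM h1

theorem dc_card_map_mk {G : Type*} [Group G] [Finite G] (M X : Subgroup G) [M.Normal]
    (hMX : M ≤ X) :
    Nat.card ↥(X.map (QuotientGroup.mk' M)) * Nat.card M = Nat.card X := by
  have h1 : (X.map (QuotientGroup.mk' M)).index = X.index :=
    Subgroup.index_map_eq X (QuotientGroup.mk'_surjective M)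
      (by rw [QuotientGroup.ker_mk']; exact hMX)
  have h2 := Subgroup.card_mul_index X
  have h3 := Subgroup.card_mul_index (X.map (QuotientGroup.mk' M))
  have h4 := Subgroup.card_eq_card_quotient_mul_card_subgroup M
  have h5 : 0 < X.index := Nat.pos_of_ne_zero Subgroup.index_ne_zero_of_finite
  rw [h1] at h3
  have h6 : Nat.card ↥(X.map (QuotientGroup.mk' M)) * Nat.card M * X.index
      = Nat.card X * X.index := by
    rw [h2, h4, ← h3]; ring
  exact Nat.eq_of_mul_eq_mul_right h5 h6

theorem dc_card_comap_mk {G : Type*} [Group G] [Finite G] (M : Subgroup G) [M.Normal]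
    (N' : Subgroup (G ⧸ M)) :
    Nat.card ↥(N'.comap (QuotientGroup.mk' M)) = Nat.card M * Nat.card N' := by
  have hM : M ≤ N'.comap (QuotientGroup.mk' M) := by
    intro m hm
    rw [Subgroup.mem_comap]
    have : (QuotientGroup.mk' M) m = 1 := by
      rw [QuotientGroup.mk'_apply, QuotientGroup.eq_one_iff]; exact hm
    rw [this]
    exact one_mem _
  have h := dc_card_map_mk M (N'.comap (QuotientGroup.mk' M)) hM
  rw [Subgroup.map_comap_eq_self_of_surjective (QuotientGroup.mk'_surjective M)] at h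
  rw [← h, mul_comm]

theorem dc_fact_le_of_dvd {m n : ℕ} (hn : n ≠ 0) (h : m ∣ n) :
    m.factorization 2 ≤ n.factorization 2 := by
  have hm : m ≠ 0 := by
    rintro rfl
    exact hn (zero_dvd_iff.mp h)
  exact (Nat.factorization_le_iff_dvd hm hn).mpr h 2

theorem dc_odd_of_fact_zero {n : ℕ} (hn : n ≠ 0) (h : n.factorization 2 = 0) : Odd n := by
  rw [← Nat.not_even_iff_odd, even_iff_two_dvd]
  intro h2
  have := (Nat.Prime.dvd_iff_one_le_factorization Nat.prime_two hn).mp h2
  omega

/-- If `M ⊓ X₁ = ⊥` with `M ≤ X`, `X₁ ≤ X`, `X₁` normal, then `|M| |X₁|` divides `|X|`. -/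
theorem dc_card_mul_dvd {G : Type*} [Group G] [Finite G] (M X₁ X : Subgroup G) [X₁.Normal]
    (hMX : M ≤ X) (hX₁X : X₁ ≤ X) (hdisj : M ⊓ X₁ = ⊥) :
    Nat.card M * Nat.card X₁ ∣ Nat.card X := by
  have h1 := dc_card_map_mk X₁ X hX₁X
  obtain ⟨g, hg⟩ : ∃ g : ↥M →* G ⧸ X₁, g = (QuotientGroup.mk' X₁).comp M.subtype := ⟨_, rfl⟩
  have hinj : Function.Injective g := by
    rw [injective_iff_map_eq_one]
    intro m hm
    rw [hg, MonoidHom.comp_apply, QuotientGroup.mk'_apply, QuotientGroup.eq_one_iff] at hm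
    have : (m : G) ∈ M ⊓ X₁ := ⟨m.2, hm⟩
    rw [hdisj, Subgroup.mem_bot] at this
    exact Subtype.ext this
  have hrange : g.range ≤ X.map (QuotientGroup.mk' X₁) := by
    rintro _ ⟨m, rfl⟩
    rw [hg]
    exact Subgroup.mem_map_of_mem _ (hMX m.2)
  have hcard : Nat.card ↥g.range = Nat.card M :=
    (Nat.card_congr (Equiv.ofInjective g hinj)).symm
  have h2 := Subgroup.card_dvd_of_le hrange
  rw [hcard] at h2
  rw [← h1]
  exact Nat.mul_dvd_mul_right h2 _

theorem dc_t1 (c : ℕ) (hc : 1 ≤ c) (j : ℕ) : ∃ f : ℕ, ∀ (G : Type u) [Group G] [Finite G]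
    (X : Subgroup G) [X.Normal] (z : G), z * z = 1 →
    Nat.card ↥(X ⊓ Subgroup.centralizer {z}) ≤ c → (Nat.card X).factorization 2 ≤ j →
    (∀ N : Subgroup G, N.Normal → N ≤ X → Odd (Nat.card N) → N = ⊥) → Nat.card X ≤ f := by
  induction j with
  | zero =>
    refine ⟨1, ?_⟩
    intro G _ _ X _ z hz hcz hj hodd
    have hX : Odd (Nat.card X) := dc_odd_of_fact_zero Nat.card_pos.ne' (Nat.le_zero.mp hj)
    rw [hodd X inferInstance le_rfl hX, Subgroup.card_bot]
  | succ j ih =>
    obtain ⟨f, hf⟩ := ih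
    refine ⟨((2 ^ (j + 1)).factorial * 2 ^ (j + 1)
      + (((4 * c ^ 2).factorial) ^ (j + 1)).factorial) * f + 1, ?_⟩
    intro G _ _ X _ z hz hcz hj hodd
    by_cases hX : X = ⊥
    · rw [hX, Subgroup.card_bot]; omega
    obtain ⟨M, hMn, hMX, hM0, hmin⟩ := dc_exists_minimal_normal X hX
    haveI := hMn
    have hXpos : Nat.card X ≠ 0 := Nat.card_pos.ne'
    have hMfact : (Nat.card M).factorization 2 ≤ j + 1 :=
      (dc_fact_le_of_dvd hXpos (Subgroup.card_dvd_of_le hMX)).trans hj
    obtain ⟨X₁, hX₁⟩ : ∃ X₁ : Subgroup G, X₁ = X ⊓ Subgroup.centralizer (M : Set G) := ⟨_, rfl⟩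
    haveI hX₁n : X₁.Normal := by rw [hX₁]; infer_instance
    have hX₁X : X₁ ≤ X := by rw [hX₁]; exact inf_le_left
    have hP7 : Nat.card X ≤ (Nat.card M).factorial * Nat.card X₁ := by
      rw [hX₁]; exact card_le_factorial_mul_centralizer M X
    have hcz₁ : Nat.card ↥(X₁ ⊓ Subgroup.centralizer {z}) ≤ c :=
      (Subgroup.card_le_of_le (inf_le_inf_right _ hX₁X)).trans hcz
    have hodd₁ : ∀ N : Subgroup G, N.Normal → N ≤ X₁ → Odd (Nat.card N) → N = ⊥ :=
      fun N hN hNX hNo => hodd N hN (hNX.trans hX₁X) hNo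
    by_cases hcomm : ∀ x ∈ M, ∀ y ∈ M, x * y = y * x
    · -- the abelian case
      obtain ⟨p, i, hp, hi, hMcard⟩ := minimal_normal_abelian M hM0 hmin hcomm
      have hp2 : p = 2 := by
        by_contra hne
        have : Odd (Nat.card M) := by rw [hMcard]; exact (hp.odd_of_ne_two hne).pow
        exact hM0 (hodd M hMn hMX this)
      subst hp2
      have hi2 : i ≤ j + 1 := by
        rw [hMcard, Nat.Prime.factorization_pow Nat.prime_two] at hMfact
        simpa using hMfact
      have hMX₁ : M ≤ X₁ := by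
        rw [hX₁]
        refine le_inf hMX ?_
        intro m hm
        rw [Subgroup.mem_centralizer_iff]
        intro y hy
        exact hcomm y hy m hm
      obtain ⟨X', hX'⟩ : ∃ X' : Subgroup (G ⧸ M), X' = X₁.map (QuotientGroup.mk' M) := ⟨_, rfl⟩
      haveI : X'.Normal := by
        rw [hX']; exact Subgroup.Normal.map hX₁n _ (QuotientGroup.mk'_surjective M)
      have hcardX' : Nat.card X' * Nat.card M = Nat.card X₁ := by
        rw [hX']; exact dc_card_map_mk M X₁ hMX₁
      have hz' : (QuotientGroup.mk' M) z * (QuotientGroup.mk' M) z = 1 := by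
        rw [← map_mul, hz, map_one]
      have hc' : Nat.card ↥(X' ⊓ Subgroup.centralizer {(QuotientGroup.mk' M) z}) ≤ c := by
        rw [hX']; exact (card_centralizer_quotient_le M X₁ hMX₁ z).trans hcz₁
      have hj' : (Nat.card X').factorization 2 ≤ j := by
        have h1 : (Nat.card X₁).factorization 2 ≤ j + 1 :=
          (dc_fact_le_of_dvd hXpos (Subgroup.card_dvd_of_le hX₁X)).trans hj
        rw [← hcardX', Nat.factorization_mul Nat.card_pos.ne' Nat.card_pos.ne', hMcard,
          Nat.Prime.factorization_pow Nat.prime_two] at h1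
        simp only [Finsupp.add_apply, Finsupp.smul_apply, Finsupp.single_eq_same,
          smul_eq_mul, mul_one] at h1
        omega
      have hodd' : ∀ N' : Subgroup (G ⧸ M), N'.Normal → N' ≤ X' → Odd (Nat.card N') →
          N' = ⊥ := by
        intro N' hN' hN'X hN'odd
        obtain ⟨H, hH⟩ : ∃ H : Subgroup G, H = N'.comap (QuotientGroup.mk' M) := ⟨_, rfl⟩
        haveI : H.Normal := by rw [hH]; exact hN'.comap _
        have hHcard : Nat.card H = Nat.card M * Nat.card N' := by
          rw [hH]; exact dc_card_comap_mk M N'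
        have hMH : M ≤ H := by
          rw [hH]
          intro m hm
          rw [Subgroup.mem_comap]
          have : (QuotientGroup.mk' M) m = 1 := by
            rw [QuotientGroup.mk'_apply, QuotientGroup.eq_one_iff]; exact hm
          rw [this]; exact one_mem _
        have hHX₁ : H ≤ X₁ := by
          rw [hH]
          intro h hh
          rw [Subgroup.mem_comap] at hh
          have h2 := hN'X hh
          rw [hX', Subgroup.mem_map] at h2
          obtain ⟨x, hx, hxh⟩ := h2
          have h3 : x⁻¹ * h ∈ M := by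
            rw [← QuotientGroup.eq]; exact hxh
          have : h = x * (x⁻¹ * h) := by group
          rw [this]
          exact mul_mem hx (hMX₁ h3)
        have hcent : ∀ m ∈ M, ∀ h ∈ H, m * h = h * m := by
          intro m hm h hh
          have h1 := hHX₁ hh
          rw [hX₁] at h1
          have h2 : h ∈ Subgroup.centralizer (M : Set G) := (Subgroup.mem_inf.mp h1).2
          rw [Subgroup.mem_centralizer_iff] at h2
          exact h2 m hm
        obtain ⟨K, hKn, hKH, hKcard⟩ :=
          odd_complement_normal M H hMH i hMcard hcent (Nat.card N') hN'odd hHcard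
        have hK0 := hodd K hKn (hKH.trans (hHX₁.trans hX₁X)) (by rw [hKcard]; exact hN'odd)
        rw [hK0, Subgroup.card_bot] at hKcard
        exact Subgroup.eq_bot_of_card_eq _ hKcard.symm
      have hX'le := hf (G ⧸ M) X' ((QuotientGroup.mk' M) z) hz' hc' hj' hodd'
      have hM2 : Nat.card M ≤ 2 ^ (j + 1) := by
        rw [hMcard]; exact Nat.pow_le_pow_right (by norm_num) hi2
      have h5 : Nat.card X ≤ (2 ^ (j + 1)).factorial * (f * 2 ^ (j + 1)) := by
        refine hP7.trans ?_
        rw [← hcardX']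
        exact Nat.mul_le_mul (Nat.factorial_le hM2) (Nat.mul_le_mul hX'le hM2)
      nlinarith [Nat.zero_le ((((4 * c ^ 2).factorial) ^ (j + 1)).factorial * f)]
    · -- the non-abelian case
      have heven : Even (Nat.card M) := by
        by_contra h
        exact hM0 (hodd M hMn hMX (Nat.not_even_iff_odd.mp h))
      have hcM : Nat.card ↥(M ⊓ Subgroup.centralizer {z}) ≤ c :=
        (Subgroup.card_le_of_le (inf_le_inf_right _ hMX)).trans hcz
      have hMb := minimal_normal_nonabelian_bound M hmin hcomm heven z hz c hc hcM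
      have hMb' : Nat.card M ≤ ((4 * c ^ 2).factorial) ^ (j + 1) :=
        hMb.trans (Nat.pow_le_pow_right (Nat.factorial_pos _) hMfact)
      have hdisj : M ⊓ X₁ = ⊥ := by
        have hnorm : (M ⊓ Subgroup.centralizer (M : Set G)).Normal := inferInstance
        rcases hmin (M ⊓ Subgroup.centralizer (M : Set G)) hnorm inf_le_left with h | h
        · rw [hX₁, ← inf_assoc, inf_comm M X, inf_assoc, h, inf_bot_eq]
        · exfalso
          apply hcomm
          intro x hx y hy
          have : y ∈ M ⊓ Subgroup.centralizer (M : Set G) := by rw [h]; exact hy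
          have h2 : y ∈ Subgroup.centralizer (M : Set G) := (Subgroup.mem_inf.mp this).2
          rw [Subgroup.mem_centralizer_iff] at h2
          exact h2 x hx
      have hj' : (Nat.card X₁).factorization 2 ≤ j := by
        have hdvd := dc_card_mul_dvd M X₁ X hMX hX₁X hdisj
        have h2 := dc_fact_le_of_dvd hXpos hdvd
        rw [Nat.factorization_mul Nat.card_pos.ne' Nat.card_pos.ne'] at h2
        have h3 : 1 ≤ (Nat.card M).factorization 2 :=
          (Nat.Prime.dvd_iff_one_le_factorization Nat.prime_two Nat.card_pos.ne').mp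
            (even_iff_two_dvd.mp heven)
        simp only [Finsupp.add_apply] at h2
        omega
      have hX₁le := hf G X₁ z hz hcz₁ hj' hodd₁
      have h5 : Nat.card X ≤ (((4 * c ^ 2).factorial) ^ (j + 1)).factorial * f :=
        hP7.trans (Nat.mul_le_mul (Nat.factorial_le hMb') hX₁le)
      nlinarith [Nat.zero_le ((2 ^ (j + 1)).factorial * 2 ^ (j + 1) * f)]

theorem dc_lemA (c a : ℕ) : ∃ f : ℕ, ∀ (G : Type u) [Group G] [Finite G] (v₁ v₂ : G),
    v₁ * v₁ = 1 → v₂ * v₂ = 1 → v₁ * v₂ = v₂ * v₁ → v₁ ≠ 1 → v₂ ≠ 1 → v₁ ≠ v₂ →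
    Nat.card ↥(Subgroup.centralizer {v₁}) ≤ c → Nat.card ↥(Subgroup.centralizer {v₂}) ≤ c →
    Nat.card ↥(Subgroup.centralizer {v₁ * v₂}) ≤ c →
    (Nat.card G).factorization 2 ≤ a → Nat.card G ≤ f := by
  obtain ⟨f, hf⟩ := dc_t1.{u} (max c 1) (le_max_right _ _) a
  refine ⟨c ^ 3 * f, ?_⟩
  intro G _ _ v₁ v₂ h1 h2 h12 hne1 hne2 hne hc1 hc2 hc3 ha
  -- an odd-order normal subgroup of maximal order
  haveI : Nonempty {N : Subgroup G // N.Normal ∧ Odd (Nat.card N)} :=
    ⟨⟨⊥, inferInstance, by rw [Subgroup.card_bot]; exact odd_one⟩⟩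
  obtain ⟨⟨K, hKn, hKodd⟩, hKmax⟩ :=
    Finite.exists_max (fun N : {N : Subgroup G // N.Normal ∧ Odd (Nat.card N)} =>
      Nat.card (N : Subgroup G))
  haveI := hKn
  have hKc : Nat.card K ≤ c ^ 3 := by
    have h := four_odd_bound K hKodd v₁ v₂ h1 h2 h12 hne1 hne2 hne
    have e1 : Nat.card ↥(K ⊓ Subgroup.centralizer {v₁}) ≤ c :=
      (Subgroup.card_le_of_le inf_le_right).trans hc1
    have e2 : Nat.card ↥(K ⊓ Subgroup.centralizer {v₂}) ≤ c :=
      (Subgroup.card_le_of_le inf_le_right).trans hc2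
    have e3 : Nat.card ↥(K ⊓ Subgroup.centralizer {v₁ * v₂}) ≤ c :=
      (Subgroup.card_le_of_le inf_le_right).trans hc3
    calc Nat.card K ≤ _ := h
      _ ≤ c * c * c := Nat.mul_le_mul (Nat.mul_le_mul e1 e2) e3
      _ = c ^ 3 := by ring
  have hz' : (QuotientGroup.mk' K) v₁ * (QuotientGroup.mk' K) v₁ = 1 := by
    rw [← map_mul, h1, map_one]
  have hc' : Nat.card ↥((⊤ : Subgroup (G ⧸ K)) ⊓
      Subgroup.centralizer {(QuotientGroup.mk' K) v₁}) ≤ max c 1 := by
    have h := card_centralizer_quotient_le K ⊤ le_top v₁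
    rw [Subgroup.map_top_of_surjective _ (QuotientGroup.mk'_surjective K)] at h
    refine h.trans ?_
    rw [top_inf_eq]
    exact hc1.trans (le_max_left _ _)
  have hcardQ : Nat.card (G ⧸ K) * Nat.card K = Nat.card G :=
    (Subgroup.card_eq_card_quotient_mul_card_subgroup K).symm
  have hj' : (Nat.card (⊤ : Subgroup (G ⧸ K))).factorization 2 ≤ a := by
    rw [Subgroup.card_top]
    exact (dc_fact_le_of_dvd Nat.card_pos.ne' (Dvd.intro _ hcardQ)).trans ha
  have hodd' : ∀ N' : Subgroup (G ⧸ K), N'.Normal → N' ≤ ⊤ → Odd (Nat.card N') → N' = ⊥ := by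
    intro N' hN' _ hN'odd
    have hcard := dc_card_comap_mk K N'
    have hn : (N'.comap (QuotientGroup.mk' K)).Normal := hN'.comap _
    have hodd : Odd (Nat.card ↥(N'.comap (QuotientGroup.mk' K))) := by
      rw [hcard]; exact hKodd.mul hN'odd
    have hle := hKmax ⟨N'.comap (QuotientGroup.mk' K), hn, hodd⟩
    simp only at hle
    rw [hcard] at hle
    have hKpos : 0 < Nat.card K := Nat.card_pos
    have : Nat.card N' ≤ 1 := by
      by_contra hlt
      push_neg at hlt
      nlinarith
    exact Subgroup.eq_bot_of_card_le _ this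
  have hle := hf (G ⧸ K) ⊤ ((QuotientGroup.mk' K) v₁) hz' hc' hj' hodd'
  rw [Subgroup.card_top] at hle
  rw [← hcardQ, mul_comm]
  exact Nat.mul_le_mul hKc hle

end Cfsg.Agent.Lib.Helper82.DCAsm
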