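import Mathlib

/-!
# Landau's theorem (helper82)

A finite group with at most `k` conjugacy classes has order bounded in terms of `k`.
-/

set_option autoImplicit false

universe u

namespace Cfsg.Agent.Lib.Helper82

/-- Egyptian fractions: if `k` unit fractions sum to a positive rational with denominator `b`,
then all the denominators are bounded in terms of `k` and `b`. -/
theorem landau_aux (k : ℕ) : ∀ b : ℕ, ∃ N : ℕ, ∀ {ι : Type u} (s : Finset ι) (n : ι → ℕ),
    0 < b → s.card = k → (∀ i ∈ s, 0 < n i) →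
    (∃ a : ℕ, ∑ i ∈ s, (1 / (n i : ℚ)) = (a : ℚ) / b) → ∀ i ∈ s, n i ≤ N := by
  induction k with
  | zero =>
    intro b
    refine ⟨0, fun s n _ hs _ _ i hi => ?_⟩
    rw [Finset.card_eq_zero] at hs
    rw [hs] at hi
    exact absurd hi (Finset.notMem_empty i)
  | succ k ih =>
    intro b
    choose f hf using ih
    refine ⟨∑ m ∈ Finset.range ((k + 1) * b + 1), (m + f (b * m)),
      fun {ι} s n hb hs hpos ⟨a, ha⟩ i hi => ?_⟩
    classical
    have hne : s.Nonempty := by
      rw [← Finset.card_pos, hs]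
      omega
    obtain ⟨j, hj, hjmin⟩ := Finset.exists_min_image s n hne
    have hsum_pos : 0 < ∑ i ∈ s, (1 / (n i : ℚ)) :=
      Finset.sum_pos (fun i hi => by
        have h0 : (0 : ℚ) < n i := by exact_mod_cast hpos i hi
        positivity) hne
    have hbq : (0 : ℚ) < b := by exact_mod_cast hb
    have hnq : (0 : ℚ) < n j := by exact_mod_cast hpos j hj
    have ha0 : 0 < a := by
      by_contra h0
      have h00 : a = 0 := by omega
      rw [ha, h00] at hsum_pos
      simp at hsum_pos
    have hnj : n j ≤ (k + 1) * b := by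
      have h1 : ∑ i ∈ s, (1 / (n i : ℚ)) ≤ ∑ i ∈ s, (1 / (n j : ℚ)) := by
        refine Finset.sum_le_sum fun i hi => ?_
        have h2 : (n j : ℚ) ≤ n i := by exact_mod_cast hjmin i hi
        exact one_div_le_one_div_of_le hnq h2
      rw [Finset.sum_const, hs, ha, nsmul_eq_mul] at h1
      have h4 : (1 : ℚ) / b ≤ a / b := by
        apply div_le_div_of_nonneg_right _ hbq.le
        exact_mod_cast ha0
      have h5 : (1 : ℚ) / b ≤ ((k + 1 : ℕ) : ℚ) * (1 / (n j : ℚ)) := le_trans h4 h1
      have h6 : (n j : ℚ) ≤ ((k + 1 : ℕ) : ℚ) * b := by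
        have h7 : ((k + 1 : ℕ) : ℚ) * (1 / (n j : ℚ)) = ((k + 1 : ℕ) : ℚ) / n j := by ring
        rw [h7, div_le_div_iff₀ hbq hnq] at h5
        linarith
      exact_mod_cast h6
    have hN1 : ∀ m ∈ Finset.range ((k + 1) * b + 1),
        m + f (b * m) ≤ ∑ m ∈ Finset.range ((k + 1) * b + 1), (m + f (b * m)) :=
      fun m hm => Finset.single_le_sum (f := fun m => m + f (b * m))
        (fun _ _ => Nat.zero_le _) hm
    have hmem : n j ∈ Finset.range ((k + 1) * b + 1) := Finset.mem_range.mpr (by omega)
    by_cases hij : i = j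
    · rw [hij]
      have h9 := hN1 _ hmem
      omega
    · have hi' : i ∈ s.erase j := Finset.mem_erase.mpr ⟨hij, hi⟩
      have hcard : (s.erase j).card = k := by
        rw [Finset.card_erase_of_mem hj, hs]
        rfl
      have hsum' : ∑ i ∈ s.erase j, (1 / (n i : ℚ)) = (a : ℚ) / b - 1 / (n j : ℚ) := by
        rw [← ha, ← Finset.add_sum_erase s _ hj]
        ring
      have hpos' : 0 < ∑ i ∈ s.erase j, (1 / (n i : ℚ)) :=
        Finset.sum_pos (fun i hi => by
          have h0 : (0 : ℚ) < n i := by exact_mod_cast hpos i (Finset.mem_of_mem_erase hi)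
          positivity) ⟨i, hi'⟩
      have hlt : b < a * n j := by
        rw [hsum'] at hpos'
        have h7 : (1 : ℚ) / n j < a / b := by linarith
        rw [div_lt_div_iff₀ hnq hbq] at h7
        have h8 : (b : ℚ) < a * n j := by linarith
        exact_mod_cast h8
      have h8 := hf (b * n j) (s.erase j) n (Nat.mul_pos hb (hpos j hj)) hcard
        (fun i hi => hpos i (Finset.mem_of_mem_erase hi)) ⟨a * n j - b, by
          rw [hsum']
          have h10 : ((a * n j - b : ℕ) : ℚ) = (a : ℚ) * n j - b := by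
            rw [Nat.cast_sub hlt.le]
            push_cast
            ring
          rw [h10]
          push_cast
          field_simp⟩ i hi'
      have h9 := hN1 _ hmem
      omega

/-- **Landau's theorem**: the order of a finite group is bounded in terms of its number of
conjugacy classes. -/
theorem landau (k : ℕ) : ∃ N : ℕ, ∀ (G : Type u) [Group G] [Finite G],
    Nat.card (ConjClasses G) ≤ k → Nat.card G ≤ N := by
  choose f hf using fun j : ℕ => landau_aux.{u} j 1
  refine ⟨∑ j ∈ Finset.range (k + 1), f j, fun G _ _ hk => ?_⟩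
  classical
  cases nonempty_fintype G
  letI : Fintype (ConjClasses G) := Fintype.ofFinite _
  have hG0 : 0 < Nat.card G := Nat.card_pos
  have hdvd : ∀ C : ConjClasses G, C.carrier.ncard ∣ Nat.card G := by
    intro C
    obtain ⟨g, rfl⟩ := ConjClasses.mk_surjective C
    rw [← ConjAct.orbit_eq_carrier_conjClasses g, ← Nat.card_coe_set_eq]
    have h := MulAction.card_orbit_mul_card_stabilizer_eq_card_group (ConjAct G) g
    refine ⟨Nat.card (MulAction.stabilizer (ConjAct G) g), ?_⟩
    simp only [Nat.card_eq_fintype_card]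
    rw [h]
    rfl
  have hcpos : ∀ C : ConjClasses G, 0 < C.carrier.ncard :=
    fun C => Nat.pos_of_dvd_of_pos (hdvd C) hG0
  obtain ⟨n, hn⟩ : ∃ n : ConjClasses G → ℕ, n = fun C => Nat.card G / C.carrier.ncard :=
    ⟨_, rfl⟩
  have hnpos : ∀ C ∈ (Finset.univ : Finset (ConjClasses G)), 0 < n C := by
    intro C _
    rw [hn]
    exact Nat.div_pos (Nat.le_of_dvd hG0 (hdvd C)) (hcpos C)
  have hsum : ∑ C : ConjClasses G, (1 / (n C : ℚ)) = ((1 : ℕ) : ℚ) / ((1 : ℕ) : ℚ) := by
    have h1 : ∀ C : ConjClasses G, (1 / (n C : ℚ)) = (C.carrier.ncard : ℚ) / (Nat.card G : ℚ) := by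
      intro C
      have hc0 : ((C.carrier.ncard : ℕ) : ℚ) ≠ 0 := by exact_mod_cast (hcpos C).ne'
      rw [hn]
      show 1 / ((Nat.card G / C.carrier.ncard : ℕ) : ℚ) = _
      rw [Nat.cast_div (hdvd C) hc0, one_div_div]
    rw [Finset.sum_congr rfl (fun C _ => h1 C), ← Finset.sum_div]
    have h2 := Group.sum_card_conj_classes_eq_card (G := G)
    rw [finsum_eq_sum_of_fintype] at h2
    have h3 : ∑ C : ConjClasses G, (C.carrier.ncard : ℚ) = (Nat.card G : ℚ) := by
      rw [← h2]
      push_cast
      rfl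
    rw [h3]
    have hG0' : (Nat.card G : ℚ) ≠ 0 := by exact_mod_cast hG0.ne'
    rw [div_self hG0']
    norm_num
  have hmain := hf (Nat.card (ConjClasses G)) (Finset.univ : Finset (ConjClasses G)) n
    Nat.one_pos (by rw [Finset.card_univ, Nat.card_eq_fintype_card]) hnpos ⟨1, hsum⟩
    (ConjClasses.mk (1 : G)) (Finset.mem_univ _)
  have hone : (ConjClasses.mk (1 : G)).carrier.ncard = 1 := by
    have h1 : (ConjClasses.mk (1 : G)).carrier = {1} := by
      ext x
      rw [ConjClasses.mem_carrier_iff_mk_eq, ConjClasses.mk_eq_mk_iff_isConj, isConj_one_left,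
        Set.mem_singleton_iff]
    rw [h1, Set.ncard_singleton]
  have hn1 : n (ConjClasses.mk (1 : G)) = Nat.card G := by
    rw [hn]
    show Nat.card G / (ConjClasses.mk (1 : G)).carrier.ncard = _
    rw [hone, Nat.div_one]
  rw [hn1] at hmain
  have hle : f (Nat.card (ConjClasses G)) ≤ ∑ j ∈ Finset.range (k + 1), f j :=
    Finset.single_le_sum (f := f) (fun _ _ => Nat.zero_le _)
      (Finset.mem_range.mpr (by omega))
  omega

end Cfsg.Agent.Lib.Helper82
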