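import Mathlib
import Cfsg.Prelude.Def_Blocks
import Cfsg.Agent.Lib.Helper81.CentralDefect
import Cfsg.Agent.Lib.Helper82.DCAsm
import Cfsg.Agent.S4717
import Cfsg.Agent.S4718

/-!
# S4719: the block-theoretic reduction (helper82)

`dc_deflate`: deficiency class `r` of `G` gives deficiency class `r - 1` of `G ⧸ Z` for a
nontrivial normal `p`-subgroup `Z` whose centralizer has `p`-power index.
-/

set_option autoImplicit false

universe u

namespace Cfsg.Agent.Lib.Helper82.DCBlock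

open Cfsg Cfsg.Agent.Lib.Helper82.DCAsm

theorem dc_deflate {G : Type*} [Group G] [Finite G] {p : ℕ} [Fact p.Prime] {M : Ideal AlgInt}
    (hM : IsPModular p M) (Z : Subgroup G) [Z.Normal] (hZp : IsPGroup p Z) (hZ1 : Z ≠ ⊥)
    (hC : ∃ k : ℕ, (Subgroup.centralizer (Z : Set G)).index = p ^ k) (r : ℕ)
    (hG : ∀ B : Set (IrrCharacter G), IsPBlock M B → B ≠ principalBlock M G →
      blockDefect p B < r)
    (b : Set (IrrCharacter (G ⧸ Z))) (hb : IsPBlock M b) (hne : b ≠ principalBlock M (G ⧸ Z)) :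
    blockDefect p b + 1 < r := by
  classical
  letI := Fintype.ofFinite G
  letI : Fintype (G ⧸ Z) := Fintype.ofFinite _
  have hp : p.Prime := Fact.out
  obtain ⟨χ₀, hχ₀⟩ := hb
  have hχ₀b : χ₀ ∈ b := by rw [hχ₀]; exact Cfsg.Agent.Lib.Helper79.mem_blockOf_self hM χ₀
  have hne' : ((fun χ : IrrCharacter (G ⧸ Z) =>
      (charDegree (χ : G ⧸ Z → ℂ)).factorization p) '' b).Nonempty := ⟨_, χ₀, hχ₀b, rfl⟩
  obtain ⟨χ₁, hχ₁b, hχ₁⟩ := Nat.sInf_mem hne'
  simp only at hχ₁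
  obtain ⟨θ, hθ⟩ : ∃ θ : IrrCharacter G, θ = Cfsg.Agent.Lib.Helper83.inflate Z χ₁ := ⟨_, rfl⟩
  have hBne : blockOf M (θ : G → ℂ) ≠ principalBlock M G := by
    intro h
    have h1 : θ ∈ principalBlock M G := by
      rw [← h]; exact Cfsg.Agent.Lib.Helper79.mem_blockOf_self hM θ
    have h2 : SameBlock M
        (((Cfsg.Agent.Lib.Helper83.trivIrr (G ⧸ Z) : IrrCharacter (G ⧸ Z)) : G ⧸ Z → ℂ) ∘
          (QuotientGroup.mk : G → G ⧸ Z))
        ((χ₁ : G ⧸ Z → ℂ) ∘ (QuotientGroup.mk : G → G ⧸ Z)) := by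
      rw [hθ] at h1
      exact h1
    have h3 := Cfsg.Agent.Lib.Helper81.sameBlock_of_inflate hM Z hZp hC _ _ h2
    have h4 : χ₁ ∈ principalBlock M (G ⧸ Z) := h3
    have h5 := Cfsg.Agent.Lib.Helper79.blockOf_eq_of_mem hM
      Cfsg.Agent.Lib.Helper79.isPBlock_principalBlock h4
    have h6 := Cfsg.Agent.Lib.Helper79.blockOf_eq_of_mem hM ⟨χ₀, hχ₀⟩ hχ₁b
    exact hne (h6.trans h5.symm)
  have hlt := hG _ (Cfsg.Agent.Lib.Helper79.isPBlock_blockOf θ) hBne
  have hθmem : θ ∈ blockOf M (θ : G → ℂ) := Cfsg.Agent.Lib.Helper79.mem_blockOf_self hM θ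
  have h7 : sInf ((fun χ : IrrCharacter G => (charDegree (χ : G → ℂ)).factorization p) ''
      blockOf M (θ : G → ℂ)) ≤ (charDegree (θ : G → ℂ)).factorization p :=
    Nat.sInf_le ⟨θ, hθmem, rfl⟩
  rw [hθ, Cfsg.Agent.Lib.Helper83.charDegree_inflate, ← hθ] at h7
  have hdvd := Cfsg.Agent.Lib.Helper83.irr_degree_dvd_card χ₁
  have hdpos := (Cfsg.Agent.Lib.Helper83.irr_degree χ₁.2).1
  have h8 : (charDegree (χ₁ : G ⧸ Z → ℂ)).factorization p ≤
      (Nat.card (G ⧸ Z)).factorization p :=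
    (Nat.factorization_le_iff_dvd hdpos.ne' Nat.card_pos.ne').mpr hdvd p
  have hcard : Nat.card G = Nat.card (G ⧸ Z) * Nat.card Z :=
    Subgroup.card_eq_card_quotient_mul_card_subgroup Z
  have hZfac : 1 ≤ (Nat.card Z).factorization p := by
    obtain ⟨n, hn⟩ := IsPGroup.iff_card.mp hZp
    have hn0 : n ≠ 0 := by
      rintro rfl
      rw [pow_zero] at hn
      exact hZ1 (Subgroup.eq_bot_of_card_eq _ hn)
    rw [hn, Nat.Prime.factorization_pow hp]
    simp only [Finsupp.single_eq_same]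
    omega
  have hfac : (Nat.card G).factorization p =
      (Nat.card (G ⧸ Z)).factorization p + (Nat.card Z).factorization p := by
    rw [hcard, Nat.factorization_mul Nat.card_pos.ne' Nat.card_pos.ne']
    rfl
  unfold blockDefect at hlt ⊢
  rw [← hχ₁]
  omega

/-- the deficiency-class hypothesis, with an elementary abelian subgroup of order `2 ^ (r + 1)`
in a Sylow 2-subgroup of order `2 ^ a`, bounds the group by `N` -/
def DCBound (a N : ℕ) : Prop :=
  ∀ (G : Type u) [Group G] [Finite G] (M : Ideal Cfsg.AlgInt) (r : ℕ) (P : Sylow 2 G),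
    Cfsg.IsPModular 2 M → Nat.card P = 2 ^ a →
    (∀ B : Set (Cfsg.IrrCharacter G), Cfsg.IsPBlock M B → B ≠ Cfsg.principalBlock M G →
      Cfsg.blockDefect 2 B < r) →
    (∃ E : Subgroup G, E ≤ (P : Subgroup G) ∧ IsMulCommutative E ∧ (∀ x ∈ E, x * x = 1) ∧
      Nat.card E = 2 ^ (r + 1)) → Nat.card G ≤ N

/-- the centralizer of an involution of `E` is bounded through the induction hypothesis -/
theorem dc_cent (a N₀ : ℕ) (hN₀ : ∀ a' < a, DCBound.{u} a' N₀)
    (G : Type u) [Group G] [Finite G] (M : Ideal Cfsg.AlgInt) (r : ℕ)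
    (hM : Cfsg.IsPModular 2 M) (ha : (Nat.card G).factorization 2 = a)
    (hblocks : ∀ B : Set (Cfsg.IrrCharacter G), Cfsg.IsPBlock M B →
      B ≠ Cfsg.principalBlock M G → Cfsg.blockDefect 2 B < r + 1)
    (E : Subgroup G) (hEcomm : ∀ x ∈ E, ∀ y ∈ E, x * y = y * x) (hEinv : ∀ x ∈ E, x * x = 1)
    (hEcard : Nat.card E = 2 ^ (r + 2)) (t : G) (ht : t ∈ E) (ht1 : t ≠ 1) :
    Nat.card ↥(Subgroup.centralizer ({t} : Set G)) ≤ 2 * N₀ := by
  haveI : Fact (Nat.Prime 2) := ⟨Nat.prime_two⟩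
  have htord : orderOf t = 2 := orderOf_eq_prime (by rw [pow_two]; exact hEinv t ht) ht1
  obtain ⟨C, hCdef⟩ : ∃ C : Subgroup G, C = Subgroup.centralizer ({t} : Set G) := ⟨_, rfl⟩
  have hCblocks : ∀ B' : Set (Cfsg.IrrCharacter ↥C), Cfsg.IsPBlock M B' →
      B' ≠ Cfsg.principalBlock M ↥C → Cfsg.blockDefect 2 B' < r + 1 := by
    rw [hCdef]
    exact (Cfsg.Agent.S4717.result (G := G) 2 M hM (r + 1)).1 hblocks t
      ⟨1, by rw [htord, pow_one]⟩
  rw [← hCdef]
  have htC : t ∈ C := by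
    rw [hCdef, Subgroup.mem_centralizer_iff]
    intro h hh
    rw [Set.mem_singleton_iff] at hh
    rw [hh]
  have hEC : E ≤ C := by
    intro x hx
    rw [hCdef, Subgroup.mem_centralizer_iff]
    intro h hh
    rw [Set.mem_singleton_iff] at hh
    rw [hh]
    exact hEcomm t ht x hx
  have hCmem : ∀ x ∈ C, x * t = t * x := by
    intro x hx
    rw [hCdef, Subgroup.mem_centralizer_iff] at hx
    exact (hx t rfl).symm
  obtain ⟨tC, htCdef⟩ : ∃ tC : ↥C, tC = ⟨t, htC⟩ := ⟨_, rfl⟩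
  have htCcomm : ∀ g : ↥C, g * tC = tC * g := by
    intro g
    have h2 := hCmem g g.2
    apply Subtype.ext
    rw [htCdef]
    exact h2
  obtain ⟨Z, hZdef⟩ : ∃ Z : Subgroup ↥C, Z = Subgroup.zpowers tC := ⟨_, rfl⟩
  have hZcomm : ∀ n ∈ Z, ∀ g : ↥C, g * n = n * g := by
    intro n hn g
    rw [hZdef] at hn
    obtain ⟨k, rfl⟩ := Subgroup.mem_zpowers_iff.mp hn
    have hc : Commute g tC := htCcomm g
    exact (hc.zpow_right k).eq
  haveI hZn : Z.Normal := by
    constructor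
    intro n hn g
    rw [hZcomm n hn g, mul_inv_cancel_right]
    exact hn
  have htCord : orderOf tC = 2 := by
    rw [← Subgroup.orderOf_coe, htCdef]
    exact htord
  have hZcard : Nat.card Z = 2 := by
    rw [hZdef, Nat.card_zpowers, htCord]
  have hZp : IsPGroup 2 Z := IsPGroup.of_card (n := 1) (by rw [hZcard, pow_one])
  have hZ1 : Z ≠ ⊥ := by
    intro h
    rw [h, Subgroup.card_bot] at hZcard
    omega
  have hZC : ∃ k : ℕ, (Subgroup.centralizer (Z : Set ↥C)).index = 2 ^ k := by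
    refine ⟨0, ?_⟩
    have : Subgroup.centralizer (Z : Set ↥C) = ⊤ := by
      rw [eq_top_iff]
      intro g _
      rw [Subgroup.mem_centralizer_iff]
      intro n hn
      exact (hZcomm n hn g).symm
    rw [this, Subgroup.index_top, pow_zero]
  have hQblocks : ∀ b : Set (Cfsg.IrrCharacter (↥C ⧸ Z)), Cfsg.IsPBlock M b →
      b ≠ Cfsg.principalBlock M (↥C ⧸ Z) → Cfsg.blockDefect 2 b < r := by
    intro b hb hne
    have := dc_deflate hM Z hZp hZ1 hZC (r + 1) hCblocks b hb hne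
    omega
  -- the image of E
  obtain ⟨E₁, hE₁def⟩ : ∃ E₁ : Subgroup ↥C, E₁ = E.subgroupOf C := ⟨_, rfl⟩
  have hE₁card : Nat.card E₁ = 2 ^ (r + 2) := by
    rw [hE₁def, ← hEcard]
    exact Nat.card_congr (Subgroup.subgroupOfEquivOfLe hEC).toEquiv
  have hZE₁ : Z ≤ E₁ := by
    rw [hZdef, Subgroup.zpowers_le, hE₁def, Subgroup.mem_subgroupOf, htCdef]
    exact ht
  obtain ⟨E₂, hE₂def⟩ : ∃ E₂ : Subgroup (↥C ⧸ Z), E₂ = E₁.map (QuotientGroup.mk' Z) :=
    ⟨_, rfl⟩
  have hE₂card : Nat.card E₂ = 2 ^ (r + 1) := by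
    have h := dc_card_map_mk Z E₁ hZE₁
    rw [← hE₂def, hZcard, hE₁card, pow_succ] at h
    omega
  have hE₂p : IsPGroup 2 E₂ := IsPGroup.of_card hE₂card
  obtain ⟨P₂, hP₂⟩ := hE₂p.exists_le_sylow
  have hE₂comm : IsMulCommutative E₂ := by
    rw [isMulCommutative_iff]
    rintro ⟨x, hx⟩ ⟨y, hy⟩
    apply Subtype.ext
    rw [hE₂def] at hx hy
    obtain ⟨x', hx', rfl⟩ := hx
    obtain ⟨y', hy', rfl⟩ := hy
    show (QuotientGroup.mk' Z) x' * (QuotientGroup.mk' Z) y'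
      = (QuotientGroup.mk' Z) y' * (QuotientGroup.mk' Z) x'
    rw [← map_mul, ← map_mul]
    congr 1
    apply Subtype.ext
    rw [hE₁def, SetLike.mem_coe, Subgroup.mem_subgroupOf] at hx' hy'
    exact hEcomm _ hx' _ hy'
  have hE₂inv : ∀ x ∈ E₂, x * x = 1 := by
    intro x hx
    rw [hE₂def] at hx
    obtain ⟨x', hx', rfl⟩ := hx
    rw [← map_mul]
    have : x' * x' = 1 := by
      apply Subtype.ext
      rw [hE₁def, SetLike.mem_coe, Subgroup.mem_subgroupOf] at hx'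
      exact hEinv _ hx'
    rw [this, map_one]
  -- the orders
  have hCcard : Nat.card ↥C = Nat.card (↥C ⧸ Z) * 2 := by
    rw [← hZcard]
    exact Subgroup.card_eq_card_quotient_mul_card_subgroup Z
  have hQpos : Nat.card (↥C ⧸ Z) ≠ 0 := Nat.card_pos.ne'
  have hlt : (Nat.card (↥C ⧸ Z)).factorization 2 < a := by
    have h1 : (Nat.card ↥C).factorization 2 ≤ (Nat.card G).factorization 2 :=
      dc_fact_le_of_dvd Nat.card_pos.ne' (Subgroup.card_subgroup_dvd_card C)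
    rw [hCcard, Nat.factorization_mul hQpos (by norm_num), Finsupp.add_apply,
      Nat.Prime.factorization_self Nat.prime_two, ha] at h1
    omega
  have hle := hN₀ _ hlt (↥C ⧸ Z) M r P₂ hM (Sylow.card_eq_multiplicity P₂) hQblocks
    ⟨E₂, hP₂, hE₂comm, hE₂inv, hE₂card⟩
  rw [hCcard]
  omega

/-- the induction step of S4719 -/
theorem dc_step (a N₀ : ℕ) (hN₀ : ∀ a' < a, DCBound.{u} a' N₀) : ∃ N : ℕ, DCBound.{u} a N := by
  haveI : Fact (Nat.Prime 2) := ⟨Nat.prime_two⟩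
  obtain ⟨N₁, hN₁⟩ := Cfsg.Agent.S4718.result.{u} 2 a
  obtain ⟨f, hf⟩ := dc_lemA.{u} (2 * N₀) a
  refine ⟨max N₁ f, ?_⟩
  intro G _ _ M r P hM hP hblocks hE
  obtain ⟨E, hEP, hEcomm, hEinv, hEcard⟩ := hE
  have ha : (Nat.card G).factorization 2 = a := by
    have h := Sylow.card_eq_multiplicity P
    rw [hP] at h
    exact (Nat.pow_right_injective (le_refl 2) h).symm
  rcases Nat.eq_zero_or_pos r with hr | hr
  · subst hr
    refine (hN₁ G M hM ha ?_).trans (le_max_left _ _)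
    intro B hB
    by_contra hne
    exact absurd (hblocks B hB hne) (Nat.not_lt_zero _)
  · obtain ⟨r', rfl⟩ : ∃ r', r = r' + 1 := ⟨r - 1, by omega⟩
    have hEc : ∀ x ∈ E, ∀ y ∈ E, x * y = y * x := by
      intro x hx y hy
      have h := (isMulCommutative_iff.mp hEcomm) ⟨x, hx⟩ ⟨y, hy⟩
      exact congrArg Subtype.val h
    have hcent := dc_cent.{u} a N₀ hN₀ G M r' hM ha hblocks E hEc hEinv hEcard
    -- two distinct involutions of E
    have hE4 : 4 ≤ Nat.card E := by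
      rw [hEcard]
      calc 4 = 2 ^ 2 := by norm_num
        _ ≤ 2 ^ (r' + 1 + 1) := Nat.pow_le_pow_right (by norm_num) (by omega)
    haveI : Fintype E := Fintype.ofFinite _
    classical
    have hcardF : 4 ≤ Fintype.card E := by rw [← Nat.card_eq_fintype_card]; exact hE4
    obtain ⟨t₁, ht₁⟩ : ∃ t₁ : E, t₁ ≠ 1 :=
      Fintype.exists_ne_of_one_lt_card (by omega) 1
    obtain ⟨t₂, ht₂⟩ : ∃ t₂ : E, t₂ ∉ ({1, t₁} : Finset E) := by
      by_contra hall
      push_neg at hall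
      have h1 : (Finset.univ : Finset E) ⊆ {1, t₁} := fun x _ => hall x
      have h2 := Finset.card_le_card h1
      rw [Finset.card_univ] at h2
      have h3 : ({1, t₁} : Finset E).card ≤ 2 := Finset.card_le_two
      omega
    rw [Finset.mem_insert, Finset.mem_singleton, not_or] at ht₂
    have hv1 : (t₁ : G) ≠ 1 := fun h => ht₁ (Subtype.ext h)
    have hv2 : (t₂ : G) ≠ 1 := fun h => ht₂.1 (Subtype.ext h)
    have hv12 : (t₁ : G) ≠ (t₂ : G) := fun h => ht₂.2 (Subtype.ext h.symm)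
    have hi1 := hEinv _ t₁.2
    have hi2 := hEinv _ t₂.2
    have hc12 := hEc _ t₁.2 _ t₂.2
    have hv3 : (t₁ : G) * (t₂ : G) ≠ 1 := by
      intro h
      apply hv12
      have h1 : (t₁ : G) * (t₂ : G) = (t₁ : G) * (t₁ : G) := by rw [h, hi1]
      exact (mul_left_cancel h1).symm
    refine (hf G t₁ t₂ hi1 hi2 hc12 hv1 hv2 hv12 (hcent _ t₁.2 hv1) (hcent _ t₂.2 hv2)
      (hcent _ (E.mul_mem t₁.2 t₂.2) hv3) ha.le).trans (le_max_right _ _)

end Cfsg.Agent.Lib.Helper82.DCBlock
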