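import Mathlib
import Cfsg.Agent.Lib.Helper22.HPDefs
import Cfsg.Agent.Lib.Helper83.IrrBasic

/-! S4504 / HP-RECOG (architect helper1), sub-piece KER: the kernel of the conjugation action on the
Sylow `p`-subgroups is the centre. -/

set_option autoImplicit false
set_option linter.style.haveILetI false

namespace Cfsg.Agent.Lib.Helper82.HPR

open Cfsg Cfsg.Agent.Lib.Helper22.BFD Cfsg.Agent.Lib.Helper22.HPD

universe u

/-- membership in the kernel of the action on the Sylow subgroups -/
theorem hprker_mem_ker {G : Type u} [Group G] (p : ℕ) (g : G) :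
    g ∈ (MulAction.toPermHom G (Sylow p G)).ker ↔ ∀ Q : Sylow p G, g • Q = Q := by
  rw [MonoidHom.mem_ker, Equiv.Perm.ext_iff]
  rfl

/-- SUB-PIECE KER: the kernel of the conjugation action on the Sylow `p`-subgroups is `Z(G)` -/
theorem recog_kernel {G : Type u} [Group G] [Fintype G] (p : ℕ) [Fact p.Prime]
    (hsq : ¬ p ^ 2 ∣ Nat.card G)
    (hnn : ∀ H : Subgroup G, H.Normal → Nat.card H ≠ p)
    (z : G) (hz : orderOf z = p)
    (hC : ∀ g : G, g * z = z * g → ∃ t : ZMod p, ∃ u ∈ Subgroup.center G, g = z ^ t.val * u) :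
    (MulAction.toPermHom G (Sylow p G)).ker = Subgroup.center G := by
  classical
  have hp : p.Prime := Fact.out
  have hcardP : Nat.card (Subgroup.zpowers z) = p := by rw [Nat.card_zpowers, hz]
  have hpG : p ∣ Nat.card G := by
    rw [← hz]; exact orderOf_dvd_natCard z
  have hfac : (Nat.card G).factorization p = 1 := by
    have hG0 : Nat.card G ≠ 0 := Nat.card_pos.ne'
    have h1 : 1 ≤ (Nat.card G).factorization p :=
      (hp.pow_dvd_iff_le_factorization hG0).1 (by rwa [pow_one])
    have h2 : ¬ 2 ≤ (Nat.card G).factorization p := fun h =>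
      hsq ((hp.pow_dvd_iff_le_factorization hG0).2 h)
    omega
  have hsylcard : ∀ R : Sylow p G, Nat.card (R : Subgroup G) = p := by
    intro R
    rw [Sylow.card_eq_multiplicity, hfac, pow_one]
  -- the Sylow subgroup `⟨z⟩`
  let Q₀ : Sylow p G := Sylow.ofCard (Subgroup.zpowers z) (by rw [hcardP, hfac, pow_one])
  have hQ₀ : (Q₀ : Subgroup G) = Subgroup.zpowers z := rfl
  have hcen : Subgroup.center G ≤ (MulAction.toPermHom G (Sylow p G)).ker := by
    intro g hg
    rw [hprker_mem_ker]
    intro Q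
    rw [Sylow.smul_eq_iff_mem_normalizer]
    exact Subgroup.center_le_normalizer _ hg
  apply le_antisymm _ hcen
  -- (a) `p` does not divide the order of the kernel
  have hnd : ¬ p ∣ Nat.card (MulAction.toPermHom G (Sylow p G)).ker := by
    intro hdvd
    obtain ⟨w, hw⟩ := exists_prime_orderOf_dvd_card' p hdvd
    have hw' : orderOf (w : G) = p := by rw [Subgroup.orderOf_coe]; exact hw
    have hwcard : Nat.card (Subgroup.zpowers (w : G)) = p := by rw [Nat.card_zpowers, hw']
    have hwp : IsPGroup p (Subgroup.zpowers (w : G)) :=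
      IsPGroup.of_card (n := 1) (by rw [hwcard, pow_one])
    have hall : ∀ R : Sylow p G, (R : Subgroup G) = Subgroup.zpowers (w : G) := by
      intro R
      have h1 : (w : G) • R = R := (hprker_mem_ker p (w : G)).1 w.2 R
      have h2 : (w : G) ∈ Subgroup.normalizer (R : Set G) :=
        Sylow.smul_eq_iff_mem_normalizer.1 h1
      have h3 : Subgroup.zpowers (w : G) ≤ Subgroup.normalizer (R : Set G) := by
        rw [Subgroup.zpowers_le]; exact h2
      have h4 := hwp.inf_normalizer_sylow R
      rw [inf_eq_left.2 h3] at h4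
      have h5 : Subgroup.zpowers (w : G) ≤ (R : Subgroup G) := by
        rw [h4]; exact inf_le_right
      exact (Subgroup.eq_of_le_of_card_ge h5 (by rw [hsylcard R, hwcard])).symm
    have hnorm : (Subgroup.zpowers (w : G)).Normal := by
      constructor
      intro x hx g
      have h1 : ((g • Q₀ : Sylow p G) : Subgroup G) = Subgroup.zpowers (w : G) := hall _
      have h2 : g * x * g⁻¹ ∈ ((g • Q₀ : Sylow p G) : Subgroup G) := by
        rw [Sylow.coe_subgroup_smul]
        refine ⟨x, ?_, ?_⟩
        · show x ∈ (Q₀ : Subgroup G)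
          rw [hall Q₀]; exact hx
        · simp [MulAut.smul_def]
      rw [h1] at h2
      exact h2
    exact hnn _ hnorm hwcard
  -- elements of the kernel inside `⟨z⟩` are trivial
  have htriv : ∀ x : G, x ∈ (MulAction.toPermHom G (Sylow p G)).ker → x ∈ Subgroup.zpowers z →
      x = 1 := by
    intro x hxL hxP
    have h1 : orderOf x ∣ p := by
      rw [← hcardP]; exact Subgroup.orderOf_dvd_natCard _ hxP
    have h2 : orderOf x ∣ Nat.card (MulAction.toPermHom G (Sylow p G)).ker :=
      Subgroup.orderOf_dvd_natCard _ hxL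
    rcases (Nat.dvd_prime hp).1 h1 with h | h
    · exact orderOf_eq_one_iff.1 h
    · exact absurd (h ▸ h2) hnd
  intro g hg
  have hgn : g ∈ Subgroup.normalizer ((Subgroup.zpowers z : Subgroup G) : Set G) := by
    have h1 : g • Q₀ = Q₀ := (hprker_mem_ker p g).1 hg Q₀
    exact Sylow.smul_eq_iff_mem_normalizer.1 h1
  have hzP : z ∈ Subgroup.zpowers z := Subgroup.mem_zpowers z
  have hc1 : g * z * g⁻¹ * z⁻¹ ∈ Subgroup.zpowers z :=
    mul_mem ((Subgroup.mem_normalizer_iff.1 hgn z).1 hzP) (inv_mem hzP)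
  have hLn : ((MulAction.toPermHom G (Sylow p G)).ker).Normal := MonoidHom.normal_ker _
  have hc2 : g * z * g⁻¹ * z⁻¹ ∈ (MulAction.toPermHom G (Sylow p G)).ker := by
    have h1 := hLn.conj_mem g⁻¹ (inv_mem hg) z
    have h2 := mul_mem hg h1
    have h3 : g * (z * g⁻¹ * z⁻¹) = g * z * g⁻¹ * z⁻¹ := by group
    rw [h3] at h2
    exact h2
  have hc : g * z * g⁻¹ * z⁻¹ = 1 := htriv _ hc2 hc1
  have hcomm : g * z = z * g := by
    have h1 : g * z = (g * z * g⁻¹ * z⁻¹) * (z * g) := by group
    rw [h1, hc, one_mul]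
  obtain ⟨t, u, hu, hgu⟩ := hC g hcomm
  have huL := hcen hu
  have hzt : z ^ t.val = g * u⁻¹ := by rw [hgu]; group
  have hztL : z ^ t.val ∈ (MulAction.toPermHom G (Sylow p G)).ker := by
    rw [hzt]; exact mul_mem hg (inv_mem huL)
  have hzt1 : z ^ t.val = 1 := htriv _ hztL (Subgroup.pow_mem _ hzP _)
  rw [hgu, hzt1, one_mul]
  exact hu

end Cfsg.Agent.Lib.Helper82.HPR
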