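import Mathlib
import Cfsg.Prelude.Def_LieTypeChar
import Cfsg.Agent.Lib.Lead.LTBCore
import Cfsg.Agent.Lib.Lead.LTBDefs

/-! Project LTB (S2363, lead), pieces E6 and E7: pure arithmetic from the order formulas. -/

set_option autoImplicit false

namespace Cfsg.Agent.Lib.Lead.LTB

open Cfsg

theorem ltbe6e7_lt (Q : ℕ) (hQ : 2 ≤ Q) (i : ℕ) : Q ^ i - 1 < Q ^ i :=
  Nat.sub_lt (pow_pos (by omega) i) one_pos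

theorem ltbe6e7_not_dvd (p f m : ℕ) (hp : p.Prime) (hf : f ≠ 0) :
    ¬ p ∣ Nat.gcd m (p ^ f - 1) := by
  intro h
  have h1 : p ∣ p ^ f - 1 := h.trans (Nat.gcd_dvd_right _ _)
  have h2 : p ∣ p ^ f := dvd_pow_self p hf
  have h3 : 1 ≤ p ^ f := Nat.one_le_pow _ _ hp.pos
  have h4 : p ∣ p ^ f - (p ^ f - 1) := Nat.dvd_sub h2 h1
  have h5 : p ^ f - (p ^ f - 1) = 1 := by omega
  rw [h5] at h4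
  exact hp.one_lt.ne' (Nat.dvd_one.1 h4)

theorem e6_stmt : E6Stmt := by
  intro p hp F _ _ _ h
  obtain ⟨f, _, hq⟩ := FiniteField.card F p
  rw [hq] at h
  have hQ2 : 2 ≤ p ^ (f : ℕ) :=
    le_trans hp.two_le (Nat.le_self_pow f.ne_zero p)
  have hlt := ltbe6e7_lt (p ^ (f : ℕ)) hQ2
  refine goal_of_q_mul_bounds p hp (f : ℕ) 36 42 (Nat.gcd 3 (p ^ (f : ℕ) - 1))
    (((p ^ (f : ℕ)) ^ 2 - 1) * ((p ^ (f : ℕ)) ^ 5 - 1) * ((p ^ (f : ℕ)) ^ 6 - 1) *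
      ((p ^ (f : ℕ)) ^ 8 - 1) * ((p ^ (f : ℕ)) ^ 9 - 1) * ((p ^ (f : ℕ)) ^ 12 - 1))
    (ltbe6e7_not_dvd p f 3 hp f.ne_zero) ?_ ?_ (by norm_num)
  · rw [h]; ring
  · calc ((p ^ (f : ℕ)) ^ 2 - 1) * ((p ^ (f : ℕ)) ^ 5 - 1) * ((p ^ (f : ℕ)) ^ 6 - 1) *
          ((p ^ (f : ℕ)) ^ 8 - 1) * ((p ^ (f : ℕ)) ^ 9 - 1) * ((p ^ (f : ℕ)) ^ 12 - 1)
        < (p ^ (f : ℕ)) ^ 2 * (p ^ (f : ℕ)) ^ 5 * (p ^ (f : ℕ)) ^ 6 *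
          (p ^ (f : ℕ)) ^ 8 * (p ^ (f : ℕ)) ^ 9 * (p ^ (f : ℕ)) ^ 12 :=
          Nat.mul_lt_mul'' (Nat.mul_lt_mul'' (Nat.mul_lt_mul'' (Nat.mul_lt_mul''
            (Nat.mul_lt_mul'' (hlt 2) (hlt 5)) (hlt 6)) (hlt 8)) (hlt 9)) (hlt 12)
      _ = (p ^ (f : ℕ)) ^ 42 := by ring

theorem e7_stmt : E7Stmt := by
  intro p hp F _ _ _ h
  obtain ⟨f, _, hq⟩ := FiniteField.card F p
  rw [hq] at h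
  have hQ2 : 2 ≤ p ^ (f : ℕ) :=
    le_trans hp.two_le (Nat.le_self_pow f.ne_zero p)
  have hlt := ltbe6e7_lt (p ^ (f : ℕ)) hQ2
  refine goal_of_q_mul_bounds p hp (f : ℕ) 63 70 (Nat.gcd 2 (p ^ (f : ℕ) - 1))
    (((p ^ (f : ℕ)) ^ 2 - 1) * ((p ^ (f : ℕ)) ^ 6 - 1) * ((p ^ (f : ℕ)) ^ 8 - 1) *
      ((p ^ (f : ℕ)) ^ 10 - 1) * ((p ^ (f : ℕ)) ^ 12 - 1) * ((p ^ (f : ℕ)) ^ 14 - 1) *
      ((p ^ (f : ℕ)) ^ 18 - 1))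
    (ltbe6e7_not_dvd p f 2 hp f.ne_zero) ?_ ?_ (by norm_num)
  · rw [h]; ring
  · calc ((p ^ (f : ℕ)) ^ 2 - 1) * ((p ^ (f : ℕ)) ^ 6 - 1) * ((p ^ (f : ℕ)) ^ 8 - 1) *
          ((p ^ (f : ℕ)) ^ 10 - 1) * ((p ^ (f : ℕ)) ^ 12 - 1) * ((p ^ (f : ℕ)) ^ 14 - 1) *
          ((p ^ (f : ℕ)) ^ 18 - 1)
        < (p ^ (f : ℕ)) ^ 2 * (p ^ (f : ℕ)) ^ 6 * (p ^ (f : ℕ)) ^ 8 *
          (p ^ (f : ℕ)) ^ 10 * (p ^ (f : ℕ)) ^ 12 * (p ^ (f : ℕ)) ^ 14 * (p ^ (f : ℕ)) ^ 18 :=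
          Nat.mul_lt_mul'' (Nat.mul_lt_mul'' (Nat.mul_lt_mul'' (Nat.mul_lt_mul''
            (Nat.mul_lt_mul'' (Nat.mul_lt_mul'' (hlt 2) (hlt 6)) (hlt 8)) (hlt 10)) (hlt 12))
            (hlt 14)) (hlt 18)
      _ = (p ^ (f : ℕ)) ^ 70 := by ring

end Cfsg.Agent.Lib.Lead.LTB
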