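import Mathlib
import Cfsg.Agent.Lib.Helper65.MonoDefs

/-!
# S5634, m = 1 half, piece RK (helper82 for helper65)

`P3col X → RKP X`: torus conjugates `x d_ab(t) x⁻¹` of non-monomial `x` are non-monomial.
-/

set_option autoImplicit false
set_option linter.unusedSectionVars false

namespace Cfsg.Agent.Lib.Helper65.Mono

open Matrix

section
variable {F : Type*} [Field F] {κ : Type} [Fintype κ] [DecidableEq κ]

/-- RK -/
theorem rk (hn : 7 ≤ Fintype.card κ) {X : Subgroup (GL κ F)} (h3 : P3col X) : RKP X := by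
  classical
  intro x hx hnm a b hab t ht hy
  -- notation
  set ψ : Matrix κ κ F := ((x⁻¹ : GL κ F) : Matrix κ κ F) with hψ
  have ht1 : (t : F) - 1 ≠ 0 := by
    intro h
    apply ht
    apply Units.ext
    rw [Units.val_one]
    linear_combination h
  -- the column function of `y`
  choose σ hσ using hy
  have hw : ∀ m i : κ, i ≠ m → i ≠ σ m →
      ((t : F) - 1) * (x : Matrix κ κ F) i a * ψ a m +
        (((t⁻¹ : Fˣ) : F) - 1) * (x : Matrix κ κ F) i b * ψ b m = 0 := by
    intro m i him hiσ
    have h0 : ((x * dg a b t * x⁻¹ : GL κ F) : Matrix κ κ F) i m = 0 := by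
      by_contra hne
      exact hiσ (hσ m i hne)
    rw [conj_dg_apply x hab t i m, if_neg him, zero_add] at h0
    exact h0
  -- choose `m` with `ψ b m ≠ 0`
  have hm : ∃ m, ψ b m ≠ 0 := by
    by_contra hcon
    push Not at hcon
    have h1 := gl_inv_mul_apply x b b
    rw [if_pos rfl] at h1
    rw [Finset.sum_eq_zero (fun k _ => by rw [← hψ, hcon k, zero_mul])] at h1
    exact zero_ne_one h1
  obtain ⟨m, hm⟩ := hm
  -- choose `m'` with nonzero determinant
  have hm' : ∃ m', ψ a m' * ψ b m - ψ a m * ψ b m' ≠ 0 := by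
    by_contra hcon
    push Not at hcon
    have h1 := gl_inv_mul_apply x a a
    have h2 := gl_inv_mul_apply x b a
    rw [if_pos rfl] at h1
    rw [if_neg hab.symm] at h2
    have h3' : ∑ k, (ψ a k * ψ b m - ψ a m * ψ b k) * (x : Matrix κ κ F) k a = ψ b m := by
      have e : ∀ k, (ψ a k * ψ b m - ψ a m * ψ b k) * (x : Matrix κ κ F) k a =
          ψ b m * (ψ a k * (x : Matrix κ κ F) k a) - ψ a m * (ψ b k * (x : Matrix κ κ F) k a) := by
        intro k; ring
      rw [Finset.sum_congr rfl (fun k _ => e k), Finset.sum_sub_distrib, ← Finset.mul_sum,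
        ← Finset.mul_sum, h1, h2]
      ring
    rw [Finset.sum_eq_zero (fun k _ => by rw [hcon k, zero_mul])] at h3'
    exact hm h3'.symm
  obtain ⟨m', hm'⟩ := hm'
  -- outside `{m, σ m, m', σ m'}` the column `a` of `x` vanishes
  have hzero : ∀ i : κ, i ∉ ({m, σ m, m', σ m'} : Finset κ) → (x : Matrix κ κ F) i a = 0 := by
    intro i hi
    simp only [Finset.mem_insert, Finset.mem_singleton, not_or] at hi
    obtain ⟨hi1, hi2, hi3, hi4⟩ := hi
    have e1 := hw m i hi1 hi2
    have e2 := hw m' i hi3 hi4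
    have e3 : ((t : F) - 1) * (ψ a m' * ψ b m - ψ a m * ψ b m') * (x : Matrix κ κ F) i a = 0 := by
      linear_combination ψ b m * e2 - ψ b m' * e1
    rcases mul_eq_zero.1 e3 with h | h
    · rcases mul_eq_zero.1 h with h | h
      · exact absurd h ht1
      · exact absurd h hm'
    · exact h
  -- two distinct rows outside
  have hcard : 2 ≤ (Finset.univ \ ({m, σ m, m', σ m'} : Finset κ)).card := by
    have h1 : ({m, σ m, m', σ m'} : Finset κ).card ≤ 4 := Finset.card_le_four
    have h2 := Finset.card_sdiff_add_card_eq_card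
      (Finset.subset_univ ({m, σ m, m', σ m'} : Finset κ))
    rw [Finset.card_univ] at h2
    omega
  obtain ⟨r1, hr1, r2, hr2, hne⟩ := Finset.one_lt_card.1 hcard
  rw [Finset.mem_sdiff] at hr1 hr2
  exact h3 x hx hnm a r1 r2 hne (hzero r1 hr1.2) (hzero r2 hr2.2)

end

end Cfsg.Agent.Lib.Helper65.Mono
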