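import Mathlib
import Cfsg.Agent.Lib.Helper72.PQDefs

/-!
# S4306 piece ASTR (helper82 for helper72): structure of the Frobenius operator group of order
`p * ℓ`
-/

set_option autoImplicit false

namespace Cfsg.Agent.Lib.Helper82.PQ

open Cfsg.Agent.Lib.Helper72.PQ

universe u

theorem astr : AStrStmt.{u} := by
  intro Γ _ _ p ℓ A F h
  classical
  haveI : Fact p.Prime := ⟨h.hp⟩
  haveI : Fact ℓ.Prime := ⟨h.hℓ⟩
  have hnorm : ∀ a ∈ A, ∀ x ∈ F, a * x * a⁻¹ ∈ F := by
    intro a ha x hx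
    have := h.hAF ha
    rw [Subgroup.mem_normalizer_iff] at this
    exact (this x).1 hx
  haveI hFn : (F.subgroupOf A).Normal := by
    refine ⟨fun x hx a => ?_⟩
    rw [Subgroup.mem_subgroupOf] at hx ⊢
    exact hnorm a.1 a.2 x.1 hx
  have hcardF' : Nat.card (F.subgroupOf A) = p := by
    rw [Nat.card_congr (Subgroup.subgroupOfEquivOfLe h.hFA).toEquiv]
    exact h.hF
  have hidx : (F.subgroupOf A).index = ℓ := by
    have := Subgroup.card_mul_index (F.subgroupOf A)
    rw [hcardF', h.hA] at this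
    exact Nat.eq_of_mul_eq_mul_left h.hp.pos this
  have hquot : Nat.card (↥A ⧸ F.subgroupOf A) = ℓ := by
    rw [← Subgroup.index_eq_card]
    exact hidx
  have hpow : ∀ t ∈ A, t ∉ F → t ^ ℓ = 1 := by
    intro t ht htF
    have h1 : (⟨t, ht⟩ : ↥A) ^ (F.subgroupOf A).index ∈ F.subgroupOf A :=
      Subgroup.pow_index_mem _ _
    rw [hidx, Subgroup.mem_subgroupOf] at h1
    have h2 : t ^ ℓ ∈ F := by simpa using h1
    exact h.hfrob t ht htF (t ^ ℓ) h2 (by rw [← pow_succ', ← pow_succ])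
  have hord : ∀ t ∈ A, t ∉ F → orderOf t = ℓ := by
    intro t ht htF
    have h1 : orderOf t ∣ ℓ := orderOf_dvd_of_pow_eq_one (hpow t ht htF)
    rcases (Nat.dvd_prime h.hℓ).1 h1 with h2 | h2
    · exfalso
      apply htF
      rw [orderOf_eq_one_iff] at h2
      rw [h2]
      exact F.one_mem
    · exact h2
  have hex : ∃ t ∈ A, t ∉ F := by
    by_contra hcon
    push Not at hcon
    have hAF : A ≤ F := fun a ha => hcon a ha
    have hAeq : A = F := le_antisymm hAF h.hFA
    have h0 := h.hA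
    rw [hAeq, h.hF] at h0
    have h1 : ℓ = 1 := by
      have h2 : p * 1 = p * ℓ := by rw [mul_one]; exact h0
      exact (Nat.eq_of_mul_eq_mul_left h.hp.pos h2).symm
    exact h.hℓ.one_lt.ne' h1
  refine ⟨hex, hord, ?_, ?_⟩
  · intro t ht htF a ha
    have hne : ((⟨t, ht⟩ : ↥A) : ↥A ⧸ F.subgroupOf A) ≠ 1 := by
      intro h1
      rw [QuotientGroup.eq_one_iff, Subgroup.mem_subgroupOf] at h1
      exact htF h1
    have hmem : ((⟨a, ha⟩ : ↥A) : ↥A ⧸ F.subgroupOf A) ∈
        Submonoid.powers ((⟨t, ht⟩ : ↥A) : ↥A ⧸ F.subgroupOf A) :=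
      mem_powers_of_prime_card hquot hne
    obtain ⟨i, hi⟩ := (Submonoid.mem_powers_iff _ _).1 hmem
    refine ⟨a * (t ^ i)⁻¹, ?_, i, by group⟩
    have h2 : (((⟨a, ha⟩ : ↥A) * ((⟨t, ht⟩ : ↥A) ^ i)⁻¹ : ↥A) : ↥A ⧸ F.subgroupOf A) = 1 := by
      rw [QuotientGroup.mk_mul, QuotientGroup.mk_inv, QuotientGroup.mk_pow, hi, mul_inv_cancel]
    rw [QuotientGroup.eq_one_iff, Subgroup.mem_subgroupOf] at h2
    simpa using h2
  · obtain ⟨t, ht, htF⟩ := hex
    let f : Function.End ↥F := fun x => ⟨t * x.1 * t⁻¹, hnorm t ht x.1 x.2⟩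
    have key : ∀ k : ℕ, ∀ x : ↥F, ((f ^ k) x : Γ) = t ^ k * x.1 * (t ^ k)⁻¹ := by
      intro k
      induction k with
      | zero =>
        intro x
        rw [pow_zero, pow_zero, inv_one, one_mul, mul_one]
        rfl
      | succ k ih =>
        intro x
        rw [pow_succ']
        show t * ((f ^ k) x : Γ) * t⁻¹ = _
        rw [ih x, pow_succ']
        group
    have hf : f ^ ℓ ^ 1 = 1 := by
      rw [pow_one]
      funext x
      apply Subtype.ext
      show ((f ^ ℓ) x : Γ) = (x : Γ)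
      rw [key ℓ x, hpow t ht htF, inv_one, one_mul, mul_one]
    haveI : Fintype ↥F := Fintype.ofFinite _
    have hmod := Equiv.Perm.card_fixedPoints_modEq (f := f) (p := ℓ) (n := 1) hf
    have hfix : Fintype.card ↥(Function.fixedPoints f) = 1 := by
      rw [Fintype.card_eq_one_iff]
      refine ⟨⟨1, ?_⟩, ?_⟩
      · show f 1 = 1
        apply Subtype.ext
        show t * ((1 : ↥F) : Γ) * t⁻¹ = ((1 : ↥F) : Γ)
        rw [Subgroup.coe_one]
        group
      · rintro ⟨x, hx⟩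
        apply Subtype.ext
        have hx' : f x = x := hx
        have h3 : t * x.1 * t⁻¹ = x.1 := congrArg Subtype.val hx'
        have h4 : t * x.1 = x.1 * t := by
          calc t * x.1 = (t * x.1 * t⁻¹) * t := by group
            _ = x.1 * t := by rw [h3]
        exact Subtype.ext (h.hfrob t ht htF x.1 x.2 h4)
    rw [hfix, ← Nat.card_eq_fintype_card, h.hF] at hmod
    exact (Nat.modEq_iff_dvd' h.hp.one_lt.le).1 hmod.symm

end Cfsg.Agent.Lib.Helper82.PQ
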