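import Mathlib
import Cfsg.Agent.Lib.Helper22.PTDefs
import Cfsg.Agent.Lib.Helper22.PTAux
import Cfsg.Agent.Lib.Helper83.Ortho
import Cfsg.Agent.Lib.Helper80.Twisted
import Cfsg.Agent.Lib.Helper4.CharExp2

/-!
# Project PT (helper22, S4705), piece TWCOL (helper82)

Twisted column orthogonality on the powers of `z`: for the irreducible characters `φ` with central
character `η`, `∑_φ φ (z ^ j) conj (φ (z ^ k)) = p [j = ± k]` (`k ≠ 0`).
-/

set_option autoImplicit false

namespace Cfsg.Agent.Lib.Helper82.PT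

open Cfsg Cfsg.Agent.Lib.Helper22.BFD Cfsg.Agent.Lib.Helper22.PT
open Cfsg.Agent.Lib.Helper80 Cfsg.Agent.Lib.Helper83 Cfsg.Agent.Lib.Helper4
open scoped ComplexConjugate

universe u

/-- the join of two elementwise commuting subgroups with trivial intersection -/
theorem twcol_card_sup {S : Type*} [Group S] (A B : Subgroup S)
    (hcomm : ∀ a ∈ A, ∀ b ∈ B, a * b = b * a) (hdisj : A ⊓ B = ⊥) :
    Nat.card ↥(A ⊔ B) = Nat.card A * Nat.card B := by
  have comm : ∀ (m : A) (n : B), Commute (A.subtype m) (B.subtype n) :=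
    fun m n => hcomm m m.2 n n.2
  have hinj : Function.Injective (MonoidHom.noncommCoprod A.subtype B.subtype comm) := by
    rw [MonoidHom.noncommCoprod_injective]
    refine ⟨A.subtype_injective, B.subtype_injective, ?_⟩
    rw [Subgroup.range_subtype, Subgroup.range_subtype, disjoint_iff, hdisj]
  have hrange := MonoidHom.noncommCoprod_range A.subtype B.subtype comm
  rw [Subgroup.range_subtype, Subgroup.range_subtype] at hrange
  rw [← hrange, ← Nat.card_prod]
  exact (Nat.card_congr (MonoidHom.ofInjective hinj).toEquiv).symm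

variable {G : Type u} [Group G] [Fintype G]

theorem twcol_pow_val (p : ℕ) [Fact p.Prime] (z : G) (hz : orderOf z = p) (a : ℕ) :
    z ^ ((a : ZMod p)).val = z ^ a := by
  rw [pow_eq_pow_iff_modEq, hz, ZMod.val_natCast]
  exact Nat.mod_modEq a p

theorem twcol_exists_pow (p : ℕ) [Fact p.Prime] (z : G) (hz : orderOf z = p) (k : ZMod p)
    (hk : k ≠ 0) : (z ^ k.val) ^ (k⁻¹).val = z := by
  rw [← pow_mul]
  have h1 : ((k.val * (k⁻¹).val : ℕ) : ZMod p) = 1 := by
    rw [Nat.cast_mul, ZMod.natCast_zmod_val, ZMod.natCast_zmod_val, mul_inv_cancel₀ hk]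
  have h2 := twcol_pow_val p z hz (k.val * (k⁻¹).val)
  rw [h1, ZMod.val_one, pow_one] at h2
  exact h2.symm

theorem twcol_pow_neg (p : ℕ) [Fact p.Prime] (z : G) (hz : orderOf z = p) (k : ZMod p) :
    z ^ (-k).val = (z ^ k.val)⁻¹ := by
  apply eq_inv_of_mul_eq_one_left
  rw [← pow_add]
  have h1 : (((-k).val + k.val : ℕ) : ZMod p) = 0 := by
    rw [Nat.cast_add, ZMod.natCast_zmod_val, ZMod.natCast_zmod_val, neg_add_cancel]
  have h2 := twcol_pow_val p z hz ((-k).val + k.val)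
  rw [h1, ZMod.val_zero, pow_zero] at h2
  exact h2.symm

/-- a central element with `c ^ p = 1` is trivial -/
theorem twcol_central_one (p : ℕ) [Fact p.Prime] (z : G) (hz : orderOf z = p)
    (hsq : ¬ p ^ 2 ∣ Nat.card G) (hnn : ¬ (Subgroup.zpowers z).Normal) (c : G)
    (hc : c ∈ Subgroup.center G) (hcp : c ^ p = 1) : c = 1 := by
  by_contra hc1
  have hoc : orderOf c = p := orderOf_eq_prime hcp hc1
  have hcardz : Nat.card (Subgroup.zpowers z) = p := by rw [Nat.card_zpowers, hz]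
  have hcardc : Nat.card (Subgroup.zpowers c) = p := by rw [Nat.card_zpowers, hoc]
  have hcz : Subgroup.zpowers c ≤ Subgroup.center G := (Subgroup.zpowers_le).mpr hc
  by_cases hzc : z ∈ Subgroup.zpowers c
  · apply hnn
    have hle : Subgroup.zpowers z ≤ Subgroup.center G := (Subgroup.zpowers_le).mpr (hcz hzc)
    refine ⟨fun n hn g => ?_⟩
    have h1 := Subgroup.mem_center_iff.mp (hle hn) g
    rw [h1, mul_inv_cancel_right]
    exact hn
  · have hdisj : Subgroup.zpowers z ⊓ Subgroup.zpowers c = ⊥ := by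
      rw [eq_bot_iff]
      intro a ha
      rw [Subgroup.mem_bot]
      by_contra ha1
      apply hzc
      have hle : Subgroup.zpowers a ≤ Subgroup.zpowers z := (Subgroup.zpowers_le).mpr ha.1
      have hap : a ^ p = 1 := by
        obtain ⟨i, rfl⟩ := Subgroup.mem_zpowers_iff.mp ha.1
        rw [← zpow_natCast, ← zpow_mul, mul_comm, zpow_mul, zpow_natCast, ← hz,
          pow_orderOf_eq_one, one_zpow]
      have hoa : orderOf a = p := orderOf_eq_prime hap ha1
      have heq : Subgroup.zpowers a = Subgroup.zpowers z := by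
        apply Subgroup.eq_of_le_of_card_ge hle
        rw [hcardz, Nat.card_zpowers, hoa]
      have hza : z ∈ Subgroup.zpowers a := by
        rw [heq]
        exact Subgroup.mem_zpowers z
      exact (Subgroup.zpowers_le.mpr ha.2) hza
    have hcard := twcol_card_sup (Subgroup.zpowers z) (Subgroup.zpowers c)
      (fun a _ b hb => (Subgroup.mem_center_iff.mp (hcz hb) a)) hdisj
    rw [hcardz, hcardc] at hcard
    apply hsq
    rw [pow_two, ← hcard]
    exact Subgroup.card_subgroup_dvd_card _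

/-- `c z ^ j ∼ z ^ k` (`c` central, `k ≠ 0`) iff `c = 1` and `j = ± k` -/
theorem twcol_conj_iff (p : ℕ) [Fact p.Prime] (z : G) (ζ : G → ℂ) (h : Hyp G p z ζ)
    (hl : Loc G p z ζ) (j k : ZMod p) (hk : k ≠ 0) (c : G) (hc : c ∈ Subgroup.center G) :
    IsConj (z ^ k.val) (z ^ j.val * c) ↔ (c = 1 ∧ (j = k ∨ j = -k)) := by
  have hzp : z ^ p = 1 := by
    rw [← h.ord]
    exact pow_orderOf_eq_one z
  constructor
  · intro hconj
    obtain ⟨x, hx⟩ := isConj_iff.mp hconj
    have hcp : c ^ p = 1 := by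
      have h1 : (z ^ j.val * c) ^ p = 1 := by
        rw [← hx, conj_pow, ← pow_mul, mul_comm, pow_mul, hzp, one_pow, mul_one,
          mul_inv_cancel]
      have hcomm : Commute (z ^ j.val) c := Subgroup.mem_center_iff.mp hc (z ^ j.val)
      rw [hcomm.mul_pow, ← pow_mul, mul_comm j.val p, pow_mul, hzp, one_pow, one_mul] at h1
      exact h1
    have hc1 : c = 1 := twcol_central_one p z h.ord h.sq h.nn c hc hcp
    refine ⟨hc1, ?_⟩
    rw [hc1, mul_one] at hx
    have hm := twcol_exists_pow p z h.ord k hk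
    have h2 : x * z * x⁻¹ = z ^ (j.val * (k⁻¹).val) := by
      calc x * z * x⁻¹ = x * (z ^ k.val) ^ (k⁻¹).val * x⁻¹ := by rw [hm]
        _ = (x * z ^ k.val * x⁻¹) ^ (k⁻¹).val := conj_pow.symm
        _ = z ^ (j.val * (k⁻¹).val) := by rw [hx, pow_mul]
    have h3 : IsConj (z ^ (((j.val * (k⁻¹).val : ℕ)) : ZMod p).val) z := by
      rw [twcol_pow_val p z h.ord, ← h2]
      exact (isConj_iff.mpr ⟨x, rfl⟩).symm
    have h4 := hl.cnj _ h3
    rw [Nat.cast_mul, ZMod.natCast_zmod_val, ZMod.natCast_zmod_val] at h4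
    rcases h4 with h4 | h4
    · left
      calc j = j * k⁻¹ * k := by rw [mul_assoc, inv_mul_cancel₀ hk, mul_one]
        _ = k := by rw [h4, one_mul]
    · right
      calc j = j * k⁻¹ * k := by rw [mul_assoc, inv_mul_cancel₀ hk, mul_one]
        _ = -k := by rw [h4, neg_one_mul]
  · rintro ⟨rfl, hjk⟩
    rw [mul_one]
    rcases hjk with rfl | rfl
    · exact IsConj.refl _
    · rw [twcol_pow_neg p z h.ord]
      obtain ⟨n, hn⟩ := hl.inv
      rw [isConj_iff]
      refine ⟨n, ?_⟩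
      rw [← conj_pow, hn, inv_pow]

theorem twcol_card_centralizer (p : ℕ) [Fact p.Prime] (z : G) (ζ : G → ℂ) (h : Hyp G p z ζ)
    (hl : Loc G p z ζ) (k : ZMod p) (hk : k ≠ 0) :
    Nat.card (Subgroup.centralizer ({z ^ k.val} : Set G)) =
      p * Nat.card (Subgroup.center G) := by
  have heq : Subgroup.centralizer ({z ^ k.val} : Set G) =
      Subgroup.centralizer ({z} : Set G) := by
    ext y
    rw [Subgroup.mem_centralizer_iff, Subgroup.mem_centralizer_iff]
    constructor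
    · intro hy w hw
      rw [Set.mem_singleton_iff] at hw
      rw [hw]
      have h2 : Commute (z ^ k.val) y := hy (z ^ k.val) (Set.mem_singleton _)
      have h3 := h2.pow_left (k⁻¹).val
      rw [twcol_exists_pow p z h.ord k hk] at h3
      exact h3
    · intro hy w hw
      rw [Set.mem_singleton_iff] at hw
      rw [hw]
      have h1 : Commute z y := hy z (Set.mem_singleton _)
      exact h1.pow_left k.val
  rw [heq]
  exact Cfsg.Agent.Lib.Helper22.PT.ccard p z ζ h hl

/-- the values of a central character on the centre have absolute value one -/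
theorem twcol_cc_unit (χ : IrrCharacter G) (c : G) (hc : c ∈ Subgroup.center G) :
    conj (cc χ c) * cc χ c = 1 := by
  have hpow : ∀ n : ℕ, cc χ (c ^ n) = cc χ c ^ n := by
    intro n
    induction n with
    | zero =>
      rw [pow_zero, pow_zero]
      exact cc_one χ
    | succ n ih => rw [pow_succ, pow_succ, cc_mul χ hc, ih]
  have h1 : cc χ c ^ orderOf c = 1 := by
    rw [← hpow, pow_orderOf_eq_one]
    exact cc_one χ
  have h2 : ‖cc χ c‖ = 1 := Complex.norm_eq_one_of_pow_eq_one h1 (orderOf_pos c).ne'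
  rw [Complex.conj_mul', h2]
  norm_num

theorem twcol_zc_iff (η : G → ℂ) (φ₀ : IrrCharacter G) (hφ₀ : ZC η φ₀.1) (χ : IrrCharacter G) :
    ZC η χ.1 ↔ ∀ c ∈ Subgroup.center G, cc χ c = cc φ₀ c := by
  have hη : ∀ c ∈ Subgroup.center G, η c = cc φ₀ c := by
    intro c hc
    have h1 := hφ₀ c hc 1
    rw [mul_one] at h1
    unfold cc
    rw [h1, mul_div_assoc, div_self (irr_one_ne_zero φ₀), mul_one]
  constructor
  · intro hz c hc
    have h1 := hz c hc 1
    rw [mul_one] at h1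
    rw [← hη c hc]
    unfold cc
    rw [h1, mul_div_assoc, div_self (irr_one_ne_zero χ), mul_one]
  · intro hall c hc g
    have h1 := irr_mul_central χ hc g
    have h2 : c * g = g * c := (Subgroup.mem_center_iff.mp hc g).symm
    rw [h2, h1, hall c hc, hη c hc]

theorem twcol_orth_pos [Fintype ↥(Subgroup.center G)] (η : G → ℂ) (φ₀ : IrrCharacter G)
    (hφ₀ : ZC η φ₀.1) (χ : IrrCharacter G) (hz : ZC η χ.1) :
    ∑ c : ↥(Subgroup.center G), conj (cc φ₀ c) * cc χ c =
      (Nat.card (Subgroup.center G) : ℂ) := by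
  have hall := (twcol_zc_iff η φ₀ hφ₀ χ).mp hz
  have h1 : ∀ c : ↥(Subgroup.center G), conj (cc φ₀ c) * cc χ c = 1 := by
    intro c
    rw [hall c c.2]
    exact twcol_cc_unit φ₀ c c.2
  rw [Finset.sum_congr rfl (fun c _ => h1 c), Finset.sum_const, Finset.card_univ,
    Nat.card_eq_fintype_card, nsmul_eq_mul, mul_one]

theorem twcol_orth_neg [Fintype ↥(Subgroup.center G)] (η : G → ℂ) (φ₀ : IrrCharacter G)
    (hφ₀ : ZC η φ₀.1) (χ : IrrCharacter G) (hz : ¬ ZC η χ.1) :
    ∑ c : ↥(Subgroup.center G), conj (cc φ₀ c) * cc χ c = 0 := by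
  have hex : ∃ c₀ ∈ Subgroup.center G, cc χ c₀ ≠ cc φ₀ c₀ := by
    by_contra hcon
    push Not at hcon
    exact hz ((twcol_zc_iff η φ₀ hφ₀ χ).mpr hcon)
  obtain ⟨c₀, hc₀, hne⟩ := hex
  have hfc₀ : conj (cc φ₀ c₀) * cc χ c₀ ≠ 1 := by
    intro h1
    apply hne
    have h2 := twcol_cc_unit φ₀ c₀ hc₀
    calc cc χ c₀ = (conj (cc φ₀ c₀) * cc φ₀ c₀) * cc χ c₀ := by rw [h2, one_mul]
      _ = cc φ₀ c₀ * (conj (cc φ₀ c₀) * cc χ c₀) := by ring
      _ = cc φ₀ c₀ := by rw [h1, mul_one]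
  have hmul : ∀ c : ↥(Subgroup.center G),
      conj (cc φ₀ ((c * ⟨c₀, hc₀⟩ : ↥(Subgroup.center G)) : G)) *
        cc χ ((c * ⟨c₀, hc₀⟩ : ↥(Subgroup.center G)) : G) =
      (conj (cc φ₀ c) * cc χ c) * (conj (cc φ₀ c₀) * cc χ c₀) := by
    intro c
    rw [Subgroup.coe_mul, cc_mul φ₀ hc₀, cc_mul χ hc₀, map_mul]
    ring
  have hsum : ∑ c : ↥(Subgroup.center G), conj (cc φ₀ c) * cc χ c =
      (∑ c : ↥(Subgroup.center G), conj (cc φ₀ c) * cc χ c) *
        (conj (cc φ₀ c₀) * cc χ c₀) := by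
    rw [Finset.sum_mul]
    rw [← Fintype.sum_equiv (Equiv.mulRight (⟨c₀, hc₀⟩ : ↥(Subgroup.center G)))
      (fun c => conj (cc φ₀ ((c * ⟨c₀, hc₀⟩ : ↥(Subgroup.center G)) : G)) *
        cc χ ((c * ⟨c₀, hc₀⟩ : ↥(Subgroup.center G)) : G))
      (fun c => conj (cc φ₀ c) * cc χ c) (fun c => rfl)]
    exact Finset.sum_congr rfl (fun c _ => hmul c)
  have h3 : (∑ c : ↥(Subgroup.center G), conj (cc φ₀ c) * cc χ c) *
      (1 - conj (cc φ₀ c₀) * cc χ c₀) = 0 := by
    rw [mul_sub, mul_one, ← hsum, sub_self]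
  rcases mul_eq_zero.mp h3 with h0 | h0
  · exact h0
  · exact absurd (sub_eq_zero.mp h0).symm hfc₀

theorem twcol_main [Fintype (IrrCharacter G)] [Fintype ↥(Subgroup.center G)] (p : ℕ)
    [Fact p.Prime] (z : G) (ζ : G → ℂ) (h : Hyp G p z ζ) (hl : Loc G p z ζ) (η : G → ℂ)
    (φ₀ : IrrCharacter G) (hφ₀ : ZC η φ₀.1) (j k : ZMod p) (hk : k ≠ 0) :
    ((j = k ∨ j = -k) → ∑ χ : IrrCharacter G,
        (∑ c : ↥(Subgroup.center G), conj (cc φ₀ c) * cc χ c) *
          (χ.1 (z ^ j.val) * conj (χ.1 (z ^ k.val))) =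
        (Nat.card (Subgroup.center G) : ℂ) * (p : ℂ)) ∧
    (¬ (j = k ∨ j = -k) → ∑ χ : IrrCharacter G,
        (∑ c : ↥(Subgroup.center G), conj (cc φ₀ c) * cc χ c) *
          (χ.1 (z ^ j.val) * conj (χ.1 (z ^ k.val))) = 0) := by
  classical
  have hcol : ∀ c : ↥(Subgroup.center G),
      ∑ χ : IrrCharacter G, cc χ c * (χ.1 (z ^ j.val) * conj (χ.1 (z ^ k.val))) =
      if ((c : G) = 1 ∧ (j = k ∨ j = -k)) then
        ((p : ℂ) * (Nat.card (Subgroup.center G) : ℂ)) else 0 := by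
    intro c
    have h1 : ∑ χ : IrrCharacter G, cc χ c * (χ.1 (z ^ j.val) * conj (χ.1 (z ^ k.val))) =
        ∑ χ : IrrCharacter G, (χ : G → ℂ) (z ^ j.val * c) * conj ((χ : G → ℂ) (z ^ k.val)) := by
      refine Finset.sum_congr rfl (fun χ _ => ?_)
      rw [irr_mul_central χ c.2 (z ^ j.val)]
      ring
    rw [h1]
    by_cases hcj : (c : G) = 1 ∧ (j = k ∨ j = -k)
    · rw [if_pos hcj,
        column_orthogonality_conj ((twcol_conj_iff p z ζ h hl j k hk c c.2).mpr hcj),
        twcol_card_centralizer p z ζ h hl k hk, Nat.cast_mul]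
    · rw [if_neg hcj, column_orthogonality_not_conj
        (fun hc => hcj ((twcol_conj_iff p z ζ h hl j k hk c c.2).mp hc))]
  have hswap : ∑ χ : IrrCharacter G,
        (∑ c : ↥(Subgroup.center G), conj (cc φ₀ c) * cc χ c) *
          (χ.1 (z ^ j.val) * conj (χ.1 (z ^ k.val))) =
      ∑ c : ↥(Subgroup.center G), conj (cc φ₀ c) *
        ∑ χ : IrrCharacter G, cc χ c * (χ.1 (z ^ j.val) * conj (χ.1 (z ^ k.val))) := by
    calc ∑ χ : IrrCharacter G,
        (∑ c : ↥(Subgroup.center G), conj (cc φ₀ c) * cc χ c) *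
          (χ.1 (z ^ j.val) * conj (χ.1 (z ^ k.val)))
        = ∑ χ : IrrCharacter G, ∑ c : ↥(Subgroup.center G),
            conj (cc φ₀ c) * (cc χ c * (χ.1 (z ^ j.val) * conj (χ.1 (z ^ k.val)))) := by
          refine Finset.sum_congr rfl (fun χ _ => ?_)
          rw [Finset.sum_mul]
          refine Finset.sum_congr rfl (fun c _ => ?_)
          ring
      _ = ∑ c : ↥(Subgroup.center G), ∑ χ : IrrCharacter G,
            conj (cc φ₀ c) * (cc χ c * (χ.1 (z ^ j.val) * conj (χ.1 (z ^ k.val)))) :=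
          Finset.sum_comm
      _ = _ := by
          refine Finset.sum_congr rfl (fun c _ => ?_)
          rw [Finset.mul_sum]
  have h1c : conj (cc φ₀ ((1 : ↥(Subgroup.center G)) : G)) = 1 := by
    rw [Subgroup.coe_one, cc_one, map_one]
  have hsingle : ∑ c : ↥(Subgroup.center G), conj (cc φ₀ c) *
        ∑ χ : IrrCharacter G, cc χ c * (χ.1 (z ^ j.val) * conj (χ.1 (z ^ k.val))) =
      ∑ χ : IrrCharacter G, cc χ ((1 : ↥(Subgroup.center G)) : G) *
        (χ.1 (z ^ j.val) * conj (χ.1 (z ^ k.val))) := by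
    rw [Finset.sum_eq_single (1 : ↥(Subgroup.center G))]
    · rw [h1c, one_mul]
    · intro c _ hc1
      rw [hcol c, if_neg, mul_zero]
      intro h'
      exact hc1 (Subtype.ext h'.1)
    · intro h'
      exact absurd (Finset.mem_univ _) h'
  rw [hswap, hsingle, hcol 1]
  constructor
  · intro hjk
    rw [if_pos ⟨Subgroup.coe_one _, hjk⟩, mul_comm]
  · intro hjk
    rw [if_neg (fun h' => hjk h'.2)]

/-- PIECE TWCOL -/
theorem twcol [Fintype (IrrCharacter G)] (p : ℕ) [Fact p.Prime] (z : G) (ζ : G → ℂ)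
    (h : Hyp G p z ζ) (hl : Loc G p z ζ) (η : G → ℂ) (φ₀ : IrrCharacter G) (hφ₀ : ZC η φ₀.1) :
    TwCol p z η := by
  intro j k hk
  haveI : Fintype ↥(Subgroup.center G) := Fintype.ofFinite _
  obtain ⟨hyes, hno⟩ := twcol_main p z ζ h hl η φ₀ hφ₀ j k hk
  have hZ0 : (Nat.card (Subgroup.center G) : ℂ) ≠ 0 := by
    have h1 : 0 < Nat.card (Subgroup.center G) := Nat.card_pos
    exact_mod_cast h1.ne'
  have hB : ∀ (χ : IrrCharacter G) (inst : Decidable (ZC η χ.1)),
      (Nat.card (Subgroup.center G) : ℂ) *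
        (@ite ℂ (ZC η χ.1) inst (χ.1 (z ^ j.val) * conj (χ.1 (z ^ k.val))) 0) =
      (∑ c : ↥(Subgroup.center G), conj (cc φ₀ c) * cc χ c) *
        (χ.1 (z ^ j.val) * conj (χ.1 (z ^ k.val))) := by
    intro χ inst
    by_cases hz : ZC η χ.1
    · rw [if_pos hz, twcol_orth_pos η φ₀ hφ₀ χ hz]
    · rw [if_neg hz, twcol_orth_neg η φ₀ hφ₀ χ hz, zero_mul, mul_zero]
  apply mul_left_cancel₀ hZ0
  rw [Finset.mul_sum]
  refine (Finset.sum_congr rfl (fun χ _ => hB χ _)).trans ?_
  by_cases hjk : j = k ∨ j = -k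
  · rw [if_pos hjk, hyes hjk]
  · rw [if_neg hjk, hno hjk, mul_zero]

end Cfsg.Agent.Lib.Helper82.PT
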