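import Cfsg.Agent.Lib.Helper87.PiUNIC
import Cfsg.Agent.Lib.Helper53.PiU3
import Cfsg.Agent.Lib.Lead.PiU1
import Cfsg.Agent.Lib.Lead.PiU2
import Cfsg.Agent.Lib.Lead.PiU4

/-!
Project PM (S5991, helper96), piece UNIDA (helper82): arithmetic of the Jordan invariants of a
unipotent isometry `T` with `(T - 1)^3 = 0`, `rank (T - 1)^2 ≤ 1` and
`ker (T - 1) ≤ range (T - 1) + ⟨u₁⟩`: for an invariant nondegenerate subspace `W` of odd
dimension, `X = W` or `X = W^⊥` satisfies `(T - 1)^2 X = 0` and `dim X = 2 rank + 1`.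
-/

set_option autoImplicit false
set_option linter.unusedSectionVars false
set_option linter.unusedVariables false

namespace Cfsg.Agent.Lib.Helper82.Pm

open Module Cfsg.Agent.Lib.Helper96.Sp Cfsg.Agent.Lib.Helper96.BG Cfsg.Agent.Lib.Helper96.Hy
  Cfsg.Agent.Lib.Helper96.Pi Cfsg.Agent.Lib.Helper47

universe u

variable {F : Type u} [Field F] [Fintype F] {V : Type u} [AddCommGroup V] [Module F V]
  [FiniteDimensional F V] {B : LinearMap.BilinForm F V}

/-- the kernel is at most one dimension bigger than `ker ⊓ range` -/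
theorem unida_ker_le (N : Module.End F V) (u₁ : V) (hu₁ : N u₁ = 0)
    (hker : LinearMap.ker N ≤ LinearMap.range N ⊔ Submodule.span F {u₁}) :
    finrank F (LinearMap.ker N) ≤ finrank F ↥(LinearMap.ker N ⊓ LinearMap.range N) + 1 := by
  have hkle : LinearMap.ker N ≤
      (LinearMap.ker N ⊓ LinearMap.range N) ⊔ Submodule.span F {u₁} := by
    intro k hk
    obtain ⟨ρ, hρ, z, hz, rfl⟩ := Submodule.mem_sup.mp (hker hk)
    obtain ⟨c, rfl⟩ := Submodule.mem_span_singleton.mp hz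
    have hρk : ρ ∈ LinearMap.ker N := by
      rw [LinearMap.mem_ker] at hk ⊢
      rw [map_add, map_smul, hu₁, smul_zero, add_zero] at hk
      exact hk
    exact Submodule.mem_sup.mpr ⟨ρ, Submodule.mem_inf.mpr ⟨hρk, hρ⟩, c • u₁,
      Submodule.mem_span_singleton.mpr ⟨c, rfl⟩, rfl⟩
  have h1 := Submodule.finrank_mono hkle
  have h2 := Submodule.finrank_add_le_finrank_add_finrank
    (LinearMap.ker N ⊓ LinearMap.range N) (Submodule.span F {u₁})
  have h3 : finrank F (Submodule.span F {u₁}) ≤ 1 := by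
    by_cases h0 : u₁ = 0
    · rw [h0, Submodule.span_zero_singleton, finrank_bot]
      exact Nat.zero_le 1
    · rw [finrank_span_singleton h0]
  omega

-- PIECE UNIDA
theorem unip_D_arith (hS : B.IsSymm) (h2 : (2 : F) ≠ 0) (hN : ND B ⊤)
    (hev : Even (finrank F V)) (T : Module.End F V) (hT : Isom B T) (hN3 : (T - 1) ^ 3 = 0)
    (u₁ : V) (hu₁ : (T - 1) u₁ = 0)
    (hker : LinearMap.ker (T - 1) ≤ LinearMap.range (T - 1) ⊔ Submodule.span F {u₁})
    (hr2 : finrank F (LinearMap.range ((T - 1) * (T - 1))) ≤ 1)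
    (W : Submodule F V) (hW : ND B W) (hWT : W.map T ≤ W) (hodd : Odd (finrank F W)) :
    ∃ X : Submodule F V,
      ((X = W ∧ finrank F W % 4 = 1) ∨ (X = B.orthogonal W ∧ finrank F W % 4 = 3)) ∧
      ND B X ∧ X.map T ≤ X ∧ X.map ((T - 1) * (T - 1)) = ⊥ ∧
      finrank F X = 2 * finrank F (X.map (T - 1)) + 1 := by
  obtain ⟨hc, hWN, hW'N, hsum⟩ := Cfsg.Agent.Lib.Helper87.Pi.unip_setup hS h2 hN T hT W hW hWT
  have hW' : ND B (B.orthogonal W) := Cfsg.Agent.Lib.Helper98.O72.nd_perp hS h2 hN hW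
  have hW'T : (B.orthogonal W).map T ≤ B.orthogonal W := by
    rintro _ ⟨w, hw, rfl⟩
    have h1 : (T - 1) w ∈ B.orthogonal W := hW'N ⟨w, hw, rfl⟩
    have e : T w = (T - 1) w + w := by
      rw [LinearMap.sub_apply, Module.End.one_apply, sub_add_cancel]
    rw [e]
    exact Submodule.add_mem _ h1 hw
  have hrn := LinearMap.finrank_range_add_finrank_ker (T - 1)
  have hk := Cfsg.Agent.Lib.Lead.Pi.finrank_ker_inf_range (T - 1)
  have hkk := unida_ker_le (T - 1) u₁ hu₁ hker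
  have ha := Cfsg.Agent.Lib.Lead.Pi.finrank_range_of_compl (T - 1) W (B.orthogonal W) hc hWN hW'N
  have hWNN : W.map ((T - 1) * (T - 1)) ≤ W := by
    rintro _ ⟨w, hw, rfl⟩
    exact hWN ⟨(T - 1) w, hWN ⟨w, hw, rfl⟩, rfl⟩
  have hW'NN : (B.orthogonal W).map ((T - 1) * (T - 1)) ≤ B.orthogonal W := by
    rintro _ ⟨w, hw, rfl⟩
    exact hW'N ⟨(T - 1) w, hW'N ⟨w, hw, rfl⟩, rfl⟩
  have ha2 := Cfsg.Agent.Lib.Lead.Pi.finrank_range_of_compl ((T - 1) * (T - 1)) W
    (B.orthogonal W) hc hWNN hW'NN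
  have h1 := Cfsg.Agent.Lib.Lead.Pi.two_rank_le (T - 1) W hWN
  have h3 := Cfsg.Agent.Lib.Lead.Pi.two_rank_le (T - 1) (B.orthogonal W) hW'N
  obtain ⟨k, hk'⟩ := hodd
  obtain ⟨t, ht⟩ := hev
  obtain ⟨j, hj⟩ := Cfsg.Agent.Lib.Helper53.Pi.even_rank_unip hS h2 T hT hN3 W hW hWT
  obtain ⟨j', hj'⟩ := Cfsg.Agent.Lib.Helper53.Pi.even_rank_unip hS h2 T hT hN3 (B.orthogonal W)
    hW' hW'T
  by_cases hb : finrank F (W.map ((T - 1) * (T - 1))) = 0
  · refine ⟨W, Or.inl ⟨rfl, by omega⟩, hW, hWT, Submodule.finrank_eq_zero.mp hb, by omega⟩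
  · have hb' : finrank F ((B.orthogonal W).map ((T - 1) * (T - 1))) = 0 := by omega
    refine ⟨B.orthogonal W, Or.inr ⟨rfl, by omega⟩, hW', hW'T,
      Submodule.finrank_eq_zero.mp hb', by omega⟩

end Cfsg.Agent.Lib.Helper82.Pm
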