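import Cfsg.Agent.Lib.Helper82.ClassPair
import Cfsg.Agent.Lib.Helper82.Major
import Cfsg.Agent.Lib.Helper22.FMT
import Cfsg.Agent.Lib.Helper79.Blk5
import Cfsg.Agent.S0931
import Cfsg.Agent.S4491

/-!
# Robinson's theorem on the number of blocks with a given normal defect group (helper82)

The complex-number part: the matrix of class-pair counts is congruent, modulo the local
ideal, to a product `U * V` indexed by the blocks with defect group `D`, where `U` and `V`
have one-sided inverses modulo the local ideal.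
-/

set_option autoImplicit false

namespace Cfsg.Agent.Lib.Helper82

open Cfsg Cfsg.Agent.Lib.Helper21 Cfsg.Agent.Lib.Helper22
open scoped ComplexConjugate

section Rob

variable {G : Type*} [Group G]

theorem rob_ppart (p : ℕ) (hp : p.Prime) (n : ℕ) (hn : n ≠ 0) :
    ∃ u : ℕ, ¬ p ∣ u ∧ n = p ^ n.factorization p * u :=
  ⟨n / p ^ n.factorization p, Nat.not_dvd_ordCompl hp hn,
    (Nat.ordProj_mul_ordCompl_eq_self n p).symm⟩

theorem rob_centralizer_inv (g : G) :
    Subgroup.centralizer ({g⁻¹} : Set G) = Subgroup.centralizer ({g} : Set G) := by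
  ext z
  rw [mem_centralizer_singleton_iff', mem_centralizer_singleton_iff']
  constructor
  · intro h
    have h1 : z * g = g * z := by
      calc z * g = g * (g⁻¹ * z) * g := by group
        _ = g * (z * g⁻¹) * g := by rw [h]
        _ = g * z := by group
    exact h1.symm
  · intro h
    calc g⁻¹ * z = g⁻¹ * (z * g) * g⁻¹ := by group
      _ = g⁻¹ * (g * z) * g⁻¹ := by rw [h]
      _ = z * g⁻¹ := by group

variable [Fintype G] [Fintype (IrrCharacter G)] {p : ℕ} [Fact p.Prime] {M : Ideal AlgInt}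

open scoped Classical in
/-- Divisibility of the class-pair count and its expression through central characters. -/
theorem rob_div (S : Sylow p G) (x y : G) (a d cy : ℕ)
    (hS : Nat.card (S : Subgroup G) = p ^ a) (hda : d ≤ a)
    (hCy : Nat.card (Subgroup.centralizer ({y} : Set G)) = p ^ d * cy) (hcy : ¬ p ∣ cy)
    (m : IrrCharacter G → ℕ)
    (hm : ∀ χ : IrrCharacter G,
      ∑ g : G, (if g ∈ (S : Subgroup G) then (χ : G → ℂ) g else 0) =
        (Nat.card (S : Subgroup G) : ℂ) * (m χ : ℂ)) :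
    p ^ (a - d) ∣ Nat.card {yz : G × G //
        IsConj x yz.1 ∧ IsConj y yz.2 ∧ yz.2 * yz.1⁻¹ ∈ (S : Subgroup G)} ∧
    (cy : ℂ) * ((Nat.card {yz : G × G //
        IsConj x yz.1 ∧ IsConj y yz.2 ∧ yz.2 * yz.1⁻¹ ∈ (S : Subgroup G)} / p ^ (a - d) : ℕ) : ℂ) =
      ∑ χ : IrrCharacter G, centralChar (χ : G → ℂ) x⁻¹ * (χ : G → ℂ) y * (m χ : ℂ) := by
  have hp : p.Prime := Fact.out
  have hp0 : (p : ℂ) ≠ 0 := by exact_mod_cast hp.ne_zero
  obtain ⟨w, hw⟩ : ∃ w : ℕ, w = Nat.card {yz : G × G //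
      IsConj x yz.1 ∧ IsConj y yz.2 ∧ yz.2 * yz.1⁻¹ ∈ (S : Subgroup G)} := ⟨_, rfl⟩
  rw [← hw]
  have hid := pair_identity (S : Subgroup G) x y
  rw [← hw] at hid
  have hG0 : (Nat.card G : ℂ) ≠ 0 := by exact_mod_cast Nat.card_pos.ne'
  have hCx0 : (Nat.card (Subgroup.centralizer ({x} : Set G)) : ℂ) ≠ 0 := by
    exact_mod_cast Nat.card_pos.ne'
  have hidx : ((Subgroup.centralizer ({x} : Set G)).index : ℂ) =
      (Nat.card G : ℂ) / (Nat.card (Subgroup.centralizer ({x} : Set G)) : ℂ) := by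
    rw [eq_div_iff hCx0, mul_comm]
    exact_mod_cast Subgroup.card_mul_index (Subgroup.centralizer ({x} : Set G))
  have hpa : (p : ℂ) ^ a = (p : ℂ) ^ (a - d) * (p : ℂ) ^ d := by
    rw [← pow_add]
    congr 1
    omega
  have hT : (p : ℂ) ^ (a - d) *
      ∑ χ : IrrCharacter G, centralChar (χ : G → ℂ) x⁻¹ * (χ : G → ℂ) y * (m χ : ℂ) =
      (cy : ℂ) * (w : ℂ) := by
    have h1 : ∀ χ : IrrCharacter G, centralChar (χ : G → ℂ) x⁻¹ * (χ : G → ℂ) y * (m χ : ℂ) =
        (Nat.card G : ℂ) / (Nat.card (Subgroup.centralizer ({x} : Set G)) : ℂ) / (p : ℂ) ^ a *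
          ((χ : G → ℂ) y * (χ : G → ℂ) x⁻¹ / (χ : G → ℂ) 1 *
            ∑ g : G, (if g ∈ (S : Subgroup G) then (χ : G → ℂ) g else 0)) := by
      intro χ
      rw [hm χ, hS]
      unfold centralChar
      rw [rob_centralizer_inv, hidx]
      have h3 : (χ : G → ℂ) 1 ≠ 0 := Cfsg.Agent.Lib.Helper82.irr_one_ne_zero χ
      push_cast
      field_simp
    rw [Finset.sum_congr rfl (fun χ _ => h1 χ), ← Finset.mul_sum, hid, hCy]
    push_cast
    rw [hpa]
    field_simp
  have hTint : IsIntegral ℤ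
      (∑ χ : IrrCharacter G, centralChar (χ : G → ℂ) x⁻¹ * (χ : G → ℂ) y * (m χ : ℂ)) := by
    refine IsIntegral.sum _ fun χ _ => ?_
    exact ((irr_centralChar_isIntegral χ _).mul (irr_isIntegral χ _)).mul (isIntegral_natCast _)
  have hppos : 0 < p ^ (a - d) := pow_pos hp.pos _
  have hdvd1 : p ^ (a - d) ∣ cy * w := by
    apply isIntegral_div_imp_dvd (cy * w) (p ^ (a - d)) hppos.ne'
    have h2 : ((cy * w : ℕ) : ℂ) / ((p ^ (a - d) : ℕ) : ℂ) =
        ∑ χ : IrrCharacter G, centralChar (χ : G → ℂ) x⁻¹ * (χ : G → ℂ) y * (m χ : ℂ) := by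
      push_cast
      rw [← hT]
      field_simp
    rw [h2]
    exact hTint
  have hcop : Nat.Coprime (p ^ (a - d)) cy :=
    Nat.Coprime.pow_left _ ((Nat.Prime.coprime_iff_not_dvd hp).mpr hcy)
  have hdvd : p ^ (a - d) ∣ w := hcop.dvd_of_dvd_mul_left hdvd1
  refine ⟨hdvd, ?_⟩
  obtain ⟨Z, hZ⟩ := hdvd
  rw [hZ, Nat.mul_div_cancel_left Z hppos]
  rw [hZ] at hT
  push_cast at hT
  have hpp : (p : ℂ) ^ (a - d) ≠ 0 := pow_ne_zero _ hp0
  have h5 : (p : ℂ) ^ (a - d) *
      ∑ χ : IrrCharacter G, centralChar (χ : G → ℂ) x⁻¹ * (χ : G → ℂ) y * (m χ : ℂ) =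
      (p : ℂ) ^ (a - d) * ((cy : ℂ) * (Z : ℂ)) := by
    rw [hT]
    ring
  exact (mul_left_cancel₀ hpp h5).symm

/-- The contribution of one character, modulo the local ideal. -/
theorem rob_term (hM : IsPModular p M) (χ : IrrCharacter G) (gi gj : G) (a d e : ℕ)
    (nn ki kj mm : ℕ) (hnn : ¬ p ∣ nn) (hki : ¬ p ∣ ki) (hkj : ¬ p ∣ kj)
    (h1 : charDegree (χ : G → ℂ) = p ^ e * nn)
    (hIi : (Subgroup.centralizer ({gi} : Set G)).index = p ^ (a - d) * ki)
    (hIj : (Subgroup.centralizer ({gj} : Set G)).index = p ^ (a - d) * kj) :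
    (e = a - d → (kj : ℂ) * centralChar (χ : G → ℂ) gi * (χ : G → ℂ) gj * (mm : ℂ) =
      centralChar (χ : G → ℂ) gi * centralChar (χ : G → ℂ) gj * (mm : ℂ) * (nn : ℂ)) ∧
    (e ≠ a - d →
      MemLocalIdeal M ((kj : ℂ) * centralChar (χ : G → ℂ) gi * (χ : G → ℂ) gj * (mm : ℂ))) := by
  have hp : p.Prime := Fact.out
  have hp0 : (p : ℂ) ≠ 0 := by exact_mod_cast hp.ne_zero
  have hpI : MemLocalIdeal M (p : ℂ) := (locIdeal_natCast_iff hM p).mpr (dvd_refl p)
  have hχ1 : (χ : G → ℂ) 1 = (p : ℂ) ^ e * (nn : ℂ) := by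
    rw [← (irr_charDegree χ).1, h1]
    push_cast
    rfl
  have hIi' : ((Subgroup.centralizer ({gi} : Set G)).index : ℂ) = (p : ℂ) ^ (a - d) * (ki : ℂ) := by
    rw [hIi]
    push_cast
    rfl
  have hIj' : ((Subgroup.centralizer ({gj} : Set G)).index : ℂ) = (p : ℂ) ^ (a - d) * (kj : ℂ) := by
    rw [hIj]
    push_cast
    rfl
  have hn0 : (nn : ℂ) ≠ 0 := by
    have h0 : nn ≠ 0 := fun h => hnn (h ▸ dvd_zero p)
    exact_mod_cast h0
  have hkj0 : (kj : ℂ) ≠ 0 := by
    have h0 : kj ≠ 0 := fun h => hkj (h ▸ dvd_zero p)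
    exact_mod_cast h0
  have hωR : ∀ g : G, MemLocalRing M (centralChar (χ : G → ℂ) g) :=
    fun g => locRing_of_isIntegral hM (irr_centralChar_isIntegral χ g)
  have hχR : ∀ g : G, MemLocalRing M ((χ : G → ℂ) g) :=
    fun g => locRing_of_isIntegral hM (irr_isIntegral χ g)
  refine ⟨fun he => ?_, fun hne => ?_⟩
  · unfold centralChar
    rw [hIi', hIj', hχ1, he]
    field_simp
  · rcases Nat.lt_or_ge e (a - d) with hlt | hge
    · obtain ⟨s, hs⟩ : ∃ s, a - d = e + (s + 1) := ⟨a - d - e - 1, by omega⟩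
      have h2 : (kj : ℂ) * centralChar (χ : G → ℂ) gi * (χ : G → ℂ) gj * (mm : ℂ) =
          ((kj : ℂ) * (ki : ℂ) * (χ : G → ℂ) gi * (χ : G → ℂ) gj * (mm : ℂ) * (p : ℂ) ^ s *
            (nn : ℂ)⁻¹) * (p : ℂ) := by
        unfold centralChar
        rw [hIi', hχ1, hs]
        field_simp
        ring
      rw [h2]
      refine locIdeal_mul_left hM ?_ hpI
      exact locRing_mul hM (locRing_mul hM (locRing_mul hM (locRing_mul hM (locRing_mul hM
        (locRing_mul hM (locRing_natCast hM _) (locRing_natCast hM _)) (hχR _)) (hχR _))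
        (locRing_natCast hM _)) (locRing_pow hM (locRing_natCast hM p) s))
        (locRing_inv_natCast hM hnn)
    · obtain ⟨s, hs⟩ : ∃ s, e = (a - d) + (s + 1) := ⟨e - (a - d) - 1, by omega⟩
      have h2 : (kj : ℂ) * centralChar (χ : G → ℂ) gi * (χ : G → ℂ) gj * (mm : ℂ) =
          (centralChar (χ : G → ℂ) gi * centralChar (χ : G → ℂ) gj * (mm : ℂ) * (nn : ℂ) *
            (p : ℂ) ^ s) * (p : ℂ) := by
        have h3 : (χ : G → ℂ) gj * (kj : ℂ) =
            centralChar (χ : G → ℂ) gj * (nn : ℂ) * (p : ℂ) ^ s * (p : ℂ) := by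
          unfold centralChar
          rw [hIj', hχ1, hs]
          field_simp
          ring
        calc (kj : ℂ) * centralChar (χ : G → ℂ) gi * (χ : G → ℂ) gj * (mm : ℂ)
            = centralChar (χ : G → ℂ) gi * ((χ : G → ℂ) gj * (kj : ℂ)) * (mm : ℂ) := by ring
          _ = _ := by rw [h3]; ring
      rw [h2]
      refine locIdeal_mul_left hM ?_ hpI
      exact locRing_mul hM (locRing_mul hM (locRing_mul hM (locRing_mul hM (hωR _) (hωR _))
        (locRing_natCast hM _)) (locRing_natCast hM _)) (locRing_pow hM (locRing_natCast hM p) s)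

/-- A character of good degree with a unit central character value at an element whose
centralizer has Sylow `p`-subgroup `D` lies in a block with defect group `D`. -/
theorem rob_block (hM : IsPModular p M) (D : Subgroup G) (a d : ℕ)
    (ha : a = (Nat.card G).factorization p) (hd : Nat.card D = p ^ d) (hda : d ≤ a) (g : G)
    (hg : IsSylowOf p (Subgroup.centralizer ({g} : Set G)) D) (χ : IrrCharacter G)
    (hχ : (charDegree (χ : G → ℂ)).factorization p = a - d)
    (h : ¬ MemLocalIdeal M (centralChar (χ : G → ℂ) g)) :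
    IsDefectGroup p M (blockOf M (χ : G → ℂ)) D := by
  have hp : p.Prime := Fact.out
  have hB : IsPBlock M (blockOf M (χ : G → ℂ)) := ⟨χ, rfl⟩
  have hfB : χ ∈ blockOf M (χ : G → ℂ) := Cfsg.Agent.Lib.Helper79.mem_blockOf_self hM χ
  obtain ⟨D₁, hD₁⟩ := Cfsg.Agent.S0931.exists_defectGroup p M hM _ hB
  obtain ⟨t, ht⟩ := exists_conj_le_centralizer_of_centralChar_unit hM _ hB D₁ hD₁ χ hfB g h
  have hD₂ := isDefectGroup_conj (M := M) (p := p) _ D₁ t hD₁
  have hcard₂ := card_defectGroup hM _ hB _ hD₂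
  have hD₂p := isDefectGroup_isPGroup _ _ hD₂
  have hdvd := card_dvd_of_isSylowOf hg hD₂p ht
  rw [hcard₂, hd] at hdvd
  have hbd_le : blockDefect p (blockOf M (χ : G → ℂ)) ≤ d :=
    (Nat.pow_dvd_pow_iff_le_right hp.one_lt).mp hdvd
  have hsInf_le : sInf ((fun χ : IrrCharacter G => (charDegree (χ : G → ℂ)).factorization p) ''
      blockOf M (χ : G → ℂ)) ≤ a - d := by
    rw [← hχ]
    exact Nat.sInf_le ⟨χ, hfB, rfl⟩
  have hbd : blockDefect p (blockOf M (χ : G → ℂ)) =
      a - sInf ((fun χ : IrrCharacter G => (charDegree (χ : G → ℂ)).factorization p) ''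
        blockOf M (χ : G → ℂ)) := by
    unfold blockDefect
    rw [ha]
  have hbd_eq : blockDefect p (blockOf M (χ : G → ℂ)) = d := by omega
  have hsyl₂ : IsSylowOf p (Subgroup.centralizer ({g} : Set G))
      (D₁.map (MulAut.conj t).toMonoidHom) := by
    rw [isSylowOf_iff]
    refine ⟨ht, ?_⟩
    rw [hcard₂, hbd_eq, ← hd, hg.card]
  obtain ⟨z, hz, hDz⟩ := exists_conj_of_isSylowOf hsyl₂ hg
  rw [hDz]
  exact isDefectGroup_conj (M := M) (p := p) _ _ z hD₂

open scoped Classical in
/-- The unit attached to a block with defect group `D`. -/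
theorem rob_unit (hM : IsPModular p M) (S : Sylow p G) (D : Subgroup G) (a d : ℕ)
    (ha : a = (Nat.card G).factorization p) (hd : Nat.card D = p ^ d) (hda : d ≤ a)
    (B : Set (IrrCharacter G)) (hB : IsPBlock M B) (hBD : IsDefectGroup p M B D)
    (m n : IrrCharacter G → ℕ)
    (hm : ∀ χ : IrrCharacter G,
      ∑ g : G, (if g ∈ (S : Subgroup G) then (χ : G → ℂ) g else 0) =
        (Nat.card (S : Subgroup G) : ℂ) * (m χ : ℂ))
    (hn : ∀ χ : IrrCharacter G, charDegree (χ : G → ℂ) =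
      p ^ (charDegree (χ : G → ℂ)).factorization p * n χ) :
    (∀ χ ∈ B, a - d ≤ (charDegree (χ : G → ℂ)).factorization p) ∧
    ¬ p ∣ ∑ χ : IrrCharacter G,
      (if χ ∈ B ∧ (charDegree (χ : G → ℂ)).factorization p = a - d then m χ * n χ else 0) := by
  have hp : p.Prime := Fact.out
  have hSa : Nat.card (S : Subgroup G) = p ^ a := by
    rw [ha]
    exact S.card_eq_multiplicity
  have hbd : blockDefect p B = d := by
    have h1 := card_defectGroup hM B hB D hBD
    rw [hd] at h1
    exact (Nat.pow_right_injective hp.two_le h1).symm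
  have hge : ∀ χ ∈ B, a - d ≤ (charDegree (χ : G → ℂ)).factorization p := by
    intro χ hχ
    have h1 : sInf ((fun χ : IrrCharacter G => (charDegree (χ : G → ℂ)).factorization p) '' B) ≤
        (charDegree (χ : G → ℂ)).factorization p := Nat.sInf_le ⟨χ, hχ, rfl⟩
    have h2 : blockDefect p B = a -
        sInf ((fun χ : IrrCharacter G => (charDegree (χ : G → ℂ)).factorization p) '' B) := by
      unfold blockDefect
      rw [ha]
    omega
  refine ⟨hge, ?_⟩
  have h491 := Cfsg.Agent.S4491.result p M hM B hB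
  rw [hbd, ← ha] at h491
  have hQ : ∑ᶠ χ ∈ B, charDegree (χ : G → ℂ) ^ 2 =
      ∑ χ : IrrCharacter G, (if χ ∈ B then charDegree (χ : G → ℂ) ^ 2 else 0) := by
    rw [Cfsg.Agent.Lib.Helper79.finsum_mem_eq_sum_filter_univ, Finset.sum_filter]
  rw [hQ] at h491
  -- the sum over `S`
  have hsum1 : ∑ χ : IrrCharacter G, (if χ ∈ B then (χ : G → ℂ) 1 *
      ∑ g : G, (if g ∈ (S : Subgroup G) then (χ : G → ℂ) g else 0) else 0) =
      ∑ χ : IrrCharacter G, (if χ ∈ B then (χ : G → ℂ) 1 * (χ : G → ℂ) 1 else 0) := by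
    have h1 : ∀ χ : IrrCharacter G, (if χ ∈ B then (χ : G → ℂ) 1 *
        ∑ g : G, (if g ∈ (S : Subgroup G) then (χ : G → ℂ) g else 0) else 0) =
        ∑ g : G, (if g ∈ (S : Subgroup G) then
          (if χ ∈ B then (χ : G → ℂ) 1 * (χ : G → ℂ) g else 0) else 0) := by
      intro χ
      by_cases hχ : χ ∈ B
      · simp only [if_pos hχ]
        rw [Finset.mul_sum]
        refine Finset.sum_congr rfl fun g _ => ?_
        split_ifs
        · rfl
        · rw [mul_zero]
      · simp only [if_neg hχ]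
        simp
    rw [Finset.sum_congr rfl (fun χ _ => h1 χ), Finset.sum_comm]
    rw [Finset.sum_eq_single (1 : G)]
    · simp only [if_pos (one_mem (S : Subgroup G))]
    · intro g _ hg1
      by_cases hg : g ∈ (S : Subgroup G)
      · simp only [if_pos hg]
        have hsing : p ∣ orderOf g := by
          obtain ⟨k, hk⟩ := (IsPGroup.iff_orderOf.mp S.isPGroup') ⟨g, hg⟩
          rw [Subgroup.orderOf_mk] at hk
          cases k with
          | zero =>
            exfalso
            apply hg1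
            rw [pow_zero, orderOf_eq_one_iff] at hk
            exact hk
          | succ k =>
            rw [hk]
            exact dvd_pow_self p (Nat.succ_ne_zero k)
        have h0 := weak_block_orth hM B hB 1 g⁻¹
          (by rw [orderOf_one]; exact hp.not_dvd_one) (by rw [orderOf_inv]; exact hsing)
        rw [Cfsg.Agent.Lib.Helper79.finsum_mem_eq_sum_filter_univ, Finset.sum_filter] at h0
        refine Eq.trans ?_ h0
        refine Finset.sum_congr rfl fun χ _ => ?_
        by_cases hχ : χ ∈ B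
        · rw [if_pos hχ, if_pos hχ, Cfsg.Agent.Lib.Helper82.irr_inv χ g, Complex.conj_conj]
        · rw [if_neg hχ, if_neg hχ]
      · simp only [if_neg hg]
        exact Finset.sum_const_zero
    · intro h
      exact absurd (Finset.mem_univ _) h
  have hT : p ^ a * ∑ χ : IrrCharacter G,
      (if χ ∈ B then charDegree (χ : G → ℂ) * m χ else 0) =
      ∑ χ : IrrCharacter G, (if χ ∈ B then charDegree (χ : G → ℂ) ^ 2 else 0) := by
    have hC : ((p ^ a * ∑ χ : IrrCharacter G,
        (if χ ∈ B then charDegree (χ : G → ℂ) * m χ else 0) : ℕ) : ℂ) =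
        ((∑ χ : IrrCharacter G, (if χ ∈ B then charDegree (χ : G → ℂ) ^ 2 else 0) : ℕ) : ℂ) := by
      have e1 : ((p ^ a * ∑ χ : IrrCharacter G,
          (if χ ∈ B then charDegree (χ : G → ℂ) * m χ else 0) : ℕ) : ℂ) =
          ∑ χ : IrrCharacter G, (if χ ∈ B then (χ : G → ℂ) 1 *
            ∑ g : G, (if g ∈ (S : Subgroup G) then (χ : G → ℂ) g else 0) else 0) := by
        rw [Nat.cast_mul, Nat.cast_sum, Finset.mul_sum]
        refine Finset.sum_congr rfl fun χ _ => ?_
        by_cases hχ : χ ∈ B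
        · rw [if_pos hχ, if_pos hχ, hm χ, hSa, ← (irr_charDegree χ).1]
          push_cast
          ring
        · rw [if_neg hχ, if_neg hχ]
          simp
      have e2 : ((∑ χ : IrrCharacter G,
          (if χ ∈ B then charDegree (χ : G → ℂ) ^ 2 else 0) : ℕ) : ℂ) =
          ∑ χ : IrrCharacter G, (if χ ∈ B then (χ : G → ℂ) 1 * (χ : G → ℂ) 1 else 0) := by
        rw [Nat.cast_sum]
        refine Finset.sum_congr rfl fun χ _ => ?_
        by_cases hχ : χ ∈ B
        · rw [if_pos hχ, if_pos hχ, ← (irr_charDegree χ).1]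
          push_cast
          ring
        · rw [if_neg hχ, if_neg hχ]
          simp
      rw [e1, e2, hsum1]
    exact_mod_cast hC
  obtain ⟨T, hTdef⟩ : ∃ T : ℕ, T = ∑ χ : IrrCharacter G,
      (if χ ∈ B then charDegree (χ : G → ℂ) * m χ else 0) := ⟨_, rfl⟩
  obtain ⟨Q, hQdef⟩ : ∃ Q : ℕ, Q = ∑ χ : IrrCharacter G,
      (if χ ∈ B then charDegree (χ : G → ℂ) ^ 2 else 0) := ⟨_, rfl⟩
  rw [← hTdef, ← hQdef] at hT
  rw [← hQdef] at h491
  have hQpos : 0 < Q := by
    obtain ⟨χ₀, hχ₀⟩ := hB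
    have hχ₀B : χ₀ ∈ B := by
      rw [hχ₀]
      exact Cfsg.Agent.Lib.Helper79.mem_blockOf_self hM χ₀
    rw [hQdef]
    refine Finset.sum_pos' (fun χ _ => Nat.zero_le _) ⟨χ₀, Finset.mem_univ _, ?_⟩
    rw [if_pos hχ₀B]
    exact pow_pos (Nat.pos_of_ne_zero (irr_charDegree χ₀).2) 2
  have hT0 : T ≠ 0 := by
    rintro rfl
    rw [mul_zero] at hT
    omega
  have hvT : T.factorization p = a - d := by
    have h1 : (p ^ a * T).factorization p = a + T.factorization p := by
      rw [Nat.factorization_mul (pow_pos hp.pos a).ne' hT0, Finsupp.add_apply,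
        hp.factorization_pow]
      simp
    rw [hT, h491] at h1
    omega
  intro hdvd
  obtain ⟨C', hC'⟩ := hdvd
  have hr : ∀ χ : IrrCharacter G, ∃ r : ℕ,
      (if χ ∈ B then charDegree (χ : G → ℂ) * m χ else 0) =
        p ^ (a - d) * (if χ ∈ B ∧ (charDegree (χ : G → ℂ)).factorization p = a - d
          then m χ * n χ else 0) + p ^ (a - d + 1) * r := by
    intro χ
    by_cases hχ : χ ∈ B
    · by_cases he : (charDegree (χ : G → ℂ)).factorization p = a - d
      · refine ⟨0, ?_⟩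
        rw [if_pos hχ, if_pos ⟨hχ, he⟩]
        have h1 := hn χ
        rw [he] at h1
        rw [h1]
        ring
      · have h2 := hge χ hχ
        obtain ⟨s, hs⟩ : ∃ s, (charDegree (χ : G → ℂ)).factorization p = (a - d + 1) + s :=
          ⟨(charDegree (χ : G → ℂ)).factorization p - (a - d + 1), by omega⟩
        refine ⟨p ^ s * n χ * m χ, ?_⟩
        rw [if_pos hχ, if_neg (fun h => he h.2)]
        have h1 := hn χ
        rw [hs] at h1
        rw [h1, pow_add]
        ring
    · refine ⟨0, ?_⟩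
      rw [if_neg hχ, if_neg (fun h => hχ h.1)]
      simp
  choose r hr using hr
  have hTd : p ^ (a - d + 1) ∣ T := by
    rw [hTdef, Finset.sum_congr rfl (fun χ _ => hr χ), Finset.sum_add_distrib, ← Finset.mul_sum,
      ← Finset.mul_sum, hC']
    refine ⟨C' + ∑ χ : IrrCharacter G, r χ, ?_⟩
    rw [pow_succ]
    ring
  have h3 := (hp.pow_dvd_iff_le_factorization hT0).mp hTd
  omega

omit [Fintype (IrrCharacter G)] in
open scoped Classical in
/-- Orthogonality of block idempotents and central characters on the classes with defect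
group `D`, modulo the local ideal. -/
theorem rob_orth (hM : IsPModular p M) (D : Subgroup G) [D.Normal] (hDp : IsPGroup p D)
    {ι : Type*} [Fintype ι] (y : ι → G)
    (hy1 : ∀ i j, IsConj (y i) (y j) → i = j)
    (hy2 : ∀ g : G, ¬ p ∣ orderOf g →
      IsSylowOf p (Subgroup.centralizer ({g} : Set G)) D → ∃ i, IsConj g (y i))
    (B B' : Set (IrrCharacter G)) (hB : IsPBlock M B) (hBD : IsDefectGroup p M B D)
    (hB' : IsPBlock M B') (hBD' : IsDefectGroup p M B' D) (ψ : IrrCharacter G) (hψ : ψ ∈ B') :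
    MemLocalIdeal M (∑ i, blockCoeff B (y i) * centralChar (ψ : G → ℂ) (y i) -
      (if ψ ∈ B then 1 else 0)) := by
  have h1 := omega_blockCoeff B ψ
  rw [omega_eq_sum_classes _ _ (Cfsg.Agent.Lib.Helper4.isClassFunction_irr ψ)
    (blockCoeff_isClassFunction B)] at h1
  rw [← h1]
  obtain ⟨img, himg⟩ : ∃ img : Finset (ConjClasses G),
      img = Finset.univ.image (fun i => ConjClasses.mk (y i)) := ⟨_, rfl⟩
  have hinj : Function.Injective (fun i => ConjClasses.mk (y i)) := fun i j h =>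
    hy1 i j (ConjClasses.mk_eq_mk_iff_isConj.mp h)
  have hcf : ∀ g g' : G, IsConj g g' → blockCoeff B g = blockCoeff B g' := by
    intro g g' hc
    obtain ⟨c, rfl⟩ := isConj_iff.mp hc
    exact (blockCoeff_isClassFunction B g c).symm
  have h2 : ∑ i, blockCoeff B (y i) * centralChar (ψ : G → ℂ) (y i) =
      ∑ c ∈ img, blockCoeff B (Quotient.out c) * centralChar (ψ : G → ℂ) (Quotient.out c) := by
    rw [himg, Finset.sum_image (fun i _ j _ h => hinj h)]
    refine Finset.sum_congr rfl fun i _ => ?_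
    have hc : IsConj (Quotient.out (ConjClasses.mk (y i))) (y i) :=
      ConjClasses.mk_eq_mk_iff_isConj.mp (Quotient.out_eq _)
    rw [hcf _ _ hc, Cfsg.Agent.Lib.Helper79.centralChar_eq_of_isConj _
      (Cfsg.Agent.Lib.Helper4.isClassFunction_irr ψ) hc]
  rw [h2, ← Finset.sum_sdiff (Finset.subset_univ img)]
  have h3 : ∀ A B : ℂ, A - (B + A) = -B := fun A B => by ring
  rw [h3]
  apply locIdeal_neg
  refine locIdeal_sum hM _ _ fun c hc => ?_
  obtain ⟨g, hgdef⟩ : ∃ g : G, g = Quotient.out c := ⟨_, rfl⟩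
  rw [← hgdef]
  by_cases hb : MemLocalIdeal M (blockCoeff B g)
  · exact locIdeal_mul_right hM hb (centralChar_locRing hM ψ g)
  by_cases hω : MemLocalIdeal M (centralChar (ψ : G → ℂ) g)
  · exact locIdeal_mul_left hM (osima hM B hB g) hω
  exfalso
  have hne : blockCoeff B g ≠ 0 := fun h0 => hb (h0 ▸ locIdeal_zero hM)
  have hreg := pRegular_of_blockCoeff_ne_zero hM B hB g hne
  obtain ⟨R, hR⟩ := exists_isSylowOf (p := p) (Subgroup.centralizer ({g} : Set G))
  obtain ⟨t, ht⟩ := subConj_defectGroup_of_coeff_unit hM B hB D hBD g hb R hR.isPGroup hR.le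
  rw [map_conj_eq_of_normal] at ht
  obtain ⟨s, hs⟩ := exists_conj_le_centralizer_of_centralChar_unit hM B' hB' D hBD' ψ hψ g hω
  rw [map_conj_eq_of_normal] at hs
  have hRD : R = D := eq_of_isSylowOf_of_le hR hDp hs ht
  rw [hRD] at hR
  obtain ⟨i, hi⟩ := hy2 g hreg hR
  have hcmem : c ∈ img := by
    rw [himg, Finset.mem_image]
    refine ⟨i, Finset.mem_univ _, ?_⟩
    rw [← ConjClasses.mk_eq_mk_iff_isConj.mpr hi, hgdef]
    exact Quotient.out_eq c
  exact (Finset.mem_sdiff.mp hc).2 hcmem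

omit [Fintype G] [Fintype (IrrCharacter G)] [Fact p.Prime] in
theorem rob_isConj_inv {a b : G} (h : IsConj a b) : IsConj a⁻¹ b⁻¹ := by
  obtain ⟨c, rfl⟩ := isConj_iff.mp h
  exact isConj_iff.mpr ⟨c, by group⟩

open scoped Classical in
/-- Robinson's theorem, complex-number part. -/
theorem robinson_core (hM : IsPModular p M) (D : Subgroup G) [D.Normal] (hDp : IsPGroup p D)
    (S : Sylow p G) {ι : Type*} [Fintype ι] (x : ι → G)
    (hx2 : ∀ i, IsSylowOf p (Subgroup.centralizer ({x i} : Set G)) D)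
    (hx3 : ∀ i j, IsConj (x i) (x j) → i = j)
    (hx4 : ∀ g : G, ¬ p ∣ orderOf g →
      IsSylowOf p (Subgroup.centralizer ({g} : Set G)) D → ∃ i, IsConj g (x i))
    {β : Type*} [Fintype β] (blk : β → Set (IrrCharacter G)) (hblk_inj : Function.Injective blk)
    (hblk : ∀ B : Set (IrrCharacter G),
      (∃ b, blk b = B) ↔ IsPBlock M B ∧ IsDefectGroup p M B D) :
    ∃ (U : ι → β → ℂ) (V : β → ι → ℂ) (X : β → ι → ℂ) (Y : ι → β → ℂ),
      (∀ i b, MemLocalRing M (U i b)) ∧ (∀ b j, MemLocalRing M (V b j)) ∧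
      (∀ b i, MemLocalRing M (X b i)) ∧ (∀ j b, MemLocalRing M (Y j b)) ∧
      (∀ i j, MemLocalIdeal M (((Nat.card {yz : G × G //
          IsConj (x i) yz.1 ∧ IsConj (x j) yz.2 ∧ yz.2 * yz.1⁻¹ ∈ (S : Subgroup G)} /
            p ^ ((Nat.card G).factorization p - (Nat.card D).factorization p) : ℕ) : ℂ) -
          ∑ b, U i b * V b j)) ∧
      (∀ b b', MemLocalIdeal M (∑ i, X b i * U i b' - (if b = b' then 1 else 0))) ∧
      (∀ b b', MemLocalIdeal M (∑ j, V b j * Y j b' - (if b = b' then 1 else 0))) := by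
  have hp : p.Prime := Fact.out
  obtain ⟨a, ha⟩ : ∃ a, a = (Nat.card G).factorization p := ⟨_, rfl⟩
  obtain ⟨d, hd⟩ : ∃ d, d = (Nat.card D).factorization p := ⟨_, rfl⟩
  rw [← ha, ← hd]
  have hDcard : Nat.card D = p ^ d := by
    obtain ⟨k, hk⟩ := IsPGroup.iff_card.mp hDp
    rw [hd, hk, hp.factorization_pow]
    simp
  have hda : d ≤ a := by
    have h1 : p ^ d ∣ Nat.card G := hDcard ▸ Subgroup.card_subgroup_dvd_card D
    rw [ha]
    exact (hp.pow_dvd_iff_le_factorization Nat.card_pos.ne').mp h1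
  have hSa : Nat.card (S : Subgroup G) = p ^ a := by
    rw [ha]
    exact S.card_eq_multiplicity
  choose m hm using fun χ : IrrCharacter G => irr_sum_subgroup_eq (S : Subgroup G) χ
  choose n hn2 hn1 using fun χ : IrrCharacter G =>
    rob_ppart p hp (charDegree (χ : G → ℂ)) (irr_charDegree χ).2
  obtain ⟨nG, hnG2, hnG1⟩ := rob_ppart p hp (Nat.card G) Nat.card_pos.ne'
  rw [← ha] at hnG1
  have hcd : ∀ i, (Nat.card (Subgroup.centralizer ({x i} : Set G))).factorization p = d := by
    intro i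
    have h1 := (hx2 i).card
    rw [hDcard] at h1
    exact (Nat.pow_right_injective hp.two_le h1).symm
  choose c hc2 hc1 using fun i : ι =>
    rob_ppart p hp (Nat.card (Subgroup.centralizer ({x i} : Set G))) Nat.card_pos.ne'
  have hC : ∀ i, Nat.card (Subgroup.centralizer ({x i} : Set G)) = p ^ d * c i := by
    intro i
    have h1 := hc1 i
    rw [hcd i] at h1
    exact h1
  have hidx0 : ∀ g : G, (Subgroup.centralizer ({g} : Set G)).index ≠ 0 := fun g =>
    Subgroup.index_ne_zero_of_finite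
  have hidx : ∀ i, (Subgroup.centralizer ({x i} : Set G)).index.factorization p + d = a := by
    intro i
    have h1 := Subgroup.card_mul_index (Subgroup.centralizer ({x i} : Set G))
    have h2 : (Nat.card (Subgroup.centralizer ({x i} : Set G)) *
        (Subgroup.centralizer ({x i} : Set G)).index).factorization p = a := by rw [h1, ha]
    rw [Nat.factorization_mul Nat.card_pos.ne' (hidx0 _), Finsupp.add_apply, hcd i] at h2
    omega
  choose k hk2 hk1 using fun i : ι =>
    rob_ppart p hp (Subgroup.centralizer ({x i} : Set G)).index (hidx0 _)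
  have hI : ∀ i, (Subgroup.centralizer ({x i} : Set G)).index = p ^ (a - d) * k i := by
    intro i
    have h1 := hk1 i
    have h2 : (Subgroup.centralizer ({x i} : Set G)).index.factorization p = a - d := by
      have := hidx i
      omega
    rw [h2] at h1
    exact h1
  have hI' : ∀ i, (Subgroup.centralizer ({(x i)⁻¹} : Set G)).index = p ^ (a - d) * k i := by
    intro i
    rw [rob_centralizer_inv]
    exact hI i
  have hck : ∀ i, c i * k i = nG := by
    intro i
    have h1 := Subgroup.card_mul_index (Subgroup.centralizer ({x i} : Set G))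
    rw [hC i, hI i, hnG1] at h1
    have h2 : p ^ a = p ^ d * p ^ (a - d) := by
      rw [← pow_add]
      congr 1
      omega
    rw [h2] at h1
    have h3 : p ^ d * p ^ (a - d) * (c i * k i) = p ^ d * p ^ (a - d) * nG := by
      rw [← h1]
      ring
    exact Nat.eq_of_mul_eq_mul_left (Nat.mul_pos (pow_pos hp.pos d) (pow_pos hp.pos (a - d))) h3
  have hnG0 : (nG : ℂ) ≠ 0 := by
    have h0 : nG ≠ 0 := fun h => hnG2 (h ▸ dvd_zero p)
    exact_mod_cast h0
  obtain ⟨ω, hω⟩ : ∃ ω : ι → ι → ℕ, ω = fun i j => Nat.card {yz : G × G //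
      IsConj (x i) yz.1 ∧ IsConj (x j) yz.2 ∧ yz.2 * yz.1⁻¹ ∈ (S : Subgroup G)} := ⟨_, rfl⟩
  have hdiv : ∀ i j, (c j : ℂ) * ((ω i j / p ^ (a - d) : ℕ) : ℂ) =
      ∑ χ : IrrCharacter G,
        centralChar (χ : G → ℂ) (x i)⁻¹ * (χ : G → ℂ) (x j) * (m χ : ℂ) := by
    intro i j
    rw [hω]
    exact (rob_div S (x i) (x j) a d (c j) hSa hda (hC j) (hc2 j) m hm).2
  have hnGZ : ∀ i j, (nG : ℂ) * ((ω i j / p ^ (a - d) : ℕ) : ℂ) =
      ∑ χ : IrrCharacter G,
        (k j : ℂ) * centralChar (χ : G → ℂ) (x i)⁻¹ * (χ : G → ℂ) (x j) * (m χ : ℂ) := by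
    intro i j
    have h1 : (nG : ℂ) = (k j : ℂ) * (c j : ℂ) := by
      rw [← hck j]
      push_cast
      ring
    rw [h1, mul_assoc, hdiv i j, Finset.mul_sum]
    refine Finset.sum_congr rfl fun χ _ => ?_
    ring
  have hterm := fun (χ : IrrCharacter G) (i j : ι) =>
    rob_term (M := M) hM χ (x i)⁻¹ (x j) a d ((charDegree (χ : G → ℂ)).factorization p) (n χ) (k i) (k j) (m χ)
      (hn2 χ) (hk2 i) (hk2 j) (hn1 χ) (hI' i) (hI j)
  -- blocks
  have hb : ∀ b, IsPBlock M (blk b) ∧ IsDefectGroup p M (blk b) D := fun b =>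
    (hblk (blk b)).mp ⟨b, rfl⟩
  have hne : ∀ b, ∃ χ : IrrCharacter G, χ ∈ blk b := by
    intro b
    obtain ⟨χ₀, hχ₀⟩ := (hb b).1
    exact ⟨χ₀, by rw [hχ₀]; exact Cfsg.Agent.Lib.Helper79.mem_blockOf_self hM χ₀⟩
  choose rep hrep using hne
  have hrep_iff : ∀ b b', rep b' ∈ blk b ↔ b = b' := by
    intro b b'
    constructor
    · intro h
      apply hblk_inj
      rw [Cfsg.Agent.Lib.Helper79.blockOf_eq_of_mem hM (hb b).1 h,
        Cfsg.Agent.Lib.Helper79.blockOf_eq_of_mem hM (hb b').1 (hrep b')]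
    · rintro rfl
      exact hrep b
  obtain ⟨C, hCdef⟩ : ∃ C : β → ℕ, C = fun b => ∑ χ : IrrCharacter G,
      (if χ ∈ blk b ∧ (charDegree (χ : G → ℂ)).factorization p = a - d then m χ * n χ else 0) := ⟨_, rfl⟩
  have hCunit : ∀ b, ¬ p ∣ C b := by
    intro b
    rw [hCdef]
    exact (rob_unit hM S D a d ha hDcard hda (blk b) (hb b).1 (hb b).2 m n hm hn1).2
  have hC0 : ∀ b, (C b : ℂ) ≠ 0 := by
    intro b
    have h0 : C b ≠ 0 := fun h => hCunit b (h ▸ dvd_zero p)
    exact_mod_cast h0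
  have hCcast : ∀ b, (C b : ℂ) = ∑ χ : IrrCharacter G,
      (if χ ∈ blk b ∧ (charDegree (χ : G → ℂ)).factorization p = a - d then (m χ : ℂ) * (n χ : ℂ) else 0) := by
    intro b
    rw [hCdef]
    simp only
    rw [Nat.cast_sum]
    refine Finset.sum_congr rfl fun χ _ => ?_
    split_ifs
    · push_cast
      rfl
    · simp
  have hsylinv : ∀ i, IsSylowOf p (Subgroup.centralizer ({(x i)⁻¹} : Set G)) D := by
    intro i
    rw [rob_centralizer_inv]
    exact hx2 i
  obtain ⟨U, hU⟩ : ∃ U : ι → β → ℂ, U = fun i b =>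
      centralChar ((rep b : IrrCharacter G) : G → ℂ) (x i)⁻¹ := ⟨_, rfl⟩
  obtain ⟨V, hV⟩ : ∃ V : β → ι → ℂ, V = fun b j =>
      (C b : ℂ) * centralChar ((rep b : IrrCharacter G) : G → ℂ) (x j) * (nG : ℂ)⁻¹ := ⟨_, rfl⟩
  obtain ⟨X, hX⟩ : ∃ X : β → ι → ℂ, X = fun b i => blockCoeff (blk b) (x i)⁻¹ := ⟨_, rfl⟩
  obtain ⟨Y, hY⟩ : ∃ Y : ι → β → ℂ, Y = fun j b =>
      (nG : ℂ) * blockCoeff (blk b) (x j) * (C b : ℂ)⁻¹ := ⟨_, rfl⟩
  have hωR : ∀ (χ : IrrCharacter G) (g : G), MemLocalRing M (centralChar (χ : G → ℂ) g) :=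
    fun χ g => centralChar_locRing hM χ g
  refine ⟨U, V, X, Y, ?_, ?_, ?_, ?_, ?_, ?_, ?_⟩
  · intro i b
    rw [hU]
    exact hωR _ _
  · intro b j
    rw [hV]
    exact locRing_mul hM (locRing_mul hM (locRing_natCast hM _) (hωR _ _))
      (locRing_inv_natCast hM hnG2)
  · intro b i
    rw [hX]
    exact osima hM _ (hb b).1 _
  · intro j b
    rw [hY]
    exact locRing_mul hM (locRing_mul hM (locRing_natCast hM _) (osima hM _ (hb b).1 _))
      (locRing_inv_natCast hM (hCunit b))
  · intro i j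
    have hgoal : ((Nat.card {yz : G × G //
        IsConj (x i) yz.1 ∧ IsConj (x j) yz.2 ∧ yz.2 * yz.1⁻¹ ∈ (S : Subgroup G)} /
          p ^ (a - d) : ℕ) : ℂ) = ((ω i j / p ^ (a - d) : ℕ) : ℂ) := by rw [hω]
    rw [hgoal]
    have h1 : ((ω i j / p ^ (a - d) : ℕ) : ℂ) - ∑ b, U i b * V b j = (nG : ℂ)⁻¹ *
        (∑ χ : IrrCharacter G,
          (k j : ℂ) * centralChar (χ : G → ℂ) (x i)⁻¹ * (χ : G → ℂ) (x j) * (m χ : ℂ) -
        ∑ b, centralChar ((rep b : IrrCharacter G) : G → ℂ) (x i)⁻¹ *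
          centralChar ((rep b : IrrCharacter G) : G → ℂ) (x j) * (C b : ℂ)) := by
      rw [← hnGZ i j, mul_sub, ← mul_assoc, inv_mul_cancel₀ hnG0, one_mul, Finset.mul_sum]
      congr 1
      refine Finset.sum_congr rfl fun b _ => ?_
      rw [hU, hV]
      ring
    rw [h1]
    refine locIdeal_mul_left hM (locRing_inv_natCast hM hnG2) ?_
    have h2 : ∀ b, centralChar ((rep b : IrrCharacter G) : G → ℂ) (x i)⁻¹ *
        centralChar ((rep b : IrrCharacter G) : G → ℂ) (x j) * (C b : ℂ) =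
        ∑ χ : IrrCharacter G, (if χ ∈ blk b ∧ (charDegree (χ : G → ℂ)).factorization p = a - d then
          centralChar ((rep b : IrrCharacter G) : G → ℂ) (x i)⁻¹ *
            centralChar ((rep b : IrrCharacter G) : G → ℂ) (x j) * (m χ : ℂ) * (n χ : ℂ)
          else 0) := by
      intro b
      rw [hCcast b, Finset.mul_sum]
      refine Finset.sum_congr rfl fun χ _ => ?_
      split_ifs
      · ring
      · rw [mul_zero]
    rw [Finset.sum_congr rfl (fun b _ => h2 b), Finset.sum_comm, ← Finset.sum_sub_distrib]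
    refine locIdeal_sum hM _ _ fun χ _ => ?_
    by_cases heχ : (charDegree (χ : G → ℂ)).factorization p = a - d
    · rw [(hterm χ i j).1 heχ]
      by_cases hex : ∃ b, χ ∈ blk b
      · obtain ⟨b₀, hb₀⟩ := hex
        rw [Finset.sum_eq_single b₀]
        · rw [if_pos ⟨hb₀, heχ⟩]
          have hsb : SameBlock M ((rep b₀ : IrrCharacter G) : G → ℂ) (χ : G → ℂ) := by
            have h3 : χ ∈ blockOf M ((rep b₀ : IrrCharacter G) : G → ℂ) := by
              rw [← Cfsg.Agent.Lib.Helper79.blockOf_eq_of_mem hM (hb b₀).1 (hrep b₀)]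
              exact hb₀
            exact h3
          have h3 : ∀ A B A' B' mm nn : ℂ, A * B * mm * nn - A' * B' * mm * nn =
              ((A - A') * B + A' * (B - B')) * (mm * nn) := fun A B A' B' mm nn => by ring
          rw [h3]
          have h4 : ∀ g : G, MemLocalIdeal M (centralChar (χ : G → ℂ) g -
              centralChar ((rep b₀ : IrrCharacter G) : G → ℂ) g) := by
            intro g
            have h5 := locIdeal_neg (hsb g)
            rwa [neg_sub] at h5
          exact locIdeal_mul_right hM (locIdeal_add hM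
            (locIdeal_mul_right hM (h4 _) (hωR _ _)) (locIdeal_mul_left hM (hωR _ _) (h4 _)))
            (locRing_mul hM (locRing_natCast hM _) (locRing_natCast hM _))
        · intro b _ hbne
          rw [if_neg]
          rintro ⟨hχb, _⟩
          apply hbne
          apply hblk_inj
          rw [Cfsg.Agent.Lib.Helper79.blockOf_eq_of_mem hM (hb b).1 hχb,
            Cfsg.Agent.Lib.Helper79.blockOf_eq_of_mem hM (hb b₀).1 hb₀]
        · intro h
          exact absurd (Finset.mem_univ _) h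
      · have hz : ∑ b, (if χ ∈ blk b ∧ (charDegree (χ : G → ℂ)).factorization p = a - d then
            centralChar ((rep b : IrrCharacter G) : G → ℂ) (x i)⁻¹ *
              centralChar ((rep b : IrrCharacter G) : G → ℂ) (x j) * (m χ : ℂ) * (n χ : ℂ)
            else 0) = 0 :=
          Finset.sum_eq_zero fun b _ => if_neg (fun h => hex ⟨b, h.1⟩)
        rw [hz, sub_zero]
        have hωi : MemLocalIdeal M (centralChar (χ : G → ℂ) (x i)⁻¹) := by
          by_contra hnot
          have hdef := rob_block hM D a d ha hDcard hda (x i)⁻¹ (hsylinv i) χ heχ hnot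
          obtain ⟨b, hb'⟩ := (hblk _).mpr ⟨⟨χ, rfl⟩, hdef⟩
          exact hex ⟨b, by rw [hb']; exact Cfsg.Agent.Lib.Helper79.mem_blockOf_self hM χ⟩
        have h3 : ∀ A B mm nn : ℂ, A * B * mm * nn = A * (B * mm * nn) :=
          fun A B mm nn => by ring
        rw [h3]
        exact locIdeal_mul_right hM hωi (locRing_mul hM (locRing_mul hM (hωR _ _)
          (locRing_natCast hM _)) (locRing_natCast hM _))
    · have hz : ∑ b, (if χ ∈ blk b ∧ (charDegree (χ : G → ℂ)).factorization p = a - d then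
          centralChar ((rep b : IrrCharacter G) : G → ℂ) (x i)⁻¹ *
            centralChar ((rep b : IrrCharacter G) : G → ℂ) (x j) * (m χ : ℂ) * (n χ : ℂ)
          else 0) = 0 :=
        Finset.sum_eq_zero fun b _ => if_neg (fun h => heχ h.2)
      rw [hz, sub_zero]
      exact (hterm χ i j).2 heχ
  · intro b b'
    have h1 := rob_orth hM D hDp (fun i => (x i)⁻¹)
      (fun i j h => hx3 i j (by simpa using rob_isConj_inv h))
      (fun g hg hsyl => by
        obtain ⟨i, hi⟩ := hx4 g⁻¹ (by rwa [orderOf_inv])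
          (by rw [rob_centralizer_inv]; exact hsyl)
        exact ⟨i, by simpa using rob_isConj_inv hi⟩)
      (blk b) (blk b') (hb b).1 (hb b).2 (hb b').1 (hb b').2 (rep b') (hrep b')
    have h2 : (∑ i, X b i * U i b' - (if b = b' then (1 : ℂ) else 0)) =
        ∑ i, blockCoeff (blk b) ((fun i => (x i)⁻¹) i) *
          centralChar ((rep b' : IrrCharacter G) : G → ℂ) ((fun i => (x i)⁻¹) i) -
          (if rep b' ∈ blk b then 1 else 0) := by
      rw [hX, hU]
      congr 1
      by_cases hbb : b = b'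
      · rw [if_pos hbb, if_pos ((hrep_iff b b').mpr hbb)]
      · rw [if_neg hbb, if_neg (fun h => hbb ((hrep_iff b b').mp h))]
    rw [h2]
    exact h1
  · intro b b'
    have h1 := rob_orth hM D hDp x hx3 hx4
      (blk b') (blk b) (hb b').1 (hb b').2 (hb b).1 (hb b).2 (rep b) (hrep b)
    have h2 : ∑ j, V b j * Y j b' = ((C b : ℂ) * (C b' : ℂ)⁻¹) *
        ∑ j, blockCoeff (blk b') (x j) * centralChar ((rep b : IrrCharacter G) : G → ℂ) (x j) := by
      rw [hV, hY, Finset.mul_sum]
      refine Finset.sum_congr rfl fun j _ => ?_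
      field_simp
    rw [h2]
    by_cases hbb : b = b'
    · rw [if_pos hbb]
      rw [if_pos ((hrep_iff b' b).mpr hbb.symm)] at h1
      rw [← hbb, mul_inv_cancel₀ (hC0 b), one_mul]
      rw [← hbb] at h1
      exact h1
    · rw [if_neg hbb, sub_zero]
      rw [if_neg (fun h => hbb ((hrep_iff b' b).mp h).symm), sub_zero] at h1
      exact locIdeal_mul_left hM (locRing_mul hM (locRing_natCast hM _)
        (locRing_inv_natCast hM (hCunit b'))) h1

end Rob

end Cfsg.Agent.Lib.Helper82
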