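import Mathlib
import Cfsg.Agent.Lib.Helper72.S3Defs

/-! Piece S3-C1 of helper72's S4305 project: proper normal invariant subgroups are commutative,
given the theorem for smaller groups (restriction to a minimal invariant subgroup). -/

set_option autoImplicit false
set_option maxHeartbeats 1000000

namespace Cfsg.Agent.Lib.Helper82.S3F

open Cfsg.Agent.Lib.Helper72.S3F

universe u

namespace C1aux

variable {V : Type u} [CommGroup V]

/-- the stabiliser of a subgroup `U` in `MulAut V` -/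
def stab (U : Subgroup V) : Subgroup (MulAut V) where
  carrier := {g | (∀ w ∈ U, g w ∈ U) ∧ (∀ w ∈ U, g⁻¹ w ∈ U)}
  mul_mem' := by
    intro a b ha hb
    refine ⟨fun w hw => ha.1 _ (hb.1 w hw), fun w hw => ?_⟩
    rw [mul_inv_rev]
    exact hb.2 _ (ha.2 w hw)
  one_mem' := ⟨fun w hw => hw, fun w hw => by simpa using hw⟩
  inv_mem' := by
    intro a ha
    refine ⟨ha.2, fun w hw => ?_⟩
    rw [inv_inv]
    exact ha.1 w hw

/-- restriction of a stabilising automorphism to `U` -/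
def resFun (U : Subgroup V) (g : stab U) : MulAut U where
  toFun w := ⟨(g : MulAut V) w, g.2.1 w w.2⟩
  invFun w := ⟨(g : MulAut V)⁻¹ w, g.2.2 w w.2⟩
  left_inv w := by
    apply Subtype.ext
    show (g : MulAut V)⁻¹ ((g : MulAut V) (w : V)) = w
    exact MulAut.inv_apply_self _ _ _
  right_inv w := by
    apply Subtype.ext
    show (g : MulAut V) ((g : MulAut V)⁻¹ (w : V)) = w
    exact MulAut.apply_inv_self _ _ _
  map_mul' a b := by
    apply Subtype.ext
    show (g : MulAut V) ((a : V) * (b : V)) = (g : MulAut V) a * (g : MulAut V) b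
    exact map_mul _ _ _

/-- restriction as a homomorphism -/
def res (U : Subgroup V) : stab U →* MulAut U where
  toFun := resFun U
  map_one' := by
    ext w
    rfl
  map_mul' a b := by
    ext w
    rfl

theorem res_coe (U : Subgroup V) (g : stab U) (w : U) :
    ((res U g w : U) : V) = (g : MulAut V) (w : V) := rfl

/-- invariance of the "commutation locus" under a normalising automorphism -/
theorem F_inv {H₀ : Subgroup (MulAut V)} (g : MulAut V) (hg : ∀ x ∈ H₀, g⁻¹ * x * g ∈ H₀)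
    (v : V) (hv : ∀ x ∈ H₀, ∀ y ∈ H₀, x (y v) = y (x v)) :
    ∀ x ∈ H₀, ∀ y ∈ H₀, x (y (g v)) = y (x (g v)) := by
  intro x hx y hy
  have e1 : ∀ (z : MulAut V) (w : V), z (g w) = g ((g⁻¹ * z * g) w) := by
    intro z w
    show z (g w) = g (g⁻¹ (z (g w)))
    rw [MulAut.apply_inv_self]
  rw [e1 y v, e1 x ((g⁻¹ * y * g) v), e1 x v, e1 y ((g⁻¹ * x * g) v),
    hv _ (hg x hx) _ (hg y hy)]

end C1aux

open C1aux

theorem c1 (hlift : LiftStmt.{u}) : C1Stmt.{u} := by
  intro V _ _ p H f t hAct hMod hIrr hSol IH H₀ hle hne hH hf ht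
  classical
  by_contra hcomm
  have hnc : ∃ x ∈ H₀, ∃ y ∈ H₀, x * y ≠ y * x := by
    unfold Comm at hcomm
    push Not at hcomm
    exact hcomm
  obtain ⟨x₀, hx₀, y₀, hy₀, hxy⟩ := hnc
  have hf3 := hAct.s3.f3
  have ht2 := hAct.s3.t2
  have hfinv : f⁻¹ = f * f := by
    rw [inv_eq_iff_mul_eq_one, ← pow_two, ← pow_succ', hf3]
  have hfinv2 : f = f⁻¹ * f⁻¹ := by
    rw [← mul_inv_rev, ← hfinv, inv_inv]
  have htinv : t⁻¹ = t := by
    rw [inv_eq_iff_mul_eq_one, ← sq, ht2]
  have hfconj : ∀ x ∈ H₀, f⁻¹ * x * f ∈ H₀ := by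
    intro x hx
    have h1 : f⁻¹ * x * f = f * (f * x * f⁻¹) * f⁻¹ := by
      calc f⁻¹ * x * f = (f * f) * x * (f⁻¹ * f⁻¹) := by rw [← hfinv, ← hfinv2]
        _ = f * (f * x * f⁻¹) * f⁻¹ := by simp only [mul_assoc]
    rw [h1]
    exact hf _ (hf x hx)
  have htconj : ∀ x ∈ H₀, t⁻¹ * x * t ∈ H₀ := by
    intro x hx
    have h1 : t⁻¹ * x * t = t * x * t⁻¹ := by rw [htinv]
    rw [h1]
    exact ht x hx
  have hHconj : ∀ h ∈ H, ∀ x ∈ H₀, h⁻¹ * x * h ∈ H₀ := by
    intro h hh x hx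
    have := hH h⁻¹ (H.inv_mem hh) x hx
    rwa [inv_inv] at this
  -- the commutation locus
  let F : Subgroup V :=
    { carrier := {v | ∀ x ∈ H₀, ∀ y ∈ H₀, x (y v) = y (x v)}
      mul_mem' := by
        intro a b ha hb x hx y hy
        simp only [map_mul]
        rw [ha x hx y hy, hb x hx y hy]
      one_mem' := by
        intro x _ y _
        simp
      inv_mem' := by
        intro a ha x hx y hy
        simp only [map_inv]
        rw [ha x hx y hy] }
  have hFmem : ∀ v : V, v ∈ F ↔ ∀ x ∈ H₀, ∀ y ∈ H₀, x (y v) = y (x v) := fun v => Iff.rfl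
  have hFbot : F = ⊥ := by
    rcases hIrr F (fun h hh w hw => F_inv h (hHconj h hh) w hw)
      (fun w hw => F_inv f hfconj w hw) (fun w hw => F_inv t htconj w hw) with h | h
    · exact h
    · exfalso
      apply hxy
      apply MulEquiv.ext
      intro v
      have hv : v ∈ F := by rw [h]; exact Subgroup.mem_top v
      exact hv x₀ hx₀ y₀ hy₀
  -- a minimal invariant subgroup
  have hex : ∃ n, ∃ W : Subgroup V, (∀ x ∈ H₀, ∀ w ∈ W, x w ∈ W) ∧ (∀ w ∈ W, f w ∈ W) ∧
      (∀ w ∈ W, t w ∈ W) ∧ W ≠ ⊥ ∧ Nat.card W = n := by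
    refine ⟨Nat.card (⊤ : Subgroup V), ⊤, fun _ _ _ _ => Subgroup.mem_top _,
      fun _ _ => Subgroup.mem_top _, fun _ _ => Subgroup.mem_top _, ?_, rfl⟩
    obtain ⟨v, hv⟩ := hMod.nt
    intro htop
    apply hv
    have : v ∈ (⊤ : Subgroup V) := Subgroup.mem_top v
    rw [htop] at this
    exact Subgroup.mem_bot.1 this
  obtain ⟨U, hUH, hUf, hUt, hUne, hUcard⟩ := Nat.find_spec hex
  have hUmin : ∀ W : Subgroup V, (∀ x ∈ H₀, ∀ w ∈ W, x w ∈ W) → (∀ w ∈ W, f w ∈ W) →
      (∀ w ∈ W, t w ∈ W) → W ≠ ⊥ → Nat.card U ≤ Nat.card W := by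
    intro W h1 h2 h3 h4
    by_contra hlt
    push Not at hlt
    rw [hUcard] at hlt
    exact Nat.find_min hex hlt ⟨W, h1, h2, h3, h4, rfl⟩
  -- the stabiliser elements
  have hH₀S : H₀ ≤ stab U := by
    intro x hx
    exact ⟨fun w hw => hUH x hx w hw, fun w hw => hUH x⁻¹ (H₀.inv_mem hx) w hw⟩
  have hfS : f ∈ stab U := by
    refine ⟨hUf, fun w hw => ?_⟩
    rw [hfinv]
    exact hUf _ (hUf w hw)
  have htS : t ∈ stab U := by
    refine ⟨hUt, fun w hw => ?_⟩
    rw [htinv]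
    exact hUt w hw
  obtain ⟨fS, hfSdef⟩ : ∃ fS : stab U, fS = ⟨f, hfS⟩ := ⟨_, rfl⟩
  obtain ⟨tS, htSdef⟩ : ∃ tS : stab U, tS = ⟨t, htS⟩ := ⟨_, rfl⟩
  have hfScoe : (fS : MulAut V) = f := by rw [hfSdef]
  have htScoe : (tS : MulAut V) = t := by rw [htSdef]
  obtain ⟨Hb, hHbdef⟩ : ∃ Hb : Subgroup (MulAut U), Hb = (H₀.subgroupOf (stab U)).map (res U) :=
    ⟨_, rfl⟩
  have hHbmem : ∀ a : MulAut U, a ∈ Hb ↔ ∃ s : stab U, (s : MulAut V) ∈ H₀ ∧ res U s = a := by
    intro a
    rw [hHbdef, Subgroup.mem_map]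
    constructor
    · rintro ⟨s, hs, rfl⟩
      exact ⟨s, Subgroup.mem_subgroupOf.1 hs, rfl⟩
    · rintro ⟨s, hs, rfl⟩
      exact ⟨s, Subgroup.mem_subgroupOf.2 hs, rfl⟩
  haveI : Finite H := inferInstance
  have hcardHb : Nat.card Hb ∣ Nat.card H₀ := by
    rw [hHbdef]
    refine dvd_trans (Subgroup.card_map_dvd _ (res U)) ?_
    rw [Nat.card_congr (Subgroup.subgroupOfEquivOfLe hH₀S).toEquiv]
  have hcardH₀ : Nat.card H₀ ∣ Nat.card H := Subgroup.card_dvd_of_le hle
  have hlt : Nat.card Hb < Nat.card H := by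
    have h1 : Nat.card Hb ≤ Nat.card H₀ := Nat.le_of_dvd Nat.card_pos hcardHb
    have h2 : Nat.card H₀ < Nat.card H := by
      by_contra hge
      push Not at hge
      have := Subgroup.eq_of_le_of_card_ge hle hge
      obtain ⟨x, hx, hx'⟩ := hne
      rw [this] at hx'
      exact hx' hx
    omega
  -- S3
  have hS3 : S3 (res U fS) (res U tS) := by
    refine ⟨?_, ?_, ?_⟩
    · rw [← map_pow]
      have : fS ^ 3 = 1 := by
        apply Subtype.ext
        rw [Subgroup.coe_pow, hfScoe, hf3]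
        rfl
      rw [this, map_one]
    · rw [← map_pow]
      have : tS ^ 2 = 1 := by
        apply Subtype.ext
        rw [Subgroup.coe_pow, htScoe, ht2]
        rfl
      rw [this, map_one]
    · rw [← map_inv, ← map_mul, ← map_mul, ← map_inv]
      congr 1
      apply Subtype.ext
      rw [Subgroup.coe_mul, Subgroup.coe_mul, Subgroup.coe_inv, Subgroup.coe_inv, hfScoe, htScoe]
      exact hAct.s3.tf
  -- the kernel subgroup
  let K : Subgroup (MulAut V) :=
    { carrier := {k | k ∈ H₀ ∧ ∀ w ∈ U, k w = w}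
      mul_mem' := by
        intro a b ha hb
        refine ⟨H₀.mul_mem ha.1 hb.1, fun w hw => ?_⟩
        show a (b w) = w
        rw [hb.2 w hw, ha.2 w hw]
      one_mem' := ⟨H₀.one_mem, fun w _ => rfl⟩
      inv_mem' := by
        intro a ha
        refine ⟨H₀.inv_mem ha.1, fun w hw => ?_⟩
        have := ha.2 w hw
        conv_lhs => rw [← this]
        exact MulAut.inv_apply_self _ _ _ }
  have hKmem : ∀ k : MulAut V, k ∈ K ↔ (k ∈ H₀ ∧ ∀ w ∈ U, k w = w) := fun k => Iff.rfl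
  have hKle : K ≤ H₀ := fun k hk => hk.1
  have hKcop : (Nat.card K).Coprime 6 :=
    Nat.Coprime.coprime_dvd_left (dvd_trans (Subgroup.card_dvd_of_le hKle) hcardH₀) hAct.cop
  have hKf : ∀ k ∈ K, MulAut.conj f k ∈ K := by
    intro k hk
    rw [MulAut.conj_apply]
    refine ⟨hf k hk.1, fun w hw => ?_⟩
    show f (k (f⁻¹ w)) = w
    rw [hk.2 _ (hfS.2 w hw)]
    exact MulAut.apply_inv_self _ _ _
  have hKt : ∀ k ∈ K, MulAut.conj t k ∈ K := by
    intro k hk
    rw [MulAut.conj_apply]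
    refine ⟨ht k hk.1, fun w hw => ?_⟩
    show t (k (t⁻¹ w)) = w
    rw [hk.2 _ (htS.2 w hw)]
    exact MulAut.apply_inv_self _ _ _
  -- Act
  have hActb : Act Hb (res U fS) (res U tS) := by
    refine ⟨hS3, ?_, ?_, ?_, ?_⟩
    · intro a ha
      obtain ⟨s, hs, rfl⟩ := (hHbmem a).1 ha
      rw [← map_inv, ← map_mul, ← map_mul]
      refine (hHbmem _).2 ⟨fS * s * fS⁻¹, ?_, rfl⟩
      rw [Subgroup.coe_mul, Subgroup.coe_mul, Subgroup.coe_inv, hfScoe]
      exact hf _ hs
    · intro a ha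
      obtain ⟨s, hs, rfl⟩ := (hHbmem a).1 ha
      rw [← map_inv, ← map_mul, ← map_mul]
      refine (hHbmem _).2 ⟨tS * s * tS⁻¹, ?_, rfl⟩
      rw [Subgroup.coe_mul, Subgroup.coe_mul, Subgroup.coe_inv, htScoe]
      exact ht _ hs
    · exact Nat.Coprime.coprime_dvd_left (dvd_trans hcardHb hcardH₀) hAct.cop
    · intro a ha hfa hta
      obtain ⟨s, hs, rfl⟩ := (hHbmem a).1 ha
      rw [← map_inv, ← map_mul, ← map_mul] at hfa hta
      -- s⁻¹ * f s f⁻¹ ∈ K
      have hk1 : (s : MulAut V)⁻¹ * MulAut.conj f (s : MulAut V) ∈ K := by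
        rw [MulAut.conj_apply]
        refine ⟨H₀.mul_mem (H₀.inv_mem hs) (hf _ hs), fun w hw => ?_⟩
        have h1 := congrArg (fun e : MulAut U => ((e ⟨w, hw⟩ : U) : V)) hfa
        simp only [res_coe] at h1
        rw [Subgroup.coe_mul, Subgroup.coe_mul, Subgroup.coe_inv, hfScoe] at h1
        show (s : MulAut V)⁻¹ ((f * (s : MulAut V) * f⁻¹) w) = w
        rw [h1]
        exact MulAut.inv_apply_self _ _ _
      have hk2 : (s : MulAut V)⁻¹ * MulAut.conj t (s : MulAut V) ∈ K := by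
        rw [MulAut.conj_apply]
        refine ⟨H₀.mul_mem (H₀.inv_mem hs) (ht _ hs), fun w hw => ?_⟩
        have h1 := congrArg (fun e : MulAut U => ((e ⟨w, hw⟩ : U) : V)) hta
        simp only [res_coe] at h1
        rw [Subgroup.coe_mul, Subgroup.coe_mul, Subgroup.coe_inv, htScoe] at h1
        show (s : MulAut V)⁻¹ ((t * (s : MulAut V) * t⁻¹) w) = w
        rw [h1]
        exact MulAut.inv_apply_self _ _ _
      have hφ3 : (MulAut.conj f) ^ 3 = 1 := by rw [← map_pow, hf3, map_one]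
      have hτ2 : (MulAut.conj t) ^ 2 = 1 := by rw [← map_pow, ht2, map_one]
      have hτφ : MulAut.conj t * MulAut.conj f * (MulAut.conj t)⁻¹ = (MulAut.conj f)⁻¹ := by
        rw [← map_inv, ← map_mul, ← map_mul, ← map_inv, hAct.s3.tf]
      obtain ⟨k, hk, hkf, hkt⟩ := hlift (MulAut V) (MulAut.conj f) (MulAut.conj t) K
        (s : MulAut V) hφ3 hτ2 hτφ inferInstance hKcop hKf hKt hk1 hk2
      rw [MulAut.conj_apply] at hkf hkt
      have hsk : (s : MulAut V) * k = 1 :=
        hAct.fpf _ (hle (H₀.mul_mem hs hk.1)) hkf hkt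
      have hsK : (s : MulAut V) ∈ K := by
        have : (s : MulAut V) = k⁻¹ := eq_inv_of_mul_eq_one_left hsk
        rw [this]
        exact K.inv_mem hk
      ext w
      show ((res U s w : U) : V) = ((1 : MulAut U) w : U)
      rw [res_coe]
      exact hsK.2 _ w.2
  -- Mod
  have hModb : Mod p (res U fS) (res U tS) := by
    refine ⟨hMod.pp, ?_, ?_, ?_⟩
    · intro v
      apply Subtype.ext
      rw [Subgroup.coe_pow, hMod.exp]
      rfl
    · intro v hfv htv
      apply Subtype.ext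
      have h1 := congrArg Subtype.val hfv
      have h2 := congrArg Subtype.val htv
      rw [res_coe, hfScoe] at h1
      rw [res_coe, htScoe] at h2
      exact hMod.fpf _ h1 h2
    · exact (Subgroup.ne_bot_iff_exists_ne_one).1 hUne
  -- Irr
  have hIrrb : Irr Hb (res U fS) (res U tS) := by
    intro W hWH hWf hWt
    by_cases hW : W = ⊥
    · exact Or.inl hW
    right
    have hmapmem : ∀ v : V, v ∈ W.map U.subtype ↔ ∃ w : U, w ∈ W ∧ (w : V) = v := by
      intro v
      rw [Subgroup.mem_map]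
      rfl
    have hc := hUmin (W.map U.subtype) ?_ ?_ ?_ ?_
    · rw [Subgroup.card_map_of_injective U.subtype_injective] at hc
      exact Subgroup.eq_top_of_le_card W hc
    · intro x hx v hv
      obtain ⟨w, hw, rfl⟩ := (hmapmem v).1 hv
      refine (hmapmem _).2 ⟨res U ⟨x, hH₀S hx⟩ w, ?_, rfl⟩
      exact hWH _ ((hHbmem _).2 ⟨⟨x, hH₀S hx⟩, hx, rfl⟩) w hw
    · intro v hv
      obtain ⟨w, hw, rfl⟩ := (hmapmem v).1 hv
      refine (hmapmem _).2 ⟨res U fS w, hWf w hw, ?_⟩
      rw [res_coe, hfScoe]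
    · intro v hv
      obtain ⟨w, hw, rfl⟩ := (hmapmem v).1 hv
      refine (hmapmem _).2 ⟨res U tS w, hWt w hw, ?_⟩
      rw [res_coe, htScoe]
    · intro hbot
      apply hW
      exact (Subgroup.map_eq_bot_iff_of_injective W U.subtype_injective).1 hbot
  -- solvable
  have hSolb : Group.IsSolvable Hb := by
    haveI : Group.IsSolvable (H₀.subgroupOf (stab U)) := by
      let ψ : (H₀.subgroupOf (stab U)) →* H :=
        MonoidHom.codRestrict ((stab U).subtype.comp (H₀.subgroupOf (stab U)).subtype) H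
          (fun s => hle (Subgroup.mem_subgroupOf.1 s.2))
      have hψ : Function.Injective ψ := by
        intro a b hab
        have h1 := congrArg Subtype.val hab
        exact Subtype.ext (Subtype.ext h1)
      exact solvable_of_solvable_injective hψ
    have hsurj := MonoidHom.subgroupMap_surjective (res U) (H₀.subgroupOf (stab U))
    have := solvable_of_surjective hsurj
    rw [hHbdef]
    exact this
  -- induction hypothesis
  have hCb : Comm Hb := IH U p Hb (res U fS) (res U tS) hlt hActb hModb hIrrb hSolb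
  -- U ≤ F
  apply hUne
  rw [eq_bot_iff, ← hFbot]
  intro w hw
  rw [hFmem]
  intro x hx y hy
  have h1 := hCb _ ((hHbmem _).2 ⟨⟨x, hH₀S hx⟩, hx, rfl⟩) _ ((hHbmem _).2 ⟨⟨y, hH₀S hy⟩, hy, rfl⟩)
  have h2 := congrArg (fun e : MulAut U => ((e ⟨w, hw⟩ : U) : V)) h1
  exact h2

end Cfsg.Agent.Lib.Helper82.S3F
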