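import Mathlib
import Cfsg.Prelude.Def_Blocks
import Cfsg.Prelude.Def_Local
import Cfsg.Agent.Lib.Helper34.BRG4
import Cfsg.Agent.Lib.Helper74.BRG3

/-! Piece C2a of helper30's S4501 project: for a nonabelian simple group with a
self-centralizing Sylow 3-subgroup of order 3, `|N(P) : C(P)| = 2`. -/

set_option autoImplicit false
open Cfsg
open scoped ComplexConjugate

namespace Cfsg.Agent.Lib.Helper30.S4501.C2a

/-- C2a -/
theorem relIndex_two {G : Type*} [Group G] [Finite G] [IsSimpleGroup G]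
    (hna : ∃ x y : G, x * y ≠ y * x) (P : Sylow 3 G) (hP : Nat.card P = 3)
    (hC : Subgroup.centralizer ((P : Subgroup G) : Set G) = (P : Subgroup G)) :
    (Subgroup.centralizer ((P : Subgroup G) : Set G)).relIndex
      (Subgroup.normalizer ((P : Subgroup G) : Set G)) = 2 := by
  haveI : Fact (Nat.Prime 3) := ⟨Nat.prime_three⟩
  have hncyc : ¬ IsCyclic G := by
    intro hcyc
    obtain ⟨x, y, hxy⟩ := hna
    obtain ⟨g, hg⟩ := hcyc.exists_generator
    obtain ⟨m, rfl⟩ := Subgroup.mem_zpowers_iff.1 (hg x)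
    obtain ⟨n, rfl⟩ := Subgroup.mem_zpowers_iff.1 (hg y)
    exact hxy ((Commute.refl g).zpow_zpow m n).eq
  have h1 := Cfsg.Agent.Lib.Helper10.BR.relIndex_dvd 3 P hP
  have h2 := Cfsg.Agent.Lib.Helper10.BR.relIndex_ne_one hncyc 3 P hP
  have h3 : (Subgroup.centralizer ((P : Subgroup G) : Set G)).relIndex
      (Subgroup.normalizer ((P : Subgroup G) : Set G)) ∣ 2 := h1
  rcases (Nat.dvd_prime Nat.prime_two).1 h3 with h | h
  · exact absurd h h2
  · exact h

end Cfsg.Agent.Lib.Helper30.S4501.C2a
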