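import Mathlib
import Cfsg.Agent.Lib.Helper98.T73Defs
import Cfsg.Agent.Lib.Helper79.O72R2EQ
import Cfsg.Agent.Lib.Helper78.SpR2B
import Cfsg.Agent.Lib.Helper51.Gram
import Cfsg.Agent.Lib.Helper51.NegOne
import Cfsg.Agent.Lib.Helper52.OmegaPlus
import Cfsg.Prelude.Def_GeometricClasses

/-!
# Project T73 (S5973), piece INVB

When `-1` is a square, an involution of `Ω⁺_{2d}(q)` fixes a totally singular `m`-space for every
`m ≤ d`.  Both eigenspaces of the involution are hyperbolic: the `(-1)`-eigenspace by the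
determinant and the spinor norm of the involution, the `1`-eigenspace by the same argument for
the negative of the involution (which lies in `Ω` as `-1` does).
-/

set_option autoImplicit false
set_option linter.unusedSectionVars false
set_option linter.unusedVariables false

namespace Cfsg.Agent.Lib.Helper98.T73

open Module Matrix Cfsg Cfsg.Agent.Lib.Helper96.Sp Cfsg.Agent.Lib.Helper51
  Cfsg.Agent.Lib.Helper98.O72
open scoped MatrixGroups

/-- the `(-1)`-eigenspace of an involution in `Ω` contains a totally isotropic subspace of half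
its dimension when `-1` is a square -/
theorem invb_half {ι : Type} [Fintype ι] [DecidableEq ι] {F : Type*} [Field F] [Fintype F]
    (Q : QuadraticForm F (ι → F)) (h2 : (2 : F) ≠ 0)
    (hQ : (QuadraticMap.polarBilin Q).Nondegenerate) (hsq : IsSquare (-1 : F))
    (g : isometryGroup F ⇑Q) (hg : g ∈ commutator (isometryGroup F ⇑Q))
    (hM2 : ((g : GL ι F) : Matrix ι ι F) * ((g : GL ι F) : Matrix ι ι F) = 1) :
    ∃ U : Submodule F (ι → F),
      U ≤ LinearMap.ker (Matrix.toLin' ((g : GL ι F) : Matrix ι ι F) + 1) ∧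
      Orth (QuadraticMap.polarBilin Q) U U ∧
      2 * finrank F U
        = finrank F (LinearMap.ker (Matrix.toLin' ((g : GL ι F) : Matrix ι ι F) + 1)) := by
  classical
  obtain ⟨B, hB⟩ : ∃ B : LinearMap.BilinForm F (ι → F), B = QuadraticMap.polarBilin Q := ⟨_, rfl⟩
  obtain ⟨T, hTdef⟩ : ∃ T : Module.End F (ι → F),
      T = Matrix.toLin' ((g : GL ι F) : Matrix ι ι F) := ⟨_, rfl⟩
  rw [← hB, ← hTdef]
  have hS : B.IsSymm := by
    refine ⟨fun a b => ?_⟩
    rw [hB, QuadraticMap.polarBilin_apply_apply, QuadraticMap.polarBilin_apply_apply,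
      QuadraticMap.polar_comm]
  have hN : ND B ⊤ := by rw [hB]; exact br_nd Q hQ
  have hT : Isom B T := by rw [hB, hTdef]; exact br_isom_of_mem Q g
  have hT2 : T * T = 1 := by
    rw [hTdef, Module.End.mul_eq_comp, ← Matrix.toLin'_mul, hM2, Matrix.toLin'_one]
    rfl
  obtain ⟨hKp, hKm, hOrth, hfin⟩ := invol_decomp hS h2 hN T hT hT2
  obtain ⟨vs, hvsK, hpw, hne, hlen, hspan⟩ :=
    exists_orth_list hS h2 (LinearMap.ker (T + 1)) hKm
  have hBvv : ∀ v, B v v = 2 * Q v := fun v => by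
    rw [hB, QuadraticMap.polarBilin_apply_apply, polar_self]
  have hvsQ : ∀ v ∈ vs, Q v ≠ 0 := by
    intro v hv h0
    apply hne v hv
    rw [hBvv, h0, mul_zero]
  have hpw' : vs.Pairwise (fun v w => QuadraticMap.polar ⇑Q v w = 0) := by
    refine hpw.imp ?_
    intro a b hab
    rw [hB, QuadraticMap.polarBilin_apply_apply] at hab
    exact hab
  have hgg : reflList Q vs hvsQ = g :=
    r2eq_reflList Q h2 g hM2 vs hvsQ hpw' (by rw [hspan, hTdef])
  -- parities
  have hdet : Cfsg.Agent.Lib.Helper54.detO Q g = 1 :=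
    MonoidHom.mem_ker.mp (Abelianization.commutator_subset_ker _ hg)
  rw [← hgg, Cfsg.Agent.Lib.Helper54.detO_reflList] at hdet
  have hlenEven : Even vs.length := by
    have hne1 : (-1 : Fˣ) ≠ 1 := by
      intro h
      have h3 := congrArg Units.val h
      rw [Units.val_neg, Units.val_one] at h3
      apply h2
      linear_combination -h3
    exact (neg_one_pow_eq_one_iff_even hne1).mp hdet
  have hspin : spinChar Q 2 g = 1 := spinChar_eq_one_of_mem Q 2 g hg
  rw [← hgg, spinChar_reflList Q h2 2 h2 vs hvsQ] at hspin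
  have hc1'' := (neg_one_pow_eq_one_iff_even (by decide)).mp hspin
  have hc1 : Even (vs.countP (fun v => decide (IsSquare (B v v)))) := by
    convert hc1'' using 2
    funext v
    simp only [hBvv]
  have hc2 : Even (vs.countP (fun v => decide (¬ IsSquare (B v v)))) := by
    have e := List.length_eq_countP_add_countP (fun v => decide (IsSquare (B v v))) (l := vs)
    have e2 : vs.countP (fun v => decide (¬ IsSquare (B v v)))
        = vs.countP (fun a => decide (¬ (decide (IsSquare (B a a)) = true))) := by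
      apply List.countP_congr
      intro v _
      simp
    rw [e2]
    rw [e] at hlenEven
    exact (Nat.even_add.mp hlenEven).mp hc1
  obtain ⟨U₂, hU₂le, hU₂ti, hU₂dim⟩ := exists_ti_of_pairs hS h2 hsq vs hpw hne hc1 hc2
  rw [hspan] at hU₂le
  exact ⟨U₂, hU₂le, hU₂ti, by rw [hU₂dim, hlen]⟩

universe u

variable {F : Type u} [Field F] [Fintype F]

/-- INVB -/
theorem invol_fix_b (h2 : (2 : F) ≠ 0) (hsq : IsSquare (-1 : F)) (d m : ℕ) (hm : m ≤ d)
    (x : GL (Fin d ⊕ Fin d) F) (hx : x ∈ Cfsg.Geo.omegaGL (Cfsg.quadFormPlus d F))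
    (hx2 : x * x = 1) :
    ∃ W : Submodule F (Fin d ⊕ Fin d → F), finrank F W = m ∧
      (∀ w ∈ W, Cfsg.quadFormPlus d F w = 0) ∧
      W.map (Matrix.toLin' (x : Matrix (Fin d ⊕ Fin d) (Fin d ⊕ Fin d) F)) ≤ W := by
  classical
  obtain ⟨Q, hQdef⟩ : ∃ Q : QuadraticForm F (Fin d ⊕ Fin d → F), Q = QPlus d F := ⟨_, rfl⟩
  have hcoe : ⇑Q = Cfsg.quadFormPlus d F := by rw [hQdef]; exact coe_QPlus d F
  rw [← hcoe] at hx ⊢
  have hQ : (QuadraticMap.polarBilin Q).Nondegenerate := by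
    rw [hQdef]; exact Cfsg.Agent.Lib.Helper52.QPlus_nondegenerate
  obtain ⟨g, hg, rfl⟩ := Cfsg.Agent.Lib.Helper52.exists_of_mem_omegaGL Q hx
  obtain ⟨B, hB⟩ : ∃ B : LinearMap.BilinForm F (Fin d ⊕ Fin d → F),
      B = QuadraticMap.polarBilin Q := ⟨_, rfl⟩
  obtain ⟨T, hTdef⟩ : ∃ T : Module.End F (Fin d ⊕ Fin d → F),
      T = Matrix.toLin' ((g : GL (Fin d ⊕ Fin d) F) : Matrix (Fin d ⊕ Fin d) (Fin d ⊕ Fin d) F) :=
    ⟨_, rfl⟩
  have hS : B.IsSymm := by
    refine ⟨fun a b => ?_⟩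
    rw [hB, QuadraticMap.polarBilin_apply_apply, QuadraticMap.polarBilin_apply_apply,
      QuadraticMap.polar_comm]
  have hN : ND B ⊤ := by rw [hB]; exact br_nd Q hQ
  have hT : Isom B T := by rw [hB, hTdef]; exact br_isom_of_mem Q g
  have hM2 : ((g : GL (Fin d ⊕ Fin d) F) : Matrix (Fin d ⊕ Fin d) (Fin d ⊕ Fin d) F)
      * ((g : GL (Fin d ⊕ Fin d) F) : Matrix (Fin d ⊕ Fin d) (Fin d ⊕ Fin d) F) = 1 := by
    have h := congrArg Units.val hx2
    rwa [Units.val_mul, Units.val_one] at h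
  have hT2 : T * T = 1 := by
    rw [hTdef, Module.End.mul_eq_comp, ← Matrix.toLin'_mul, hM2, Matrix.toLin'_one]
    rfl
  obtain ⟨hKp, hKm, hOrth, hfin⟩ := invol_decomp hS h2 hN T hT hT2
  -- `-1` lies in `Ω`
  obtain ⟨z, hz, hzM⟩ := (neg_one_mem_commutator_iff Q h2
    (by rw [Fintype.card_sum, Fintype.card_fin]; exact ⟨d, rfl⟩) hQ).mpr
    (by rw [hQdef, det_gram_QPlus]; exact hsq.pow d)
  have hzg : z * g ∈ commutator (isometryGroup F ⇑Q) := mul_mem hz hg
  have hzgM : (((z * g : isometryGroup F ⇑Q) : GL (Fin d ⊕ Fin d) F)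
        : Matrix (Fin d ⊕ Fin d) (Fin d ⊕ Fin d) F)
      = -((g : GL (Fin d ⊕ Fin d) F) : Matrix (Fin d ⊕ Fin d) (Fin d ⊕ Fin d) F) := by
    rw [Subgroup.coe_mul, Units.val_mul, hzM, neg_one_mul]
  obtain ⟨U₂, hU₂le, hU₂ti, hU₂dim⟩ := invb_half Q h2 hQ hsq g hg hM2
  obtain ⟨U₁, hU₁le, hU₁ti, hU₁dim⟩ := invb_half Q h2 hQ hsq (z * g) hzg
    (by rw [hzgM, neg_mul_neg, hM2])
  have hker : LinearMap.ker (Matrix.toLin' (((z * g : isometryGroup F ⇑Q)
        : GL (Fin d ⊕ Fin d) F) : Matrix (Fin d ⊕ Fin d) (Fin d ⊕ Fin d) F) + 1)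
      = LinearMap.ker (T - 1) := by
    rw [hzgM, map_neg, ← hTdef]
    ext v
    rw [LinearMap.mem_ker, LinearMap.mem_ker, LinearMap.add_apply, LinearMap.sub_apply,
      LinearMap.neg_apply, Module.End.one_apply]
    constructor
    · intro h
      linear_combination (exp := 1) -h
    · intro h
      linear_combination (exp := 1) -h
  rw [hker] at hU₁le hU₁dim
  rw [← hTdef] at hU₂le hU₂dim
  rw [← hB] at hU₁ti hU₂ti
  have hfinV : finrank F (Fin d ⊕ Fin d → F) = 2 * d := by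
    rw [Module.finrank_fintype_fun_eq_card, Fintype.card_sum, Fintype.card_fin]
    omega
  have hsum : finrank F U₁ + finrank F U₂ = d := by omega
  obtain ⟨U₁', hU₁'le, hU₁'dim⟩ := Cfsg.Agent.Lib.Helper78.SpR2B.exists_sub_finrank U₁
    (min m (finrank F U₁)) (min_le_right _ _)
  obtain ⟨U₂', hU₂'le, hU₂'dim⟩ := Cfsg.Agent.Lib.Helper78.SpR2B.exists_sub_finrank U₂
    (m - min m (finrank F U₁)) (by omega)
  have ht₁ : Orth B U₁' U₁' := fun u hu v hv => hU₁ti u (hU₁'le hu) v (hU₁'le hv)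
  have ht₂ : Orth B U₂' U₂' := fun u hu v hv => hU₂ti u (hU₂'le hu) v (hU₂'le hv)
  obtain ⟨hinv, hti, hdim⟩ :=
    exists_ti_inv_of_eigen hS h2 hN T hT hT2 U₁' U₂' (hU₁'le.trans hU₁le) (hU₂'le.trans hU₂le)
      ht₁ ht₂
  refine ⟨U₁' ⊔ U₂', ?_, ?_, ?_⟩
  · rw [hdim, hU₁'dim, hU₂'dim]
    omega
  · rw [hB] at hti
    exact (br_ts_iff Q h2 _).mpr hti
  · rw [hTdef] at hinv
    exact hinv

end Cfsg.Agent.Lib.Helper98.T73
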