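import Mathlib
import Cfsg.Agent.Lib.Helper47.PrimeOrd

/-!
S5980 piece TD2-CYCEX (helper82 for helper98): a monic irreducible factor of the `r`-th
cyclotomic polynomial exists.
-/

set_option autoImplicit false

namespace Cfsg.Agent.Lib.Helper98.TD2

open Matrix Polynomial
open scoped Kronecker

universe u

/-! ### TD2-CYCEX -/
theorem exists_isCycFactor {F : Type*} [Field F] (r : ℕ) (hr : r.Prime) :
    ∃ f : F[X], Cfsg.Agent.Lib.Helper47.IsCycFactor r f := by
  have hdeg : (cyclotomic r F).natDegree = r - 1 := by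
    rw [natDegree_cyclotomic, Nat.totient_prime hr]
  have hnu : ¬ IsUnit (cyclotomic r F) := by
    intro hu
    have h0 := natDegree_eq_zero_of_isUnit hu
    rw [hdeg] at h0
    have := hr.two_le
    omega
  obtain ⟨g, hg1, hg2, hg3⟩ := exists_monic_irreducible_factor (cyclotomic r F) hnu
  exact ⟨g, hg1, hg2, hg3⟩

end Cfsg.Agent.Lib.Helper98.TD2
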