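import Mathlib
import Cfsg.Agent.Lib.Helper82.TGModDefs
import Cfsg.Agent.Lib.Helper82.TGMFMAIN
import Cfsg.Agent.Lib.Helper29.TGMFLD

/-!
# TG-MOD, piece SIMPLE

`mod_main` for a simple `(H, O)`-module `V`: the image of `O = ℤ[ω]` in `End V` is a finite
field `F` with `p ^ r` elements, `V` is an irreducible `F[H]`-module, and `f_main` applies.
-/

set_option autoImplicit false

namespace Cfsg.Agent.Lib.Helper82.TGM

open Cfsg

/-- `simple_main` with the field `F` given abstractly -/
theorem field_main {H : Type*} [Group H] [Fintype H] (p : ℕ) [Fact p.Prime]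
    (hpH : ¬ p ∣ Nat.card H)
    {V : Type*} [AddCommGroup V] [Finite V] [Nontrivial V]
    (ρ : H →* (V →ₗ[ℤ] V))
    (m : ℕ) (hm0 : 0 < m) (hpm : ¬ p ∣ m)
    (ω : ℂ) (hω : IsPrimitiveRoot ω m)
    (φ : Subring.closure ({ω} : Set ℂ) →+* (V →ₗ[ℤ] V))
    (hφρ : ∀ a h, φ a ∘ₗ ρ h = ρ h ∘ₗ φ a)
    (hval : ∀ (ξ : IrrCharacter H) (h : H), (ξ : H → ℂ) h ∈ Subring.closure ({ω} : Set ℂ))
    (hsimple : ∀ U : Submodule ℤ V, (∀ h, ∀ u ∈ U, ρ h u ∈ U) → (∀ a, ∀ u ∈ U, φ a u ∈ U) →
      U = ⊥ ∨ U = ⊤)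
    {F : Type*} [Field F] [Finite F] [CharP F p] [Module F V]
    (q : Subring.closure ({ω} : Set ℂ) →+* F) (hq : Function.Surjective q)
    (hqφ : ∀ a v, q a • v = φ a v) :
    ∃ ξ : IrrCharacter H,
      Nat.card V = p ^ (orderOf ((p : ZMod m)) * charDegree (ξ : H → ℂ)) ∧
      ∀ v : V, (charDegree (ξ : H → ℂ) : ℤ) •
        (∑ h : H, φ ⟨(ξ : H → ℂ) h⁻¹, hval ξ h⁻¹⟩ (ρ h v)) = (Nat.card H : ℤ) • v := by
  classical
  have hp := (Fact.out : p.Prime)
  -- the F-linear representation
  let ρF : H →* (V →ₗ[F] V) :=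
    { toFun := fun h =>
        { toFun := ρ h
          map_add' := (ρ h).map_add
          map_smul' := by
            intro c v
            obtain ⟨a, rfl⟩ := hq c
            simp only [RingHom.id_apply]
            rw [hqφ, hqφ]
            exact (LinearMap.congr_fun (hφρ a h) v).symm }
      map_one' := by
        ext v
        simp
      map_mul' := by
        intro x y
        ext v
        simp }
  have hρF : ∀ h v, ρF h v = ρ h v := fun h v => rfl
  -- irreducibility
  have hirr : ∀ U : Submodule F V, (∀ h, ∀ u ∈ U, ρF h u ∈ U) → U = ⊥ ∨ U = ⊤ := by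
    intro U hU
    let U' : Submodule ℤ V :=
      { carrier := U
        add_mem' := U.add_mem
        zero_mem' := U.zero_mem
        smul_mem' := by
          intro c u hu
          exact zsmul_mem (show u ∈ U from hu) c }
    have h1 : ∀ h, ∀ u ∈ U', ρ h u ∈ U' := fun h u hu => hU h u hu
    have h2 : ∀ a, ∀ u ∈ U', φ a u ∈ U' := by
      intro a u hu
      have : q a • u ∈ U := U.smul_mem _ hu
      rw [hqφ] at this
      exact this
    rcases hsimple U' h1 h2 with h0 | h0
    · left
      ext w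
      have : w ∈ U' ↔ w ∈ (⊥ : Submodule ℤ V) := by rw [h0]
      have h' : w ∈ U ↔ w ∈ U' := Iff.rfl
      rw [h', this]
      simp
    · right
      ext w
      have : w ∈ U' ↔ w ∈ (⊤ : Submodule ℤ V) := by rw [h0]
      have h' : w ∈ U ↔ w ∈ U' := Iff.rfl
      rw [h', this]
      simp
  -- |H| is invertible in F
  have hH : (Nat.card H : F) ≠ 0 := by
    intro h0
    exact hpH ((CharP.cast_eq_zero_iff F p _).1 h0)
  -- the field F has p ^ r elements
  have hcardF : Nat.card F = p ^ orderOf ((p : ZMod m)) := by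
    haveI : NeZero (m : F) := ⟨fun h0 => hpm ((CharP.cast_eq_zero_iff F p _).1 h0)⟩
    have hωmem : ω ∈ Subring.closure ({ω} : Set ℂ) := Subring.subset_closure rfl
    set w : F := q ⟨ω, hωmem⟩ with hw
    have hroot : (Polynomial.cyclotomic m F).IsRoot w := by
      rw [Polynomial.IsRoot, ← Polynomial.map_cyclotomic_int, Polynomial.eval_map]
      have e1 : Polynomial.eval₂ (Int.castRingHom F) w (Polynomial.cyclotomic m ℤ) =
          q (Polynomial.eval₂ (Int.castRingHom (Subring.closure ({ω} : Set ℂ))) ⟨ω, hωmem⟩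
            (Polynomial.cyclotomic m ℤ)) := by
        rw [Polynomial.hom_eval₂]
        congr 1
        exact RingHom.ext_int _ _
      have e2 : Polynomial.eval₂ (Int.castRingHom (Subring.closure ({ω} : Set ℂ))) ⟨ω, hωmem⟩
            (Polynomial.cyclotomic m ℤ) = 0 := by
        apply Subtype.val_injective
        have := Polynomial.hom_eval₂ (Polynomial.cyclotomic m ℤ)
          (Int.castRingHom (Subring.closure ({ω} : Set ℂ)))
          (Subring.subtype (Subring.closure ({ω} : Set ℂ))) ⟨ω, hωmem⟩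
        simp only [Subring.subtype_apply] at this
        rw [this]
        have e3 : (Subring.subtype (Subring.closure ({ω} : Set ℂ))).comp
            (Int.castRingHom (Subring.closure ({ω} : Set ℂ))) = Int.castRingHom ℂ :=
          RingHom.ext_int _ _
        rw [e3, ← Polynomial.eval_map, Polynomial.map_cyclotomic_int]
        exact hω.isRoot_cyclotomic hm0
      rw [e1, e2, map_zero]
    have hprim : IsPrimitiveRoot w m := Polynomial.isRoot_cyclotomic_iff.1 hroot
    have hgen : ∀ x : F, x ∈ Subring.closure ({w} : Set F) := by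
      intro x
      obtain ⟨a, rfl⟩ := hq x
      obtain ⟨a, ha⟩ := a
      induction ha using Subring.closure_induction with
      | mem x hx =>
        have hx' : x = ω := hx
        subst hx'
        exact Subring.subset_closure rfl
      | zero =>
        have : q ⟨0, Subring.zero_mem _⟩ = 0 := map_zero q
        rw [this]
        exact Subring.zero_mem _
      | one =>
        have : q ⟨1, Subring.one_mem _⟩ = 1 := map_one q
        rw [this]
        exact Subring.one_mem _
      | add x y hx hy ihx ihy =>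
        have : q ⟨x + y, Subring.add_mem _ hx hy⟩ = q ⟨x, hx⟩ + q ⟨y, hy⟩ := by
          rw [← map_add]; rfl
        rw [this]
        exact Subring.add_mem _ ihx ihy
      | neg x hx ihx =>
        have : q ⟨-x, Subring.neg_mem _ hx⟩ = - q ⟨x, hx⟩ := by
          rw [← map_neg]; rfl
        rw [this]
        exact Subring.neg_mem _ ihx
      | mul x y hx hy ihx ihy =>
        have : q ⟨x * y, Subring.mul_mem _ hx hy⟩ = q ⟨x, hx⟩ * q ⟨y, hy⟩ := by
          rw [← map_mul]; rfl
        rw [this]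
        exact Subring.mul_mem _ ihx ihy
    exact Cfsg.Agent.Lib.Helper29.TGM.fld_card p m hm0 hpm w hprim hgen
  -- apply f_main
  obtain ⟨ξ, hdim, hP1⟩ := f_main hH ρF hirr (Subring.closure ({ω} : Set ℂ)) q hval
  refine ⟨ξ, ?_, ?_⟩
  · rw [Module.natCard_eq_pow_finrank (K := F) (V := V), hcardF, hdim, pow_mul]
  · intro v
    have h1 := congrArg (fun T : V →ₗ[F] V => T v) hP1
    simp only [LinearMap.sum_apply, LinearMap.smul_apply, Module.End.one_apply] at h1
    have hd : (charDegree (ξ : H → ℂ) : F) ≠ 0 := by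
      intro h0
      have h2 : p ∣ charDegree (ξ : H → ℂ) := (CharP.cast_eq_zero_iff F p _).1 h0
      -- then all coefficients vanish and `v = 0` for all `v`
      have : ∀ h : H, Ecoef (Subring.closure ({ω} : Set ℂ)) q ξ (hval ξ) h = 0 := by
        intro h
        simp [Ecoef, h0]
      have hz : (1 : V →ₗ[F] V) = 0 := by
        rw [← hP1]
        simp [this]
      exact one_ne_zero hz
    have key : ∀ h : H, (Nat.card H : F) • (Ecoef (Subring.closure ({ω} : Set ℂ)) q ξ (hval ξ) h •
        ρF h v) = (charDegree (ξ : H → ℂ) : F) • φ ⟨(ξ : H → ℂ) h⁻¹, hval ξ h⁻¹⟩ (ρ h v) := by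
      intro h
      rw [smul_smul, ← hqφ, smul_smul, hρF]
      congr 1
      unfold Ecoef
      field_simp
    have h3 : (Nat.card H : F) • v = (charDegree (ξ : H → ℂ) : F) •
        ∑ h : H, φ ⟨(ξ : H → ℂ) h⁻¹, hval ξ h⁻¹⟩ (ρ h v) := by
      conv_lhs => rw [← h1]
      rw [Finset.smul_sum, Finset.smul_sum]
      exact Finset.sum_congr rfl fun h _ => key h
    rw [Nat.cast_smul_eq_nsmul, Nat.cast_smul_eq_nsmul] at h3
    rw [natCast_zsmul, natCast_zsmul]
    exact h3.symm

/-- PIECE SIMPLE: `mod_main` for a simple `(H, O)`-module. -/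
theorem simple_main {H : Type*} [Group H] [Fintype H] (p : ℕ) [Fact p.Prime]
    (hpH : ¬ p ∣ Nat.card H)
    {V : Type*} [AddCommGroup V] [Finite V] [Nontrivial V] (hV : ∀ v : V, (p : ℤ) • v = 0)
    (ρ : H →* (V →ₗ[ℤ] V))
    (m : ℕ) (hm0 : 0 < m) (hpm : ¬ p ∣ m)
    (ω : ℂ) (hω : IsPrimitiveRoot ω m)
    (φ : Subring.closure ({ω} : Set ℂ) →+* (V →ₗ[ℤ] V))
    (hφρ : ∀ a h, φ a ∘ₗ ρ h = ρ h ∘ₗ φ a)
    (hval : ∀ (ξ : IrrCharacter H) (h : H), (ξ : H → ℂ) h ∈ Subring.closure ({ω} : Set ℂ))
    (hsimple : ∀ U : Submodule ℤ V, (∀ h, ∀ u ∈ U, ρ h u ∈ U) → (∀ a, ∀ u ∈ U, φ a u ∈ U) →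
      U = ⊥ ∨ U = ⊤) :
    ∃ ξ : IrrCharacter H,
      Nat.card V = p ^ (orderOf ((p : ZMod m)) * charDegree (ξ : H → ℂ)) ∧
      ∀ v : V, (charDegree (ξ : H → ℂ) : ℤ) •
        (∑ h : H, φ ⟨(ξ : H → ℂ) h⁻¹, hval ξ h⁻¹⟩ (ρ h v)) = (Nat.card H : ℤ) • v := by
  classical
  have hp := (Fact.out : p.Prime)
  set I : Ideal (Subring.closure ({ω} : Set ℂ)) := RingHom.ker φ with hI
  have hprime : I.IsPrime := by
    rw [Ideal.isPrime_iff]
    refine ⟨?_, ?_⟩
    · intro htop
      have h1 : (1 : Subring.closure ({ω} : Set ℂ)) ∈ I := by rw [htop]; trivial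
      rw [hI, RingHom.mem_ker, map_one] at h1
      obtain ⟨v, hv⟩ := exists_ne (0 : V)
      apply hv
      have := LinearMap.congr_fun h1 v
      simpa using this
    · intro a b hab
      by_contra hcon
      push Not at hcon
      obtain ⟨ha, hb⟩ := hcon
      have hU := hsimple (LinearMap.range (φ b))
        (by
          rintro h _ ⟨u, rfl⟩
          exact ⟨ρ h u, LinearMap.congr_fun (hφρ b h) u⟩)
        (by
          rintro c _ ⟨u, rfl⟩
          refine ⟨φ c u, ?_⟩
          have e1 : φ (b * c) = φ (c * b) := by rw [mul_comm]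
          rw [map_mul, map_mul] at e1
          exact LinearMap.congr_fun e1 u)
      rcases hU with h0 | h1
      · apply hb
        rw [hI, RingHom.mem_ker]
        exact LinearMap.range_eq_bot.1 h0
      · apply ha
        rw [hI, RingHom.mem_ker]
        ext v
        have hv : v ∈ LinearMap.range (φ b) := by rw [h1]; trivial
        obtain ⟨u, rfl⟩ := hv
        have e2 : φ (a * b) = 0 := hab
        rw [map_mul] at e2
        exact LinearMap.congr_fun e2 u
  haveI : Finite (V →ₗ[ℤ] V) :=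
    Finite.of_injective (fun g : V →ₗ[ℤ] V => (g : V → V)) DFunLike.coe_injective
  haveI : Finite (Subring.closure ({ω} : Set ℂ) ⧸ I) :=
    Finite.of_injective (RingHom.kerLift φ) (RingHom.kerLift_injective φ)
  haveI := hprime
  have hfield : IsField (Subring.closure ({ω} : Set ℂ) ⧸ I) := Finite.isField_of_domain _
  haveI hmax : I.IsMaximal := Ideal.Quotient.maximal_of_isField I hfield
  letI : Field (Subring.closure ({ω} : Set ℂ) ⧸ I) := Ideal.Quotient.field I
  have h0 : ((p : ℕ) : Subring.closure ({ω} : Set ℂ) ⧸ I) = 0 := by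
    have e1 : ((p : ℕ) : Subring.closure ({ω} : Set ℂ) ⧸ I) =
        Ideal.Quotient.mk I ((p : ℕ) : Subring.closure ({ω} : Set ℂ)) := (map_natCast _ _).symm
    rw [e1, Ideal.Quotient.eq_zero_iff_mem, hI, RingHom.mem_ker, map_natCast]
    ext v
    have := hV v
    simpa using this
  haveI : CharP (Subring.closure ({ω} : Set ℂ) ⧸ I) p :=
    ringChar.of_eq (CharP.ringChar_of_prime_eq_zero hp h0)
  letI : Module (Subring.closure ({ω} : Set ℂ) ⧸ I) V := Module.compHom V (RingHom.kerLift φ)
  have hqφ : ∀ (a : Subring.closure ({ω} : Set ℂ)) (v : V),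
      (Ideal.Quotient.mk I a) • v = φ a v := fun a v => rfl
  exact field_main p hpH ρ m hm0 hpm ω hω φ hφρ hval hsimple (Ideal.Quotient.mk I)
    Ideal.Quotient.mk_surjective hqφ

end Cfsg.Agent.Lib.Helper82.TGM
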