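import Mathlib
import Cfsg.Prelude.Def_GeometricClasses
import Cfsg.Prelude.Def_ClassicalGeometry
import Cfsg.Prelude.Def_LieClassical
import Cfsg.Agent.Lib.Helper98.U84Defs
import Cfsg.Agent.Lib.Helper93.SUPair

/-! S5984 project U84 (helper98), piece ADAPT: a hyperbolic basis adapted to a pair of complementary
totally singular subspaces of the unitary space. -/

set_option autoImplicit false

namespace Cfsg.Agent.Lib.Helper98.U84

open Matrix Polynomial
open Cfsg.Agent.Lib.Helper7 Cfsg.Agent.Lib.Helper18 Cfsg.Agent.Lib.Helper93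

/-- a matrix `Pm` with injective `mulVec` between index types of the same size has a two-sided
inverse -/
theorem u84adapt_inverse {F : Type*} [Field F] {n m : ℕ} (hn : n = m + m)
    (Pm : Matrix (Fin n) (Fin m ⊕ Fin m) F) (hinj : ∀ a : Fin m ⊕ Fin m → F, Pm *ᵥ a = 0 → a = 0) :
    ∃ Pi : Matrix (Fin m ⊕ Fin m) (Fin n) F, Pm * Pi = 1 ∧ Pi * Pm = 1 := by
  classical
  have hcard : Fintype.card (Fin n) = Fintype.card (Fin m ⊕ Fin m) := by
    simp [hn]
  let e : Fin n ≃ Fin m ⊕ Fin m := Fintype.equivOfCardEq hcard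
  set P' : Matrix (Fin n) (Fin n) F := Pm.submatrix id e with hP'
  have hinj' : Function.Injective P'.mulVec := by
    intro x y hxy
    have h1 : P' *ᵥ (x - y) = 0 := by
      rw [Matrix.mulVec_sub]
      exact sub_eq_zero.2 hxy
    rw [hP', Matrix.submatrix_mulVec_equiv] at h1
    have h2 : Pm *ᵥ ((x - y) ∘ e.symm) = 0 := by
      funext k
      have := congrFun h1 k
      simpa using this
    have h3 := hinj _ h2
    have h4 : x - y = 0 := by
      funext k
      have := congrFun h3 (e k)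
      simpa using this
    exact sub_eq_zero.1 h4
  have hunit : IsUnit P' := Matrix.mulVec_injective_iff_isUnit.1 hinj'
  have hdet : IsUnit P'.det := (Matrix.isUnit_iff_isUnit_det P').1 hunit
  have hPm : Pm = P'.submatrix id e.symm := by
    ext i j
    simp [hP']
  refine ⟨(P'⁻¹).submatrix e.symm id, ?_, ?_⟩
  · rw [hPm]
    rw [Matrix.submatrix_mul_equiv P' P'⁻¹ id e.symm id, Matrix.mul_nonsing_inv P' hdet]
    rfl
  · rw [hPm]
    have h1 : (P'⁻¹).submatrix e.symm id * P'.submatrix id e.symm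
        = (P'⁻¹ * P').submatrix e.symm e.symm :=
      Matrix.submatrix_mul_equiv P'⁻¹ P' e.symm (Equiv.refl (Fin n)) e.symm
    rw [h1, Matrix.nonsing_inv_mul P' hdet, Matrix.submatrix_one_equiv]

theorem exists_adapted {F : Type*} [Field F] [Fintype F] {q n m : ℕ} (hF : Fintype.card F = q ^ 2)
    (D : Fin 2 → Submodule F (Fin n → F)) (hD : Cfsg.Geo.IsMDecomposition m D)
    (hDs : ∀ i, Cfsg.Geo.IsTotallySingularFor (Cfsg.hermForm n F q) (D i)) :
    ∃ (Pm : Matrix (Fin n) (Fin m ⊕ Fin m) F) (Pi : Matrix (Fin m ⊕ Fin m) (Fin n) F),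
      Adapted q D Pm Pi := by
  classical
  have hq0 : q ≠ 0 := herm_q_ne_zero hF
  have hdisj : ∀ x, x ∈ D 0 → x ∈ D 1 → x = 0 := by
    have h1 : Disjoint (D 0) (⨆ j, ⨆ (_ : j ≠ 0), D j) := hD.indep 0
    have h2 : D 1 ≤ ⨆ j, ⨆ (_ : j ≠ 0), D j := le_iSup₂_of_le 1 (by decide) le_rfl
    exact Submodule.disjoint_def.mp (h1.mono_right h2)
  have hsup : D 0 ⊔ D 1 = ⊤ := by
    have h1 : iSup D ≤ D 0 ⊔ D 1 := by
      apply iSup_le
      rw [Fin.forall_fin_two]
      exact ⟨le_sup_left, le_sup_right⟩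
    rw [hD.iSup_eq_top] at h1
    exact top_le_iff.1 h1
  have hspan : ∀ x, ∃ u ∈ D 0, ∃ w ∈ D 1, x = u + w := by
    intro x
    have h2 : x ∈ D 0 ⊔ D 1 := by rw [hsup]; trivial
    obtain ⟨u, hu, w, hw, rfl⟩ := Submodule.mem_sup.mp h2
    exact ⟨u, hu, w, hw, rfl⟩
  have hinf : D 0 ⊓ D 1 = ⊥ := by
    rw [eq_bot_iff]
    intro x hx
    rw [Submodule.mem_inf] at hx
    rw [Submodule.mem_bot]
    exact hdisj x hx.1 hx.2
  have hn : n = m + m := by
    have h1 := Submodule.finrank_sup_add_finrank_inf_eq (D 0) (D 1)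
    rw [hsup, hinf, finrank_top, finrank_bot, hD.finrank_eq 0, hD.finrank_eq 1,
      Module.finrank_fin_fun] at h1
    omega
  have hp : DualPair q n (D 0) (D 1) := dualPair_of_compl hF hdisj hspan (hDs 0) (hDs 1)
  -- a basis of `D 0`
  let bU : Module.Basis (Fin m) F (D 0) := Module.finBasisOfFinrankEq F (D 0) (hD.finrank_eq 0)
  -- the pairing map
  let Φ : (D 1) →ₗ[F] (Fin m → F) :=
    { toFun := fun w i => Cfsg.hermForm n F q (w : Fin n → F) (bU i : Fin n → F)
      map_add' := fun w w' => by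
        funext i
        simp [hf_add_left]
      map_smul' := fun c w => by
        funext i
        simp [hf_smul_left] }
  have hΦ : ∀ (w : D 1) (i : Fin m),
      Φ w i = Cfsg.hermForm n F q (w : Fin n → F) (bU i : Fin n → F) := fun _ _ => rfl
  have hΦinj : Function.Injective Φ := by
    rw [← LinearMap.ker_eq_bot, LinearMap.ker_eq_bot']
    intro w hw
    by_contra hne
    have hne' : (w : Fin n → F) ≠ 0 := fun h => hne (Subtype.ext h)
    obtain ⟨u, hu, hu0⟩ := hp.exW w w.2 hne'
    apply hu0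
    have hrep : (⟨u, hu⟩ : D 0) = ∑ i, bU.repr ⟨u, hu⟩ i • bU i := (bU.sum_repr _).symm
    have hu' : u = ∑ i, bU.repr ⟨u, hu⟩ i • (bU i : Fin n → F) := by
      have h := congrArg (Submodule.subtype (D 0)) hrep
      rw [map_sum] at h
      simp only [map_smul, Submodule.subtype_apply] at h
      exact h
    rw [hf_conj hF n (w : Fin n → F) u, hu', hf_sum_right hF]
    have hz : ∀ i, Cfsg.hermForm n F q (w : Fin n → F)
        (bU.repr ⟨u, hu⟩ i • (bU i : Fin n → F)) = 0 := by
      intro i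
      rw [hf_smul_right]
      have h1 : Φ w i = 0 := by rw [hw]; rfl
      rw [hΦ] at h1
      rw [h1, mul_zero]
    simp only [hz, Finset.sum_const_zero]
    exact zero_pow hq0
  have hΦsurj : Function.Surjective Φ := by
    apply (LinearMap.injective_iff_surjective_of_finrank_eq_finrank ?_).1 hΦinj
    rw [hD.finrank_eq 1, Module.finrank_fin_fun]
  choose wv hwv using fun j : Fin m => hΦsurj (Pi.single j 1)
  have hwu : ∀ i j, Cfsg.hermForm n F q (wv j : Fin n → F) (bU i : Fin n → F)
      = if i = j then 1 else 0 := by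
    intro i j
    have h1 := congrFun (hwv j) i
    rw [hΦ] at h1
    rw [h1, Pi.single_apply]
  have huw : ∀ i j, Cfsg.hermForm n F q (bU i : Fin n → F) (wv j : Fin n → F)
      = if i = j then 1 else 0 := by
    intro i j
    rw [hf_conj hF n (wv j : Fin n → F) (bU i : Fin n → F), hwu]
    split_ifs
    · exact one_pow q
    · exact zero_pow hq0
  have huu : ∀ i j, Cfsg.hermForm n F q (bU i : Fin n → F) (bU j : Fin n → F) = 0 :=
    fun i j => hDs 0 _ (bU i).2 _ (bU j).2
  have hww : ∀ i j, Cfsg.hermForm n F q (wv i : Fin n → F) (wv j : Fin n → F) = 0 :=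
    fun i j => hDs 1 _ (wv i).2 _ (wv j).2
  -- the matrix
  let Pm : Matrix (Fin n) (Fin m ⊕ Fin m) F := fun k c =>
    Sum.elim (fun i => (bU i : Fin n → F) k) (fun j => (wv j : Fin n → F) k) c
  have hPm : ∀ a : Fin m ⊕ Fin m → F, Pm *ᵥ a
      = ∑ i, a (Sum.inl i) • (bU i : Fin n → F) + ∑ j, a (Sum.inr j) • (wv j : Fin n → F) := by
    intro a
    funext k
    simp only [Matrix.mulVec, dotProduct, Fintype.sum_sum_type, Pm, Sum.elim_inl, Sum.elim_inr,
      Pi.add_apply, Finset.sum_apply, Pi.smul_apply, smul_eq_mul]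
    congr 1 <;> exact Finset.sum_congr rfl fun i _ => mul_comm _ _
  have hform : ∀ a b : Fin m ⊕ Fin m → F,
      Cfsg.hermForm n F q (Pm *ᵥ a) (Pm *ᵥ b) = hypForm m q F a b := by
    intro a b
    rw [hPm a, hPm b]
    simp only [hf_add_left, hf_add_right hF, hf_sum_left, hf_sum_right hF, hf_smul_left,
      hf_smul_right, huu, hww, huw, hwu]
    simp only [mul_zero, Finset.sum_const_zero, zero_add, add_zero, mul_ite, mul_one,
      Finset.sum_ite_eq, Finset.sum_ite_eq', Finset.mem_univ, if_true]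
    unfold hypForm
    rw [Finset.sum_add_distrib, add_comm]
    congr 1 <;> exact Finset.sum_congr rfl fun i _ => mul_comm _ _
  have hmem0' : ∀ a : Fin m ⊕ Fin m → F, (∀ i, a (Sum.inr i) = 0) → Pm *ᵥ a ∈ D 0 := by
    intro a ha
    rw [hPm a]
    simp only [ha, zero_smul, Finset.sum_const_zero, add_zero]
    exact Submodule.sum_mem _ fun i _ => Submodule.smul_mem _ _ (bU i).2
  have hmem1' : ∀ a : Fin m ⊕ Fin m → F, (∀ i, a (Sum.inl i) = 0) → Pm *ᵥ a ∈ D 1 := by
    intro a ha
    rw [hPm a]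
    simp only [ha, zero_smul, Finset.sum_const_zero, zero_add]
    exact Submodule.sum_mem _ fun i _ => Submodule.smul_mem _ _ (wv i).2
  have hhyp_l : ∀ (a : Fin m ⊕ Fin m → F) (j : Fin m),
      hypForm m q F a (Pi.single (Sum.inl j) 1) = a (Sum.inr j) := by
    intro a j
    unfold hypForm
    rw [Finset.sum_eq_single j]
    · simp [hq0]
    · intro i _ hij
      simp [Pi.single_apply, hij, hq0]
    · intro h
      exact absurd (Finset.mem_univ j) h
  have hhyp_r : ∀ (a : Fin m ⊕ Fin m → F) (j : Fin m),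
      hypForm m q F a (Pi.single (Sum.inr j) 1) = a (Sum.inl j) := by
    intro a j
    unfold hypForm
    rw [Finset.sum_eq_single j]
    · simp [hq0]
    · intro i _ hij
      simp [Pi.single_apply, hij, hq0]
    · intro h
      exact absurd (Finset.mem_univ j) h
  have hinj : ∀ a : Fin m ⊕ Fin m → F, Pm *ᵥ a = 0 → a = 0 := by
    intro a ha
    have h0 : ∀ b, hypForm m q F a b = 0 := by
      intro b
      rw [← hform, ha, hf_zero_left]
    funext c
    rcases c with i | i
    · rw [← hhyp_r a i]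
      exact h0 _
    · rw [← hhyp_l a i]
      exact h0 _
  obtain ⟨Pi', h1, h2⟩ := u84adapt_inverse hn Pm hinj
  refine ⟨Pm, Pi', h1, h2, hform, ?_, ?_⟩
  · intro a
    refine ⟨fun h i => ?_, hmem0' a⟩
    rw [← hhyp_l a i, ← hform]
    apply hDs 0 _ h
    apply hmem0'
    intro k
    simp
  · intro a
    refine ⟨fun h i => ?_, hmem1' a⟩
    rw [← hhyp_r a i, ← hform]
    apply hDs 1 _ h
    apply hmem1'
    intro k
    simp

end Cfsg.Agent.Lib.Helper98.U84
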